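import Mathlib
import Cfsg.Prelude.Def_ChevF4
import Cfsg.Prelude.Def_ChevWords
import Cfsg.Agent.Lib.helper9.CosetEnum

/-! Matrices over the field of two elements on the index set of the Chevalley datum of type F4, packed
as lists of natural numbers (one per row, a bit per column), and their products. -/

set_option autoImplicit false

namespace Cfsg.Agent.Lib.helper9.BM

open Cfsg.Lie Cfsg.Agent.Lib.helper9.CE

/-- the index set -/
abbrev Idx : Type := chevF4.Idx

/-- a bit as an element of the field -/
def b2z (b : Bool) : ZMod 2 := if b then 1 else 0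

theorem b2z_xor (a b : Bool) : b2z (a ^^ b) = b2z a + b2z b := by
  cases a <;> cases b <;> decide

theorem b2z_inj {a b : Bool} (h : b2z a = b2z b) : a = b := by
  revert h
  cases a <;> cases b <;> decide

/-- the position of an index -/
def code : Idx → Nat
  | Sum.inl i => i.val
  | Sum.inr j => 4 + j.val

/-- the vector with the bits of a number as coordinates -/
def toVec (v : Nat) : Idx → ZMod 2 := fun j => b2z (v.testBit (code j))

/-- the matrix with the bits of the numbers of a list as rows -/
def toMat (rows : List Nat) : Matrix Idx Idx (ZMod 2) :=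
  Matrix.of fun i => toVec (rows.getD (code i) 0)

/-- a matrix as a function -/
def fn (M : Matrix Idx Idx (ZMod 2)) : Idx → Idx → ZMod 2 := M

/-- the sum of the rows of a list at the bits of a number -/
noncomputable def go (v : Nat) : List Nat → Nat → Nat → Nat
  | [], _, acc => acc
  | r :: rs, k, acc => go v rs (k + 1) (cond (v.testBit k) (acc ^^^ r) acc)

/-- a row vector times a matrix -/
noncomputable def rowMul (v : Nat) (N : List Nat) : Nat := go v N 0 0

/-- the product of two matrices -/
noncomputable def bmul (M N : List Nat) : List Nat := M.map (fun r => rowMul r N)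

/-- the identity matrix -/
def bone : List Nat := (List.range 52).map (fun i => 2 ^ i)

theorem go_spec (v : Nat) (m : Nat) : ∀ (L : List Nat) (k acc : Nat),
    b2z ((go v L k acc).testBit m) = b2z (acc.testBit m) +
      ∑ i ∈ Finset.range L.length, b2z (v.testBit (k + i)) * b2z ((L.getD i 0).testBit m)
  | [], k, acc => by simp [go]
  | r :: rs, k, acc => by
    have h1 : b2z ((cond (v.testBit k) (acc ^^^ r) acc).testBit m) =
        b2z (acc.testBit m) + b2z (v.testBit k) * b2z (r.testBit m) := by
      cases h : v.testBit k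
      · simp [b2z]
      · simp only [cond_true, Nat.testBit_xor, b2z_xor]
        simp [b2z]
    have h2 : ∀ i, k + 1 + i = k + (i + 1) := fun i => by omega
    rw [go, go_spec v m rs (k + 1), List.length_cons, Finset.sum_range_succ', h1]
    simp only [List.getD_cons_succ, List.getD_cons_zero, Nat.add_zero, h2]
    ring

theorem go_zero : ∀ (L : List Nat) (k : Nat), go 0 L k 0 = 0
  | [], _ => rfl
  | r :: rs, k => by
    rw [go, Nat.zero_testBit]
    exact go_zero rs (k + 1)

theorem sum_code (f : Nat → ZMod 2) : ∑ k : Idx, f (code k) = ∑ m ∈ Finset.range 52, f m := by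
  rw [show (52 : Nat) = 4 + 48 from rfl, Finset.sum_range_add, ← Fin.sum_univ_eq_sum_range,
    ← Fin.sum_univ_eq_sum_range (fun x => f (4 + x))]
  exact Fintype.sum_sum_type _

theorem vecMul_toVec (v : Nat) (N : List Nat) (hN : N.length = 52) :
    Matrix.vecMul (toVec v) (toMat N) = toVec (rowMul v N) := by
  funext j
  have h := go_spec v (code j) N 0 0
  rw [hN] at h
  show ∑ k : Idx, toVec v k * toMat N k j = toVec (rowMul v N) j
  unfold toVec rowMul
  rw [h, ← sum_code (fun m => b2z (v.testBit (0 + m)) * b2z ((N.getD m 0).testBit (code j)))]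
  simp [toMat, toVec, b2z]

theorem getD_bmul (M N : List Nat) (c : Nat) : (bmul M N).getD c 0 = rowMul (M.getD c 0) N := by
  have h0 : rowMul 0 N = 0 := go_zero N 0
  unfold bmul
  conv_lhs => rw [← h0]
  exact List.getD_map M 0 (fun r => rowMul r N)

theorem toMat_mul (M N : List Nat) (hN : N.length = 52) : toMat (bmul M N) = toMat M * toMat N := by
  ext i j
  rw [Matrix.mul_apply]
  have h := congrFun (vecMul_toVec (M.getD (code i) 0) N hN) j
  show toVec ((bmul M N).getD (code i) 0) j = _
  rw [getD_bmul, ← h]
  rfl

theorem toMat_one : toMat bone = 1 := by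
  have h : ∀ i j : Idx, fn (toMat bone) i j = fn 1 i j := by decide +kernel
  ext i j
  exact h i j

theorem length_bmul (M N : List Nat) : (bmul M N).length = M.length := List.length_map _

/-- an invertible matrix from the rows of it and of its inverse -/
noncomputable def mkGL (d di : List Nat) (h1 : bmul d di = bone) (h2 : bmul di d = bone)
    (hd : d.length = 52) (hdi : di.length = 52) : GL Idx (ZMod 2) :=
  ⟨toMat d, toMat di, by rw [← toMat_mul d di hdi, h1, toMat_one],
    by rw [← toMat_mul di d hd, h2, toMat_one]⟩

theorem mkGL_val (d di : List Nat) (h1 : bmul d di = bone) (h2 : bmul di d = bone)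
    (hd : d.length = 52) (hdi : di.length = 52) : (mkGL d di h1 h2 hd hdi).val = toMat d := rfl

theorem mkGL_inv_val (d di : List Nat) (h1 : bmul d di = bone) (h2 : bmul di d = bone)
    (hd : d.length = 52) (hdi : di.length = 52) : (mkGL d di h1 h2 hd hdi)⁻¹.val = toMat di := rfl

/-- the matrix of a word, the rows of the letters being given -/
noncomputable def evalB {α : Type} (σ : α × Bool → List Nat) : Word α → List Nat
  | [] => bone
  | l :: L => bmul (σ l) (evalB σ L)

theorem length_evalB {α : Type} (σ : α × Bool → List Nat) (hlen : ∀ l, (σ l).length = 52) :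
    ∀ L : Word α, (evalB σ L).length = 52
  | [] => by
    show bone.length = 52
    decide
  | l :: L => by rw [evalB, length_bmul]; exact hlen l

theorem evalB_spec {α : Type} (f : α → GL Idx (ZMod 2)) (σ : α × Bool → List Nat)
    (hσ : ∀ x, (f x).val = toMat (σ (x, true))) (hσi : ∀ x, (f x)⁻¹.val = toMat (σ (x, false)))
    (hlen : ∀ l, (σ l).length = 52) :
    ∀ L : Word α, (FreeGroup.lift f (FreeGroup.mk L)).val = toMat (evalB σ L)
  | [] => by
    rw [evalB, toMat_one]
    rfl
  | (x, b) :: L => by
    have h1 : (FreeGroup.mk ((x, b) :: L) : FreeGroup α) = FreeGroup.mk [(x, b)] * FreeGroup.mk L := rfl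
    have h2 : FreeGroup.lift f (FreeGroup.mk [(x, b)]) = cond b (f x) (f x)⁻¹ := by
      rw [FreeGroup.lift_mk]
      simp
    rw [h1, map_mul, Units.val_mul, evalB_spec f σ hσ hσi hlen L, h2, evalB,
      toMat_mul _ _ (length_evalB σ hlen L)]
    cases b
    · rw [cond_false, hσi]
    · rw [cond_true, hσ]

theorem toVec_inj {c c' : Nat} (hc : c < 2 ^ 52) (hc' : c' < 2 ^ 52) (h : toVec c = toVec c') :
    c = c' := by
  apply Nat.eq_of_testBit_eq
  intro m
  by_cases hm : m < 52
  · by_cases h4 : m < 4
    · have := congrFun h (Sum.inl ⟨m, h4⟩)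
      exact b2z_inj this
    · have := congrFun h (Sum.inr ⟨m - 4, by change m - 4 < 48; omega⟩)
      have e : code (Sum.inr ⟨m - 4, by change m - 4 < 48; omega⟩) = m := by
        show 4 + (m - 4) = m
        omega
      unfold toVec at this
      rw [e] at this
      exact b2z_inj this
  · have h1 : (2 : Nat) ^ 52 ≤ 2 ^ m := Nat.pow_le_pow_right (by norm_num) (by omega)
    rw [Nat.testBit_lt_two_pow (lt_of_lt_of_le hc h1), Nat.testBit_lt_two_pow (lt_of_lt_of_le hc' h1)]

/-- a homomorphism from a presented group has its range in a subgroup that holds the images of the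
generators -/
theorem range_le_of_gens {α : Type} {rels : Set (FreeGroup α)} {G : Type*} [Group G]
    (ψ : PresentedGroup rels →* G) (K : Subgroup G) (h : ∀ x, ψ (PresentedGroup.of x) ∈ K) :
    ψ.range ≤ K := by
  rw [MonoidHom.range_eq_map, ← PresentedGroup.closure_range_of, MonoidHom.map_closure,
    Subgroup.closure_le]
  rintro _ ⟨_, ⟨x, rfl⟩, rfl⟩
  exact h x

/-- a set of generators in the union of a subgroup and one coset of it that behaves as of index two:
then so is the subgroup they generate -/
theorem two_cosets {G : Type*} [Group G] (T : Subgroup G) (t : G) (ht2 : t * t ∈ T)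
    (hconj : ∀ x ∈ T, t * x * t⁻¹ ∈ T) (S : Set G) (hS : ∀ g ∈ S, g ∈ T ∨ g * t⁻¹ ∈ T) :
    ∀ g ∈ Subgroup.closure S, g ∈ T ∨ g * t⁻¹ ∈ T := by
  have ht2' : t⁻¹ * t⁻¹ ∈ T := by
    have := T.inv_mem ht2
    rwa [mul_inv_rev] at this
  intro g hg
  induction hg using Subgroup.closure_induction with
  | mem x hx => exact hS x hx
  | one => exact Or.inl T.one_mem
  | mul x y _ _ hx hy =>
    rcases hx with hx | hx <;> rcases hy with hy | hy
    · exact Or.inl (T.mul_mem hx hy)
    · right
      have : x * y * t⁻¹ = x * (y * t⁻¹) := by group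
      rw [this]
      exact T.mul_mem hx hy
    · right
      have : x * y * t⁻¹ = (x * t⁻¹) * (t * y * t⁻¹) := by group
      rw [this]
      exact T.mul_mem hx (hconj y hy)
    · left
      have : x * y = (x * t⁻¹) * (t * (y * t⁻¹) * t⁻¹) * (t * t) := by group
      rw [this]
      exact T.mul_mem (T.mul_mem hx (hconj _ hy)) ht2
  | inv x _ hx =>
    rcases hx with hx | hx
    · exact Or.inl (T.inv_mem hx)
    · right
      have : x⁻¹ * t⁻¹ = (t⁻¹ * t⁻¹) * (t * (x * t⁻¹)⁻¹ * t⁻¹) := by group
      rw [this]
      exact T.mul_mem ht2' (hconj _ (T.inv_mem hx))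

end Cfsg.Agent.Lib.helper9.BM
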