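import Cfsg.Agent.Lib.helper9.CE0423hC0

set_option autoImplicit false

namespace Cfsg.Agent.Lib.helper9.CE0423h
open Cfsg.Agent.Lib.helper9.CE
open Cfsg.Spor
open Cfsg.Spor.Fi23 (Gen)

theorem hperm : ∀ x : Gen, ∀ i, i < D.n → D.permK x i = true := by
  intro x i hi
  cases x
  · exact allRange_spec hperm_a i (Nat.zero_le _) hi
  · exact allRange_spec hperm_b i (Nat.zero_le _) hi
  · exact allRange_spec hperm_c i (Nat.zero_le _) hi
  · exact allRange_spec hperm_d i (Nat.zero_le _) hi
  · exact allRange_spec hperm_e i (Nat.zero_le _) hi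
  · exact allRange_spec hperm_f i (Nat.zero_le _) hi
  · exact allRange_spec hperm_g i (Nat.zero_le _) hi
  · exact allRange_spec hperm_j i (Nat.zero_le _) hi
  · exact allRange_spec hperm_h i (Nat.zero_le _) hi
  · exact allRange_spec hperm_i i (Nat.zero_le _) hi

theorem hfin : ∀ x : Gen, ∀ i, i < D.n → D.finK x i = true := by
  intro x i hi
  cases x
  · exact allRange_spec hfin_a i (Nat.zero_le _) hi
  · exact allRange_spec hfin_b i (Nat.zero_le _) hi
  · exact allRange_spec hfin_c i (Nat.zero_le _) hi
  · exact allRange_spec hfin_d i (Nat.zero_le _) hi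
  · exact allRange_spec hfin_e i (Nat.zero_le _) hi
  · exact allRange_spec hfin_f i (Nat.zero_le _) hi
  · exact allRange_spec hfin_g i (Nat.zero_le _) hi
  · exact allRange_spec hfin_j i (Nat.zero_le _) hi
  · exact allRange_spec hfin_h i (Nat.zero_le _) hi
  · exact allRange_spec hfin_i i (Nat.zero_le _) hi

theorem hrel : ∀ L ∈ RL, ∀ i, 0 ≤ i → i < D.n → D.walk L i = i :=
  (D.rels_join (D.relsK_spec hrel_0) (D.rels_join (D.relsK_spec hrel_1) (D.relsK_spec hrel_2)))

theorem cert : Cert D (relSet RL) (genSet TL) (genW TL) WT :=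
  subCert D RL RWP (fun _ => true) TW TL WT (by decide) hperm (fun L hL i hi => hrel L hL i (Nat.zero_le _) hi)
    hsubK hdec hm hRWP hWTeq hsq hpi0 (allRange_join (allRange_spec htree_0) (allRange_spec htree_1)) hrn0
    (fun i hi => allRange_spec hrnK i (Nat.zero_le _) hi)
    (fun id hid => (allRange_join (allRange_spec hfact_0) (allRange_join (allRange_spec hfact_1) (allRange_join (allRange_spec hfact_2) (allRange_join (allRange_spec hfact_3) (allRange_join (allRange_spec hfact_4) (allRange_join (allRange_spec hfact_5) (allRange_join (allRange_spec hfact_6) (allRange_join (allRange_spec hfact_7) (allRange_spec hfact_8))))))))) id (Nat.zero_le _) hid) hfin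

theorem index : (subH (relSet RL) (genSet TL)).index = 6048 := cert.index

end Cfsg.Agent.Lib.helper9.CE0423h
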