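import Cfsg.Agent.Lib.helper9.CE0423pD

set_option autoImplicit false

namespace Cfsg.Agent.Lib.helper9.CE0423p
open Cfsg.Agent.Lib.helper9 Cfsg.Agent.Lib.helper9.CE
open Cfsg.Spor.Fi23 (Gen)

theorem hrelY_0 : CE0423t.D.relsK [Yp] 0 100 = true := by decide +kernel
theorem horb0_0 : allRange 0 100 (OL0.orb2K CE0423t.D LW0) = true := by decide +kernel
theorem hinvO_0 : O.invsK CE0423t.D (genW CE0423t.TL) 0 100 = true := by decide +kernel
theorem horbO_0 : allRange 0 100 (O.orbK CE0423t.D (genW CE0423t.TL)) = true := by decide +kernel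
theorem horb1_0 : allRange 0 100 (OL1.orb2K CE0423t.D LW1) = true := by decide +kernel
theorem horb2_0 : allRange 0 100 (OL2.orb2K CE0423t.D LW2) = true := by decide +kernel
theorem hfix2 : fixK CE0423t.D LW2 [7, 0] = true := by decide +kernel
theorem hpc_0 : allRange 0 100 (O.pcK 0) = true := by decide +kernel
theorem hpc_1 : allRange 0 100 (O.pcK 1) = true := by decide +kernel
theorem hpc_2 : allRange 0 100 (O.pcK 2) = true := by decide +kernel
theorem hpc0 : allRange 0 100 (OL0.pcK 1) = true := by decide +kernel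
theorem hpc1 : allRange 0 100 (OL1.pcK 1) = true := by decide +kernel
theorem hpc2 : allRange 0 100 (OL2.pcK 1) = true := by decide +kernel
theorem hpc3 : allRange 0 100 (OL3.pcK 1) = true := by decide +kernel
theorem hfix1 : fixK CE0423t.D LW1 [0] = true := by decide +kernel
theorem horb3_0 : allRange 0 100 (OL3.orb2K CE0423t.D LW3) = true := by decide +kernel
theorem hfix3 : fixK CE0423t.D LW3 [19, 7, 0] = true := by decide +kernel
theorem hlabk : allRange 0 100 (O.labK 3) = true := by decide +kernel
theorem hnum : ∀ s ∈ (List.range 3).sublists, 0 ∈ s → (s.map (fun c => ([1, 36, 63] : List Nat).getD c 0)).sum ∣ CE0423t.D.n → s = [0] ∨ s = List.range 3 := by decide +kernel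
theorem hYp : Yp = (List.replicate 5 Yw).flatten := by decide +kernel
theorem hpcz_0 : O.pc 0 0 = 0 := by decide +kernel
theorem hpcn_0 : O.pc 0 100 = 1 := by decide +kernel
theorem hpcz_1 : O.pc 1 0 = 0 := by decide +kernel
theorem hpcn_1 : O.pc 1 100 = 36 := by decide +kernel
theorem hpcz_2 : O.pc 2 0 = 0 := by decide +kernel
theorem hpcn_2 : O.pc 2 100 = 63 := by decide +kernel
theorem hlab0 : O.lab 0 = 0 := by decide +kernel
theorem hrootO : O.root 0 = 0 := by decide +kernel
theorem hfix0 : fixK CE0423t.D LW0 [] = true := by decide +kernel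
theorem hpcz0 : OL0.pc 1 0 = 0 := by decide +kernel
theorem hpcn0 : OL0.pc 1 100 = 100 := by decide +kernel
theorem hroot0 : OL0.root 1 = 0 := by decide +kernel
theorem hpcz1 : OL1.pc 1 0 = 0 := by decide +kernel
theorem hpcn1 : OL1.pc 1 100 = 63 := by decide +kernel
theorem hroot1 : OL1.root 1 = 7 := by decide +kernel
theorem hpcz2 : OL2.pc 1 0 = 0 := by decide +kernel
theorem hpcn2 : OL2.pc 1 100 = 32 := by decide +kernel
theorem hroot2 : OL2.root 1 = 19 := by decide +kernel
theorem hpcz3 : OL3.pc 1 0 = 0 := by decide +kernel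
theorem hpcn3 : OL3.pc 1 100 = 3 := by decide +kernel
theorem hroot3 : OL3.root 1 = 1 := by decide +kernel

end Cfsg.Agent.Lib.helper9.CE0423p
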