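import Cfsg.Agent.Lib.helper9.CE0423tX
import Cfsg.Agent.Lib.helper9.CE0423hX
import Cfsg.Agent.Lib.helper9.CE0423cX
import Cfsg.Agent.Lib.helper9.CE0423pK0

set_option autoImplicit false

namespace Cfsg.Agent.Lib.helper9.CE0423

open Cfsg.Agent.Lib.helper9 Cfsg.Agent.Lib.helper9.CE
open Cfsg.Spor.Fi23 (Gen)

/-- the relators -/
abbrev R0 : Set (FreeGroup Gen) := relSet CE0423t.RL

theorem hS2 : ∀ L ∈ genW CE0423t.TL, FreeGroup.mk L ∈ genSet CE0423t.TL := by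
  intro L hL
  obtain ⟨x, hx, rfl⟩ := List.mem_map.mp hL
  exact ⟨x, hx, rfl⟩

theorem ub1 : Finite (PresentedGroup (relSet CE0423h.RL)) ∧ Nat.card (PresentedGroup (relSet CE0423h.RL)) ≤ 6048 :=
  chain_bot (relSet CE0423h.RL) 6048 (by decide) CE0423h.index

theorem ub0 : Finite (PresentedGroup R0) ∧ Nat.card (PresentedGroup R0) ≤ 100 * 6048 :=
  chain_step R0 CE0423t.RL (wordG_relSet CE0423t.RL) CE0423t.TL CE0423h.RL (by decide +kernel) (genSet CE0423t.TL)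
    (genSet_of CE0423t.TL) 100 6048 (by decide) CE0423t.index ub1

theorem hsz : ∀ c, c < 3 → cntS CE0423p.O.lab c CE0423t.D.n = ([1, 36, 63] : List Nat).getD c 0 := by
  intro c hc
  interval_cases c
  · rw [← CE0423p.O.pc_eq 0 CE0423t.D.n CE0423p.hpcz_0 (fun k hk => allRange_spec CE0423p.hpc_0 k (Nat.zero_le _) hk)]
    exact CE0423p.hpcn_0
  · rw [← CE0423p.O.pc_eq 1 CE0423t.D.n CE0423p.hpcz_1 (fun k hk => allRange_spec CE0423p.hpc_1 k (Nat.zero_le _) hk)]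
    exact CE0423p.hpcn_1
  · rw [← CE0423p.O.pc_eq 2 CE0423t.D.n CE0423p.hpcz_2 (fun k hk => allRange_spec CE0423p.hpc_2 k (Nat.zero_le _) hk)]
    exact CE0423p.hpcn_2

theorem hRLc : CE0423c.RL = CE0423t.RL ++ [CE0423p.Yw] := by decide +kernel

theorem hinvO : ∀ L ∈ (genW CE0423t.TL), ∀ i, 0 ≤ i → i < CE0423t.D.n → CE0423p.O.lab (CE0423t.D.walk L i) = CE0423p.O.lab i :=
  (CE0423p.O.invsK_spec CE0423t.D CE0423p.hinvO_0)

theorem hrelY : ∀ L ∈ [CE0423p.Yp], ∀ i, 0 ≤ i → i < CE0423t.D.n → CE0423t.D.walk L i = i :=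
  (CE0423t.D.relsK_spec CE0423p.hrelY_0)

/-- the presented group is simple of order 604800 and acts faithfully on the 100 cosets of the subgroup -/
theorem main : ∃ (ρ : PresentedGroup R0 →* Equiv.Perm (Fin CE0423t.D.n))
    (e : Fin CE0423t.D.n ≃ PresentedGroup R0 ⧸ subH R0 (genSet CE0423t.TL)),
    (∀ g i, g • e i = e (ρ g i)) ∧ Function.Injective ρ ∧ Finite (PresentedGroup R0) ∧
    IsSimpleGroup (PresentedGroup R0) ∧ Nat.card (PresentedGroup R0) = 604800 := by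
  obtain ⟨ρ, e, he, hρ, he0⟩ := CE0423t.cert.main
  have hfinG : Finite (PresentedGroup R0) := ub0.1
  have hub : Nat.card (PresentedGroup R0) ≤ 604800 := le_trans ub0.2 (by norm_num)
  have l0 := level_step ρ e he hρ CE0423p.OL0 CE0423p.LW0 [] ⟨0, by decide⟩ 100
    (fun L hL p hp => fixK_spec CE0423t.D CE0423p.hfix0 L hL p.val (List.mem_map_of_mem (f := Fin.val) hp))
    (fun j hj => (allRange_spec CE0423p.horb0_0) j (Nat.zero_le _) hj) CE0423p.hroot0 CE0423p.hpcz0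
    (fun k hk => allRange_spec CE0423p.hpc0 k (Nat.zero_le _) hk) CE0423p.hpcn0
  have l1 := level_step ρ e he hρ CE0423p.OL1 CE0423p.LW1 [⟨0, by decide⟩] ⟨7, by decide⟩ 63
    (fun L hL p hp => fixK_spec CE0423t.D CE0423p.hfix1 L hL p.val (List.mem_map_of_mem (f := Fin.val) hp))
    (fun j hj => (allRange_spec CE0423p.horb1_0) j (Nat.zero_le _) hj) CE0423p.hroot1 CE0423p.hpcz1
    (fun k hk => allRange_spec CE0423p.hpc1 k (Nat.zero_le _) hk) CE0423p.hpcn1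
  have l2 := level_step ρ e he hρ CE0423p.OL2 CE0423p.LW2 [⟨7, by decide⟩, ⟨0, by decide⟩] ⟨19, by decide⟩ 32
    (fun L hL p hp => fixK_spec CE0423t.D CE0423p.hfix2 L hL p.val (List.mem_map_of_mem (f := Fin.val) hp))
    (fun j hj => (allRange_spec CE0423p.horb2_0) j (Nat.zero_le _) hj) CE0423p.hroot2 CE0423p.hpcz2
    (fun k hk => allRange_spec CE0423p.hpc2 k (Nat.zero_le _) hk) CE0423p.hpcn2
  have l3 := level_step ρ e he hρ CE0423p.OL3 CE0423p.LW3 [⟨19, by decide⟩, ⟨7, by decide⟩, ⟨0, by decide⟩] ⟨1, by decide⟩ 3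
    (fun L hL p hp => fixK_spec CE0423t.D CE0423p.hfix3 L hL p.val (List.mem_map_of_mem (f := Fin.val) hp))
    (fun j hj => (allRange_spec CE0423p.horb3_0) j (Nat.zero_le _) hj) CE0423p.hroot3 CE0423p.hpcz3
    (fun k hk => allRange_spec CE0423p.hpc3 k (Nat.zero_le _) hk) CE0423p.hpcn3
  have hch := (chain_le (chain_le (chain_le l0 l1) l2) l3)
  obtain ⟨hinj, hcard⟩ := rho_injective_of_chain ρ e he [⟨1, by decide⟩, ⟨19, by decide⟩, ⟨7, by decide⟩, ⟨0, by decide⟩] 604800 (by norm_num)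
    ((by norm_num : (100 * 63 * 32 * 3 : ℕ) = 604800) ▸ hch) hub
  have hdich : ∀ K : Subgroup (PresentedGroup R0), K.Normal → (∀ g ∈ K, ρ g = 1) ∨ CE0423t.D.n ∣ Nat.card K :=
    fun K hK => @normal_dichotomy Gen CE0423t.D R0 (genSet CE0423t.TL) (genW CE0423t.TL) CE0423p.O ρ e (by decide) he hρ he0 hS2
      (fun L hL i hi => hinvO L hL i (Nat.zero_le _) hi) (fun j hj => (allRange_spec CE0423p.horbO_0) j (Nat.zero_le _) hj)
      3 0 [1, 36, 63] (fun j hj => OData.labK_spec _ (allRange_spec CE0423p.hlabk j (Nat.zero_le _) hj)) CE0423p.hlab0 CE0423p.hrootO hsz CE0423p.hnum K hK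
  have hy : wordG R0 CE0423p.Yw ^ 5 = 1 := by
    rw [← wordG_flatten_replicate, ← CE0423p.hYp]
    exact wordG_eq_one_of_walk ρ hinj hρ _ (fun i hi => hrelY CE0423p.Yp (List.mem_singleton.mpr rfl) i (Nat.zero_le _) hi)
  have htop : ∀ K : Subgroup (PresentedGroup R0), K.Normal → wordG R0 CE0423p.Yw ∈ K → K = ⊤ :=
    fun K hK hyK => @normal_eq_top_of_collapse Gen R0 (relSet CE0423c.RL) (FreeGroup.mk CE0423p.Yw)
      (hRLc ▸ collapse_sub R0 CE0423t.RL CE0423p.Yw (wordG_relSet CE0423t.RL)) (subsingleton_of_index_one _ CE0423c.index) K hK hyK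
  have hs := simple_of_data ρ 604800 5 (wordG R0 CE0423p.Yw) hfinG hcard (by norm_num) hinj hdich (by decide)
    (by decide +kernel) hy htop
  exact ⟨ρ, e, he, hinj, hfinG, hs.1, hs.2⟩

end Cfsg.Agent.Lib.helper9.CE0423
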