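import Cfsg.Agent.Lib.helper9.CE0458tX
import Cfsg.Agent.Lib.helper9.CE0458hX
import Cfsg.Agent.Lib.helper9.CE0458cX
import Cfsg.Agent.Lib.helper9.CE0458pK0

set_option autoImplicit false

namespace Cfsg.Agent.Lib.helper9.CE0458

open Cfsg.Agent.Lib.helper9 Cfsg.Agent.Lib.helper9.CE
open Cfsg.Spor.Fi23 (Gen)

/-- the relators -/
abbrev R0 : Set (FreeGroup Gen) := relSet CE0458t.RL

theorem hS2 : ∀ L ∈ genW CE0458t.TL, FreeGroup.mk L ∈ genSet CE0458t.TL := by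
  intro L hL
  obtain ⟨x, hx, rfl⟩ := List.mem_map.mp hL
  exact ⟨x, hx, rfl⟩

theorem ub1 : Finite (PresentedGroup (relSet CE0458h.RL)) ∧ Nat.card (PresentedGroup (relSet CE0458h.RL)) ≤ 8160 :=
  chain_bot (relSet CE0458h.RL) 8160 (by decide) CE0458h.index

theorem ub0 : Finite (PresentedGroup R0) ∧ Nat.card (PresentedGroup R0) ≤ 6156 * 8160 :=
  chain_step R0 CE0458t.RL (wordG_relSet CE0458t.RL) CE0458t.TL CE0458h.RL (by decide +kernel) (genSet CE0458t.TL)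
    (genSet_of CE0458t.TL) 6156 8160 (by decide) CE0458t.index ub1

theorem hsz : ∀ c, c < 8 → cntS CE0458p.O.lab c CE0458t.D.n = ([1, 680, 1360, 2040, 85, 510, 1360, 120] : List Nat).getD c 0 := by
  intro c hc
  interval_cases c
  · rw [← CE0458p.O.pc_eq 0 CE0458t.D.n CE0458p.hpcz_0 (fun k hk => allRange_spec CE0458p.hpc_0 k (Nat.zero_le _) hk)]
    exact CE0458p.hpcn_0
  · rw [← CE0458p.O.pc_eq 1 CE0458t.D.n CE0458p.hpcz_1 (fun k hk => allRange_spec CE0458p.hpc_1 k (Nat.zero_le _) hk)]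
    exact CE0458p.hpcn_1
  · rw [← CE0458p.O.pc_eq 2 CE0458t.D.n CE0458p.hpcz_2 (fun k hk => allRange_spec CE0458p.hpc_2 k (Nat.zero_le _) hk)]
    exact CE0458p.hpcn_2
  · rw [← CE0458p.O.pc_eq 3 CE0458t.D.n CE0458p.hpcz_3 (fun k hk => allRange_spec CE0458p.hpc_3 k (Nat.zero_le _) hk)]
    exact CE0458p.hpcn_3
  · rw [← CE0458p.O.pc_eq 4 CE0458t.D.n CE0458p.hpcz_4 (fun k hk => allRange_spec CE0458p.hpc_4 k (Nat.zero_le _) hk)]
    exact CE0458p.hpcn_4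
  · rw [← CE0458p.O.pc_eq 5 CE0458t.D.n CE0458p.hpcz_5 (fun k hk => allRange_spec CE0458p.hpc_5 k (Nat.zero_le _) hk)]
    exact CE0458p.hpcn_5
  · rw [← CE0458p.O.pc_eq 6 CE0458t.D.n CE0458p.hpcz_6 (fun k hk => allRange_spec CE0458p.hpc_6 k (Nat.zero_le _) hk)]
    exact CE0458p.hpcn_6
  · rw [← CE0458p.O.pc_eq 7 CE0458t.D.n CE0458p.hpcz_7 (fun k hk => allRange_spec CE0458p.hpc_7 k (Nat.zero_le _) hk)]
    exact CE0458p.hpcn_7

theorem hRLc : CE0458c.RL = CE0458t.RL ++ [CE0458p.Yw] := by decide +kernel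

theorem hinvO : ∀ L ∈ (genW CE0458t.TL), ∀ i, 0 ≤ i → i < CE0458t.D.n → CE0458p.O.lab (CE0458t.D.walk L i) = CE0458p.O.lab i :=
  (CE0458p.O.invsK_spec CE0458t.D CE0458p.hinvO_0)

theorem hrelY : ∀ L ∈ [CE0458p.Yp], ∀ i, 0 ≤ i → i < CE0458t.D.n → CE0458t.D.walk L i = i :=
  (CE0458t.D.rels_join (CE0458t.D.relsK_spec CE0458p.hrelY_0) (CE0458t.D.relsK_spec CE0458p.hrelY_1))

/-- the presented group is simple of order 50232960 and acts faithfully on the 6156 cosets of the subgroup -/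
theorem main : ∃ (ρ : PresentedGroup R0 →* Equiv.Perm (Fin CE0458t.D.n))
    (e : Fin CE0458t.D.n ≃ PresentedGroup R0 ⧸ subH R0 (genSet CE0458t.TL)),
    (∀ g i, g • e i = e (ρ g i)) ∧ Function.Injective ρ ∧ Finite (PresentedGroup R0) ∧
    IsSimpleGroup (PresentedGroup R0) ∧ Nat.card (PresentedGroup R0) = 50232960 := by
  obtain ⟨ρ, e, he, hρ, he0⟩ := CE0458t.cert.main
  have hfinG : Finite (PresentedGroup R0) := ub0.1
  have hub : Nat.card (PresentedGroup R0) ≤ 50232960 := le_trans ub0.2 (by norm_num)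
  have l0 := level_step ρ e he hρ CE0458p.OL0 CE0458p.LW0 [] ⟨0, by decide⟩ 6156
    (fun L hL p hp => fixK_spec CE0458t.D CE0458p.hfix0 L hL p.val (List.mem_map_of_mem (f := Fin.val) hp))
    (fun j hj => (allRange_spec CE0458p.horb0_0) j (Nat.zero_le _) hj) CE0458p.hroot0 CE0458p.hpcz0
    (fun k hk => allRange_spec CE0458p.hpc0 k (Nat.zero_le _) hk) CE0458p.hpcn0
  have l1 := level_step ρ e he hρ CE0458p.OL1 CE0458p.LW1 [⟨0, by decide⟩] ⟨8, by decide⟩ 2040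
    (fun L hL p hp => fixK_spec CE0458t.D CE0458p.hfix1 L hL p.val (List.mem_map_of_mem (f := Fin.val) hp))
    (fun j hj => (allRange_spec CE0458p.horb1_0) j (Nat.zero_le _) hj) CE0458p.hroot1 CE0458p.hpcz1
    (fun k hk => allRange_spec CE0458p.hpc1 k (Nat.zero_le _) hk) CE0458p.hpcn1
  have l2 := level_step ρ e he hρ CE0458p.OL2 CE0458p.LW2 [⟨8, by decide⟩, ⟨0, by decide⟩] ⟨1, by decide⟩ 4
    (fun L hL p hp => fixK_spec CE0458t.D CE0458p.hfix2 L hL p.val (List.mem_map_of_mem (f := Fin.val) hp))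
    (fun j hj => (allRange_spec CE0458p.horb2_0) j (Nat.zero_le _) hj) CE0458p.hroot2 CE0458p.hpcz2
    (fun k hk => allRange_spec CE0458p.hpc2 k (Nat.zero_le _) hk) CE0458p.hpcn2
  have hch := (chain_le (chain_le l0 l1) l2)
  obtain ⟨hinj, hcard⟩ := rho_injective_of_chain ρ e he [⟨1, by decide⟩, ⟨8, by decide⟩, ⟨0, by decide⟩] 50232960 (by norm_num)
    ((by norm_num : (6156 * 2040 * 4 : ℕ) = 50232960) ▸ hch) hub
  have hdich : ∀ K : Subgroup (PresentedGroup R0), K.Normal → (∀ g ∈ K, ρ g = 1) ∨ CE0458t.D.n ∣ Nat.card K :=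
    fun K hK => @normal_dichotomy Gen CE0458t.D R0 (genSet CE0458t.TL) (genW CE0458t.TL) CE0458p.O ρ e (by decide) he hρ he0 hS2
      (fun L hL i hi => hinvO L hL i (Nat.zero_le _) hi) (fun j hj => (allRange_spec CE0458p.horbO_0) j (Nat.zero_le _) hj)
      8 0 [1, 680, 1360, 2040, 85, 510, 1360, 120] (fun j hj => OData.labK_spec _ (allRange_spec CE0458p.hlabk j (Nat.zero_le _) hj)) CE0458p.hlab0 CE0458p.hrootO hsz CE0458p.hnum K hK
  have hy : wordG R0 CE0458p.Yw ^ 19 = 1 := by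
    rw [← wordG_flatten_replicate, ← CE0458p.hYp]
    exact wordG_eq_one_of_walk ρ hinj hρ _ (fun i hi => hrelY CE0458p.Yp (List.mem_singleton.mpr rfl) i (Nat.zero_le _) hi)
  have htop : ∀ K : Subgroup (PresentedGroup R0), K.Normal → wordG R0 CE0458p.Yw ∈ K → K = ⊤ :=
    fun K hK hyK => @normal_eq_top_of_collapse Gen R0 (relSet CE0458c.RL) (FreeGroup.mk CE0458p.Yw)
      (hRLc ▸ collapse_sub R0 CE0458t.RL CE0458p.Yw (wordG_relSet CE0458t.RL)) (subsingleton_of_index_one _ CE0458c.index) K hK hyK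
  have hs := simple_of_data ρ 50232960 19 (wordG R0 CE0458p.Yw) hfinG hcard (by norm_num) hinj hdich (by decide)
    (by decide +kernel) hy htop
  exact ⟨ρ, e, he, hinj, hfinG, hs.1, hs.2⟩

end Cfsg.Agent.Lib.helper9.CE0458
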