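import Cfsg.Agent.Lib.helper9.CosetBase

/-!
# Simplicity from an element of composite order

A variant of the simplicity criterion: instead of an element of prime order not dividing the order
of the point stabilizer, an element `y` of order dividing `o` and an exponent `m` divisible by
`gcd o (N / n)`, when the normal closure of `y ^ m` is the whole group.
-/

set_option autoImplicit false

namespace Cfsg.Agent.Lib.helper9.CE

theorem pow_mem_of_gcd {G : Type*} [Group G] (K : Subgroup G) [K.Normal] (y : G) (o m : ℕ)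
    (hy : y ^ o = 1) (hm : Nat.gcd o K.index ∣ m) : y ^ m ∈ K := by
  have h1 : (QuotientGroup.mk y : G ⧸ K) ^ o = 1 := by
    rw [← QuotientGroup.mk_pow, hy]; rfl
  have h2 : (QuotientGroup.mk y : G ⧸ K) ^ K.index = 1 := by
    rw [Subgroup.index_eq_card]; exact pow_card_eq_one'
  have h3 : orderOf (QuotientGroup.mk y : G ⧸ K) ∣ m :=
    dvd_trans (Nat.dvd_gcd (orderOf_dvd_of_pow_eq_one h1) (orderOf_dvd_of_pow_eq_one h2)) hm
  have h4 : (QuotientGroup.mk y : G ⧸ K) ^ m = 1 := orderOf_dvd_iff_pow_eq_one.mp h3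
  rw [← QuotientGroup.mk_pow] at h4
  exact (QuotientGroup.eq_one_iff _).mp h4

theorem simple_of_data3 {α : Type} {D : Data α} {rels : Set (FreeGroup α)}
    (ρ : PresentedGroup rels →* Equiv.Perm (Fin D.n))
    (N o m : ℕ) (y : PresentedGroup rels)
    (hfin : Finite (PresentedGroup rels)) (hcard : Nat.card (PresentedGroup rels) = N)
    (hN : 1 < N) (hinj : Function.Injective ρ)
    (hdich : ∀ K : Subgroup (PresentedGroup rels), K.Normal →
      (∀ g ∈ K, ρ g = 1) ∨ D.n ∣ Nat.card K)
    (hn : 0 < D.n) (hm : Nat.gcd o (N / D.n) ∣ m) (hy : y ^ o = 1)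
    (htop : ∀ K : Subgroup (PresentedGroup rels), K.Normal → y ^ m ∈ K → K = ⊤) :
    IsSimpleGroup (PresentedGroup rels) ∧ Nat.card (PresentedGroup rels) = N := by
  refine ⟨?_, hcard⟩
  haveI : Nontrivial (PresentedGroup rels) :=
    Finite.one_lt_card_iff_nontrivial.mp (hcard ▸ hN)
  refine ⟨fun K hK => ?_⟩
  rcases hdich K hK with h1 | h2
  · left
    rw [eq_bot_iff]
    intro g hg
    have : ρ g = ρ 1 := by rw [h1 g hg, map_one]
    exact Subgroup.mem_bot.mpr (hinj this)
  · right
    obtain ⟨t, ht⟩ := h2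
    have h3 : K.index * Nat.card K = N := by rw [Subgroup.index_mul_card, hcard]
    have h4 : N / D.n = K.index * t := by
      apply Nat.div_eq_of_eq_mul_right hn
      rw [← h3, ht]
      ring
    have h5 : Nat.gcd o K.index ∣ m :=
      dvd_trans (Nat.gcd_dvd_gcd_of_dvd_right o (Dvd.intro t h4.symm)) hm
    exact htop K hK (pow_mem_of_gcd K y o m hy h5)

end Cfsg.Agent.Lib.helper9.CE
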