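import Cfsg.Agent.Lib.helper9.CE0459AtX
import Cfsg.Agent.Lib.helper9.CE0459AhX
import Cfsg.Agent.Lib.helper9.CE0459AcX
import Cfsg.Agent.Lib.helper9.CosetSimple3
import Cfsg.Agent.Lib.helper9.ThreeTransp
import Cfsg.Agent.Lib.helper9.CE0459ApK0

set_option autoImplicit false

namespace Cfsg.Agent.Lib.helper9.CE0459A

open Cfsg.Agent.Lib.helper9 Cfsg.Agent.Lib.helper9.CE
open Cfsg.Spor.Fi23 (Gen)

/-- the relators -/
abbrev R0 : Set (FreeGroup Gen) := relSet CE0459At.RL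

theorem hS2 : ∀ L ∈ genW CE0459At.TL, FreeGroup.mk L ∈ genSet CE0459At.TL := by
  intro L hL
  obtain ⟨x, hx, rfl⟩ := List.mem_map.mp hL
  exact ⟨x, hx, rfl⟩

theorem ub1 : Finite (PresentedGroup (relSet CE0459Ah.RL)) ∧ Nat.card (PresentedGroup (relSet CE0459Ah.RL)) ≤ 7800 :=
  chain_bot (relSet CE0459Ah.RL) 7800 (by decide) CE0459Ah.index

theorem ub0 : Finite (PresentedGroup R0) ∧ Nat.card (PresentedGroup R0) ≤ 2304 * 7800 :=
  chain_step R0 CE0459At.RL (wordG_relSet CE0459At.RL) CE0459At.TL CE0459Ah.RL (by decide +kernel) (genSet CE0459At.TL)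
    (genSet_of CE0459At.TL) 2304 7800 (by decide) CE0459At.index ub1

theorem hsz : ∀ c, c < 7 → cntS CE0459Ap.O.lab c CE0459At.D.n = ([1, 975, 325, 300, 300, 325, 78] : List Nat).getD c 0 := by
  intro c hc
  interval_cases c
  · rw [← CE0459Ap.O.pc_eq 0 CE0459At.D.n CE0459Ap.hpcz_0 (fun k hk => allRange_spec CE0459Ap.hpc_0 k (Nat.zero_le _) hk)]
    exact CE0459Ap.hpcn_0
  · rw [← CE0459Ap.O.pc_eq 1 CE0459At.D.n CE0459Ap.hpcz_1 (fun k hk => allRange_spec CE0459Ap.hpc_1 k (Nat.zero_le _) hk)]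
    exact CE0459Ap.hpcn_1
  · rw [← CE0459Ap.O.pc_eq 2 CE0459At.D.n CE0459Ap.hpcz_2 (fun k hk => allRange_spec CE0459Ap.hpc_2 k (Nat.zero_le _) hk)]
    exact CE0459Ap.hpcn_2
  · rw [← CE0459Ap.O.pc_eq 3 CE0459At.D.n CE0459Ap.hpcz_3 (fun k hk => allRange_spec CE0459Ap.hpc_3 k (Nat.zero_le _) hk)]
    exact CE0459Ap.hpcn_3
  · rw [← CE0459Ap.O.pc_eq 4 CE0459At.D.n CE0459Ap.hpcz_4 (fun k hk => allRange_spec CE0459Ap.hpc_4 k (Nat.zero_le _) hk)]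
    exact CE0459Ap.hpcn_4
  · rw [← CE0459Ap.O.pc_eq 5 CE0459At.D.n CE0459Ap.hpcz_5 (fun k hk => allRange_spec CE0459Ap.hpc_5 k (Nat.zero_le _) hk)]
    exact CE0459Ap.hpcn_5
  · rw [← CE0459Ap.O.pc_eq 6 CE0459At.D.n CE0459Ap.hpcz_6 (fun k hk => allRange_spec CE0459Ap.hpc_6 k (Nat.zero_le _) hk)]
    exact CE0459Ap.hpcn_6

theorem hRLc : CE0459Ac.RL = CE0459At.RL ++ [CE0459Ap.Ww] := by decide +kernel

theorem hinvO : ∀ L ∈ (genW CE0459At.TL), ∀ i, 0 ≤ i → i < CE0459At.D.n → CE0459Ap.O.lab (CE0459At.D.walk L i) = CE0459Ap.O.lab i :=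
  (CE0459Ap.O.invsK_spec CE0459At.D CE0459Ap.hinvO_0)

theorem hrelY : ∀ L ∈ [CE0459Ap.Yp], ∀ i, 0 ≤ i → i < CE0459At.D.n → CE0459At.D.walk L i = i :=
  (CE0459At.D.relsK_spec CE0459Ap.hrelY_0)

theorem hrelW : ∀ L ∈ [CE0459Ap.Wc], ∀ i, 0 ≤ i → i < CE0459At.D.n → CE0459At.D.walk L i = i :=
  (CE0459At.D.relsK_spec CE0459Ap.hrelW_0)

/-- the presented group is simple of order 17971200 and acts faithfully on the 2304 cosets of the subgroup -/
theorem main : ∃ (ρ : PresentedGroup R0 →* Equiv.Perm (Fin CE0459At.D.n))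
    (e : Fin CE0459At.D.n ≃ PresentedGroup R0 ⧸ subH R0 (genSet CE0459At.TL)),
    (∀ g i, g • e i = e (ρ g i)) ∧ Function.Injective ρ ∧ Finite (PresentedGroup R0) ∧
    IsSimpleGroup (PresentedGroup R0) ∧ Nat.card (PresentedGroup R0) = 17971200 := by
  obtain ⟨ρ, e, he, hρ, he0⟩ := CE0459At.cert.main
  have hfinG : Finite (PresentedGroup R0) := ub0.1
  have hub : Nat.card (PresentedGroup R0) ≤ 17971200 := le_trans ub0.2 (by norm_num)
  have l0 := level_step ρ e he hρ CE0459Ap.OL0 CE0459Ap.LW0 [] ⟨0, by decide⟩ 2304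
    (fun L hL p hp => fixK_spec CE0459At.D CE0459Ap.hfix0 L hL p.val (List.mem_map_of_mem (f := Fin.val) hp))
    (fun j hj => (allRange_spec CE0459Ap.horb0_0) j (Nat.zero_le _) hj) CE0459Ap.hroot0 CE0459Ap.hpcz0
    (fun k hk => allRange_spec CE0459Ap.hpc0 k (Nat.zero_le _) hk) CE0459Ap.hpcn0
  have l1 := level_step ρ e he hρ CE0459Ap.OL1 CE0459Ap.LW1 [⟨0, by decide⟩] ⟨1, by decide⟩ 975
    (fun L hL p hp => fixK_spec CE0459At.D CE0459Ap.hfix1 L hL p.val (List.mem_map_of_mem (f := Fin.val) hp))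
    (fun j hj => (allRange_spec CE0459Ap.horb1_0) j (Nat.zero_le _) hj) CE0459Ap.hroot1 CE0459Ap.hpcz1
    (fun k hk => allRange_spec CE0459Ap.hpc1 k (Nat.zero_le _) hk) CE0459Ap.hpcn1
  have l2 := level_step ρ e he hρ CE0459Ap.OL2 CE0459Ap.LW2 [⟨1, by decide⟩, ⟨0, by decide⟩] ⟨2, by decide⟩ 8
    (fun L hL p hp => fixK_spec CE0459At.D CE0459Ap.hfix2 L hL p.val (List.mem_map_of_mem (f := Fin.val) hp))
    (fun j hj => (allRange_spec CE0459Ap.horb2_0) j (Nat.zero_le _) hj) CE0459Ap.hroot2 CE0459Ap.hpcz2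
    (fun k hk => allRange_spec CE0459Ap.hpc2 k (Nat.zero_le _) hk) CE0459Ap.hpcn2
  have hch := (chain_le (chain_le l0 l1) l2)
  obtain ⟨hinj, hcard⟩ := rho_injective_of_chain ρ e he [⟨2, by decide⟩, ⟨1, by decide⟩, ⟨0, by decide⟩] 17971200 (by norm_num)
    ((by norm_num : (2304 * 975 * 8 : ℕ) = 17971200) ▸ hch) hub
  have hdich : ∀ K : Subgroup (PresentedGroup R0), K.Normal → (∀ g ∈ K, ρ g = 1) ∨ CE0459At.D.n ∣ Nat.card K :=
    fun K hK => @normal_dichotomy Gen CE0459At.D R0 (genSet CE0459At.TL) (genW CE0459At.TL) CE0459Ap.O ρ e (by decide) he hρ he0 hS2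
      (fun L hL i hi => hinvO L hL i (Nat.zero_le _) hi) (fun j hj => (allRange_spec CE0459Ap.horbO_0) j (Nat.zero_le _) hj)
      7 0 [1, 975, 325, 300, 300, 325, 78] (fun j hj => OData.labK_spec _ (allRange_spec CE0459Ap.hlabk j (Nat.zero_le _) hj)) CE0459Ap.hlab0 CE0459Ap.hrootO hsz CE0459Ap.hnum K hK
  have hy : wordG R0 CE0459Ap.Yw ^ 16 = 1 := by
    rw [← wordG_flatten_replicate, ← CE0459Ap.hYp]
    exact wordG_eq_one_of_walk ρ hinj hρ _ (fun i hi => hrelY CE0459Ap.Yp (List.mem_singleton.mpr rfl) i (Nat.zero_le _) hi)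
  have hWc1 : wordG R0 CE0459Ap.Wc = 1 :=
    wordG_eq_one_of_walk ρ hinj hρ _ (fun i hi => hrelW CE0459Ap.Wc (List.mem_singleton.mpr rfl) i (Nat.zero_le _) hi)
  have hconj : wordG R0 CE0459Ap.Ww = wordG R0 CE0459Ap.Gw * wordG R0 CE0459Ap.Ym * (wordG R0 CE0459Ap.Gw)⁻¹ := by
    have h := hWc1
    rw [CE0459Ap.hWc, wordG_append, wordG_append, wordG_append, TT.wordG_invRev, TT.wordG_invRev] at h
    calc wordG R0 CE0459Ap.Ww = wordG R0 CE0459Ap.Ww * (wordG R0 CE0459Ap.Gw * ((wordG R0 CE0459Ap.Ym)⁻¹ * (wordG R0 CE0459Ap.Gw)⁻¹)) *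
          (wordG R0 CE0459Ap.Gw * wordG R0 CE0459Ap.Ym * (wordG R0 CE0459Ap.Gw)⁻¹) := by group
      _ = _ := by rw [h, one_mul]
  have htop : ∀ K : Subgroup (PresentedGroup R0), K.Normal → wordG R0 CE0459Ap.Yw ^ 8 ∈ K → K = ⊤ := by
    intro K hK hyK
    rw [← wordG_flatten_replicate, ← CE0459Ap.hYm] at hyK
    have hW : wordG R0 CE0459Ap.Ww ∈ K := by
      rw [hconj]
      exact hK.conj_mem _ hyK _
    exact @normal_eq_top_of_collapse Gen R0 (relSet CE0459Ac.RL) (FreeGroup.mk CE0459Ap.Ww)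
      (hRLc ▸ collapse_sub R0 CE0459At.RL CE0459Ap.Ww (wordG_relSet CE0459At.RL)) (subsingleton_of_index_one _ CE0459Ac.index) K hK hW
  have hs := simple_of_data3 ρ 17971200 16 8 (wordG R0 CE0459Ap.Yw) hfinG hcard (by norm_num) hinj hdich (by decide)
    (by decide +kernel) hy htop
  exact ⟨ρ, e, he, hinj, hfinG, hs.1, hs.2⟩

end Cfsg.Agent.Lib.helper9.CE0459A
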