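import Cfsg.Agent.Lib.helper9.CE0459BtX
import Cfsg.Agent.Lib.helper9.CE0459BaX
import Cfsg.Agent.Lib.helper9.CE0459BcX
import Cfsg.Agent.Lib.helper9.CE0459AS
import Cfsg.Agent.Lib.helper9.CE0459BpK0

set_option autoImplicit false

namespace Cfsg.Agent.Lib.helper9.CE0459B

open Cfsg.Agent.Lib.helper9 Cfsg.Agent.Lib.helper9.CE
open Cfsg.Spor.Fi23 (Gen)

/-- the relators -/
abbrev R0 : Set (FreeGroup Gen) := relSet CE0459Bt.RL

theorem hS2 : ∀ L ∈ CE0459Bt.SWL, FreeGroup.mk L ∈ relSet CE0459Bt.SWL := fun L hL => ⟨L, hL, rfl⟩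

theorem hRLa : CE0459Ba.RL = CE0459Bt.RL := by decide +kernel

theorem hidxa : (subH R0 (genSet CE0459Ba.TL)).index = 8120 := by
  have h := CE0459Ba.index
  rw [hRLa] at h
  exact h

theorem ub0 : Finite (PresentedGroup R0) ∧ Nat.card (PresentedGroup R0) ≤ 8120 * (2304 * 7800) :=
  chain_step R0 CE0459Bt.RL (wordG_relSet CE0459Bt.RL) CE0459Ba.TL CE0459At.RL (by decide +kernel) (genSet CE0459Ba.TL)
    (genSet_of CE0459Ba.TL) 8120 (2304 * 7800) (by decide) hidxa CE0459A.ub0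

theorem hsz : ∀ c, c < 3 → cntS CE0459Bp.O.lab c CE0459Bt.D.n = ([1, 2304, 1755] : List Nat).getD c 0 := by
  intro c hc
  interval_cases c
  · rw [← CE0459Bp.O.pc_eq 0 CE0459Bt.D.n CE0459Bp.hpcz_0 (fun k hk => allRange_spec CE0459Bp.hpc_0 k (Nat.zero_le _) hk)]
    exact CE0459Bp.hpcn_0
  · rw [← CE0459Bp.O.pc_eq 1 CE0459Bt.D.n CE0459Bp.hpcz_1 (fun k hk => allRange_spec CE0459Bp.hpc_1 k (Nat.zero_le _) hk)]
    exact CE0459Bp.hpcn_1
  · rw [← CE0459Bp.O.pc_eq 2 CE0459Bt.D.n CE0459Bp.hpcz_2 (fun k hk => allRange_spec CE0459Bp.hpc_2 k (Nat.zero_le _) hk)]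
    exact CE0459Bp.hpcn_2

theorem hRLc : CE0459Bc.RL = CE0459Bt.RL ++ [CE0459Bp.Yw] := by decide +kernel

theorem hinvO : ∀ L ∈ CE0459Bt.SWL, ∀ i, 0 ≤ i → i < CE0459Bt.D.n → CE0459Bp.O.lab (CE0459Bt.D.walk L i) = CE0459Bp.O.lab i :=
  (CE0459Bp.O.invsK_spec CE0459Bt.D CE0459Bp.hinvO_0)

theorem hrelY : ∀ L ∈ [CE0459Bp.Yp], ∀ i, 0 ≤ i → i < CE0459Bt.D.n → CE0459Bt.D.walk L i = i :=
  (CE0459Bt.D.rels_join (CE0459Bt.D.relsK_spec CE0459Bp.hrelY_0) (CE0459Bt.D.relsK_spec CE0459Bp.hrelY_1))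

/-- the presented group is simple of order 145926144000 and acts faithfully on the 4060 cosets of the subgroup -/
theorem main : ∃ (ρ : PresentedGroup R0 →* Equiv.Perm (Fin CE0459Bt.D.n))
    (e : Fin CE0459Bt.D.n ≃ PresentedGroup R0 ⧸ subH R0 (relSet CE0459Bt.SWL)),
    (∀ g i, g • e i = e (ρ g i)) ∧
    (∀ (L : Word Gen) (i : Fin CE0459Bt.D.n), (ρ (wordG R0 L) i).val = CE0459Bt.D.walk L i.val) ∧ Function.Injective ρ ∧
    Finite (PresentedGroup R0) ∧ IsSimpleGroup (PresentedGroup R0) ∧ Nat.card (PresentedGroup R0) = 145926144000 ∧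
    (∀ L : Word Gen, (∀ b ∈ [2, 3, 1, 0], CE0459Bt.D.walk L b = b) → wordG R0 L = 1) := by
  obtain ⟨ρ, e, he, hρ, he0⟩ := CE0459Bt.cert.main
  have hfinG : Finite (PresentedGroup R0) := ub0.1
  have hub : Nat.card (PresentedGroup R0) ≤ 145926144000 := le_trans ub0.2 (by norm_num)
  have l0 := level_step ρ e he hρ CE0459Bp.OL0 CE0459Bp.LW0 [] ⟨0, by decide⟩ 4060
    (fun L hL p hp => fixK_spec CE0459Bt.D CE0459Bp.hfix0 L hL p.val (List.mem_map_of_mem (f := Fin.val) hp))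
    (fun j hj => (allRange_spec CE0459Bp.horb0_0) j (Nat.zero_le _) hj) CE0459Bp.hroot0 CE0459Bp.hpcz0
    (fun k hk => allRange_spec CE0459Bp.hpc0 k (Nat.zero_le _) hk) CE0459Bp.hpcn0
  have l1 := level_step ρ e he hρ CE0459Bp.OL1 CE0459Bp.LW1 [⟨0, by decide⟩] ⟨1, by decide⟩ 2304
    (fun L hL p hp => fixK_spec CE0459Bt.D CE0459Bp.hfix1 L hL p.val (List.mem_map_of_mem (f := Fin.val) hp))
    (fun j hj => (allRange_spec CE0459Bp.horb1_0) j (Nat.zero_le _) hj) CE0459Bp.hroot1 CE0459Bp.hpcz1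
    (fun k hk => allRange_spec CE0459Bp.hpc1 k (Nat.zero_le _) hk) CE0459Bp.hpcn1
  have l2 := level_step ρ e he hρ CE0459Bp.OL2 CE0459Bp.LW2 [⟨1, by decide⟩, ⟨0, by decide⟩] ⟨3, by decide⟩ 975
    (fun L hL p hp => fixK_spec CE0459Bt.D CE0459Bp.hfix2 L hL p.val (List.mem_map_of_mem (f := Fin.val) hp))
    (fun j hj => (allRange_spec CE0459Bp.horb2_0) j (Nat.zero_le _) hj) CE0459Bp.hroot2 CE0459Bp.hpcz2
    (fun k hk => allRange_spec CE0459Bp.hpc2 k (Nat.zero_le _) hk) CE0459Bp.hpcn2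
  have l3 := level_step ρ e he hρ CE0459Bp.OL3 CE0459Bp.LW3 [⟨3, by decide⟩, ⟨1, by decide⟩, ⟨0, by decide⟩] ⟨2, by decide⟩ 16
    (fun L hL p hp => fixK_spec CE0459Bt.D CE0459Bp.hfix3 L hL p.val (List.mem_map_of_mem (f := Fin.val) hp))
    (fun j hj => (allRange_spec CE0459Bp.horb3_0) j (Nat.zero_le _) hj) CE0459Bp.hroot3 CE0459Bp.hpcz3
    (fun k hk => allRange_spec CE0459Bp.hpc3 k (Nat.zero_le _) hk) CE0459Bp.hpcn3
  have hch := (chain_le (chain_le (chain_le l0 l1) l2) l3)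
  obtain ⟨hinj, hcard⟩ := rho_injective_of_chain ρ e he [⟨2, by decide⟩, ⟨3, by decide⟩, ⟨1, by decide⟩, ⟨0, by decide⟩] 145926144000 (by norm_num)
    ((by norm_num : (4060 * 2304 * 975 * 16 : ℕ) = 145926144000) ▸ hch) hub
  have hdich : ∀ K : Subgroup (PresentedGroup R0), K.Normal → (∀ g ∈ K, ρ g = 1) ∨ CE0459Bt.D.n ∣ Nat.card K :=
    fun K hK => @normal_dichotomy Gen CE0459Bt.D R0 (relSet CE0459Bt.SWL) CE0459Bt.SWL CE0459Bp.O ρ e (by decide) he hρ he0 hS2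
      (fun L hL i hi => hinvO L hL i (Nat.zero_le _) hi) (fun j hj => (allRange_spec CE0459Bp.horbO_0) j (Nat.zero_le _) hj)
      3 0 [1, 2304, 1755] (fun j hj => OData.labK_spec _ (allRange_spec CE0459Bp.hlabk j (Nat.zero_le _) hj)) CE0459Bp.hlab0 CE0459Bp.hrootO hsz CE0459Bp.hnum K hK
  have hy : wordG R0 CE0459Bp.Yw ^ 29 = 1 := by
    rw [← wordG_flatten_replicate, ← CE0459Bp.hYp]
    exact wordG_eq_one_of_walk ρ hinj hρ _ (fun i hi => hrelY CE0459Bp.Yp (List.mem_singleton.mpr rfl) i (Nat.zero_le _) hi)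
  have htop : ∀ K : Subgroup (PresentedGroup R0), K.Normal → wordG R0 CE0459Bp.Yw ∈ K → K = ⊤ :=
    fun K hK hyK => @normal_eq_top_of_collapse Gen R0 (relSet CE0459Bc.RL) (FreeGroup.mk CE0459Bp.Yw)
      (hRLc ▸ collapse_sub R0 CE0459Bt.RL CE0459Bp.Yw (wordG_relSet CE0459Bt.RL)) (subsingleton_of_index_one _ CE0459Bc.index) K hK hyK
  have hs := simple_of_data ρ 145926144000 29 (wordG R0 CE0459Bp.Yw) hfinG hcard (by norm_num) hinj hdich (by decide)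
    (by decide +kernel) hy htop
  have hbot := pstab_eq_bot_of_chain e [⟨2, by decide⟩, ⟨3, by decide⟩, ⟨1, by decide⟩, ⟨0, by decide⟩] 145926144000 (by norm_num)
    ((by norm_num : (4060 * 2304 * 975 * 16 : ℕ) = 145926144000) ▸ hch) hub
  have hbase : ∀ L : Word Gen, (∀ b ∈ [2, 3, 1, 0], CE0459Bt.D.walk L b = b) → wordG R0 L = 1 :=
    fun L h => wordG_eq_one_of_base ρ e he hρ [⟨2, by decide⟩, ⟨3, by decide⟩, ⟨1, by decide⟩, ⟨0, by decide⟩] hbot L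
      (fun p hp => h p.val (List.mem_map_of_mem (f := Fin.val) hp))
  exact ⟨ρ, e, he, hρ, hinj, hfinG, hs.1, hs.2, hbase⟩

end Cfsg.Agent.Lib.helper9.CE0459B
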