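import Cfsg.Agent.Lib.helper9.HomImage

/-!
# Certificates over subgroups generated by words; subgroups of point stabilizers

A variant of `subCert` for the subgroup generated by a list of words, and the image of a simple
presented group inside a point stabilizer of a permutation group.
-/

set_option autoImplicit false

namespace Cfsg.Agent.Lib.helper9.CE

variable {α : Type}

/-- a certificate for a presentation given by a list of words and the subgroup generated by the
words of a list -/
theorem subCertW (D : Data α) (RL : List (Word α))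
    (RWP : List (Word α × Nat)) (inv : α → Bool) (TW : List α) (SWL : List (Word α))
    (WT : List (Bool × List (Word α)))
    (hn : 0 < D.n)
    (hperm : ∀ x : α, ∀ i, i < D.n → D.permK x i = true)
    (hrel : ∀ L ∈ RL, ∀ i, i < D.n → D.walk L i = i)
    (hsub : D.subK SWL = true)
    (hdec : ∀ x : α, D.dec (D.code x) = x) (hm : ∀ x : α, D.code x ≠ D.mtag)
    (hRWP : RWP.map Prod.fst = RL)
    (hWT : WT = mkWT inv RWP TW SWL)
    (hsq : ∀ x : α, inv x = true → sqW x ∈ RL)
    (hpi0 : D.pi 0 = 0) (htree : ∀ c, 0 < c → c < D.NN → D.treeK c = true)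
    (hrn0 : D.rn 0 = 0) (hrn : ∀ i, i < D.n → D.rnK i = true)
    (hfact : ∀ id, id < D.NF → D.factK WT id = true)
    (hfin : ∀ x : α, ∀ i, i < D.n → D.finK x i = true) :
    Cert D (relSet RL) (relSet SWL) SWL WT where
  hn := hn
  hperm := hperm
  hlift := by
    rintro r ⟨L, hL, rfl⟩
    exact D.lift_mk_eq_one hperm L (fun i hi => hrel L hL i hi)
  hS1 := by
    rintro s ⟨L, hL, rfl⟩
    exact ⟨L, hL, rfl⟩
  hsub := D.subK_spec hsub
  hdec := hdec
  hm := hm
  hWT := hWT ▸ mkWT_spec (relSet RL) (relSet SWL) inv RWP TW SWL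
    (fun x hx => by
      have h1 := wordG_relSet RL (sqW x) (hsq x hx)
      rw [← wordG_cons]
      exact h1)
    (fun wp hwp => wordG_relSet RL wp.1 (hRWP ▸ List.mem_map_of_mem hwp))
    (fun L hL => ⟨L, hL, rfl⟩)
  hpi0 := hpi0
  htree := htree
  hrn0 := hrn0
  hrn := hrn
  hfact := hfact
  hfin := hfin

end Cfsg.Agent.Lib.helper9.CE

namespace Cfsg.Agent.Lib.helper9.HI

/-- a homomorphism of a presented group into a permutation group fixes a point when the images
of the generators do -/
theorem fix_of_gens {α : Type} {rels : Set (FreeGroup α)} {m : ℕ}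
    (f : PresentedGroup rels →* Equiv.Perm (Fin m)) (i0 : Fin m)
    (h : ∀ a : α, f (PresentedGroup.of a) i0 = i0) : ∀ x, f x i0 = i0 := by
  intro x
  have hx : x ∈ Subgroup.closure (Set.range (PresentedGroup.of (rels := rels))) := by
    rw [PresentedGroup.closure_range_of]
    exact Subgroup.mem_top x
  induction hx using Subgroup.closure_induction with
  | mem y hy =>
    obtain ⟨a, rfl⟩ := hy
    exact h a
  | one => rw [map_one]; rfl
  | mul y z _ _ hy hz => rw [map_mul, Equiv.Perm.mul_apply, hz, hy]
  | inv y _ hy =>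
    rw [map_inv]
    exact (Equiv.Perm.inv_eq_iff_eq.mpr hy.symm)

/-- the image of a simple group in a point stabilizer of a permutation group -/
theorem stab_image {P : Type*} [Group P] {m : ℕ} (H : Subgroup (Equiv.Perm (Fin m))) (i0 : Fin m)
    (hs : IsSimpleGroup P) (N : ℕ) (hN : Nat.card P = N)
    (ψ : P →* H) (hfix : ∀ x : P, (ψ x : Equiv.Perm (Fin m)) i0 = i0) (x : P) (hx : ψ x ≠ 1) :
    ∃ T : Subgroup (MulAction.stabilizer H i0), IsSimpleGroup T ∧ Nat.card T = N := by
  have hmem : ∀ x : P, ψ x ∈ MulAction.stabilizer H i0 := by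
    intro x
    rw [MulAction.mem_stabilizer_iff]
    exact hfix x
  refine ⟨(ψ.codRestrict (MulAction.stabilizer H i0) hmem).range,
    simple_image hs N hN (ψ.codRestrict (MulAction.stabilizer H i0) hmem) x ?_⟩
  intro h
  apply hx
  exact congrArg Subtype.val h

end Cfsg.Agent.Lib.helper9.HI
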