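import Cfsg.Agent.Lib.helper9.HomImage
import Cfsg.Agent.Lib.helper9.CE0459BtD
import Cfsg.Agent.Lib.helper9.CE0459AtD

set_option autoImplicit false

namespace Cfsg.Agent.Lib.helper9.CE0459x

open Cfsg.Agent.Lib.helper9 Cfsg.Agent.Lib.helper9.CE
open Cfsg.Spor.Fi23 (Gen)

/-- the generators of the presentation of the Tits group in the presentation of the Rudvalis group -/
def sigT : Gen → Word Gen
  | .a => [(.a, true)]
  | .b => [(.b, true)]
  | .c => [(.c, true)]
  | .d => [(.d, true)]
  | _ => []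

theorem hfixT : HI.relsSubK (HI.wkD CE0459Bt.D sigT) CE0459At.RL [2, 3, 1, 0] = true := by decide +kernel

theorem hmoveT : HI.toSubK (HI.wkD CE0459Bt.D sigT) [(Gen.d, true)] 1 11 = true := by decide +kernel

theorem hfix0_a : TT.toK CE0459Bt.D [(Gen.a, true)] 0 0 = true := by decide +kernel

theorem hfix0_b : TT.toK CE0459Bt.D [(Gen.b, true)] 0 0 = true := by decide +kernel

theorem hfix0_c : TT.toK CE0459Bt.D [(Gen.c, true)] 0 0 = true := by decide +kernel

theorem hfix0_d : TT.toK CE0459Bt.D [(Gen.d, true)] 0 0 = true := by decide +kernel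

end Cfsg.Agent.Lib.helper9.CE0459x
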