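import Cfsg.Agent.Lib.helper9.CE0460atX
import Cfsg.Agent.Lib.helper9.CE0460ahX
import Cfsg.Agent.Lib.helper9.CE0460acX
import Cfsg.Agent.Lib.helper9.CE0460apK0

set_option autoImplicit false

namespace Cfsg.Agent.Lib.helper9.CE0460a

open Cfsg.Agent.Lib.helper9 Cfsg.Agent.Lib.helper9.CE
open Cfsg.Spor.Fi23 (Gen)

/-- the relators -/
abbrev R0 : Set (FreeGroup Gen) := relSet CE0460at.RL

theorem hS2 : ∀ L ∈ genW CE0460at.TL, FreeGroup.mk L ∈ genSet CE0460at.TL := by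
  intro L hL
  obtain ⟨x, hx, rfl⟩ := List.mem_map.mp hL
  exact ⟨x, hx, rfl⟩

theorem ub1 : Finite (PresentedGroup (relSet CE0460ah.RL)) ∧ Nat.card (PresentedGroup (relSet CE0460ah.RL)) ≤ 120 :=
  chain_bot (relSet CE0460ah.RL) 120 (by decide) CE0460ah.index

theorem ub0 : Finite (PresentedGroup R0) ∧ Nat.card (PresentedGroup R0) ≤ 66 * 120 :=
  chain_step R0 CE0460at.RL (wordG_relSet CE0460at.RL) CE0460at.TL CE0460ah.RL (by decide +kernel) (genSet CE0460at.TL)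
    (genSet_of CE0460at.TL) 66 120 (by decide) CE0460at.index ub1

theorem hsz : ∀ c, c < 4 → cntS CE0460ap.O.lab c CE0460at.D.n = ([1, 20, 30, 15] : List Nat).getD c 0 := by
  intro c hc
  interval_cases c
  · rw [← CE0460ap.O.pc_eq 0 CE0460at.D.n CE0460ap.hpcz_0 (fun k hk => allRange_spec CE0460ap.hpc_0 k (Nat.zero_le _) hk)]
    exact CE0460ap.hpcn_0
  · rw [← CE0460ap.O.pc_eq 1 CE0460at.D.n CE0460ap.hpcz_1 (fun k hk => allRange_spec CE0460ap.hpc_1 k (Nat.zero_le _) hk)]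
    exact CE0460ap.hpcn_1
  · rw [← CE0460ap.O.pc_eq 2 CE0460at.D.n CE0460ap.hpcz_2 (fun k hk => allRange_spec CE0460ap.hpc_2 k (Nat.zero_le _) hk)]
    exact CE0460ap.hpcn_2
  · rw [← CE0460ap.O.pc_eq 3 CE0460at.D.n CE0460ap.hpcz_3 (fun k hk => allRange_spec CE0460ap.hpc_3 k (Nat.zero_le _) hk)]
    exact CE0460ap.hpcn_3

theorem hRLc : CE0460ac.RL = CE0460at.RL ++ [CE0460ap.Yw] := by decide +kernel

theorem hinvO : ∀ L ∈ (genW CE0460at.TL), ∀ i, 0 ≤ i → i < CE0460at.D.n → CE0460ap.O.lab (CE0460at.D.walk L i) = CE0460ap.O.lab i :=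
  (CE0460ap.O.invsK_spec CE0460at.D CE0460ap.hinvO_0)

theorem hrelY : ∀ L ∈ [CE0460ap.Yp], ∀ i, 0 ≤ i → i < CE0460at.D.n → CE0460at.D.walk L i = i :=
  (CE0460at.D.relsK_spec CE0460ap.hrelY_0)

/-- the presented group is simple of order 7920 and acts faithfully on the 66 cosets of the subgroup -/
theorem main : ∃ (ρ : PresentedGroup R0 →* Equiv.Perm (Fin CE0460at.D.n))
    (e : Fin CE0460at.D.n ≃ PresentedGroup R0 ⧸ subH R0 (genSet CE0460at.TL)),
    (∀ g i, g • e i = e (ρ g i)) ∧ Function.Injective ρ ∧ Finite (PresentedGroup R0) ∧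
    IsSimpleGroup (PresentedGroup R0) ∧ Nat.card (PresentedGroup R0) = 7920 := by
  obtain ⟨ρ, e, he, hρ, he0⟩ := CE0460at.cert.main
  have hfinG : Finite (PresentedGroup R0) := ub0.1
  have hub : Nat.card (PresentedGroup R0) ≤ 7920 := le_trans ub0.2 (by norm_num)
  have l0 := level_step ρ e he hρ CE0460ap.OL0 CE0460ap.LW0 [] ⟨0, by decide⟩ 66
    (fun L hL p hp => fixK_spec CE0460at.D CE0460ap.hfix0 L hL p.val (List.mem_map_of_mem (f := Fin.val) hp))
    (fun j hj => (allRange_spec CE0460ap.horb0_0) j (Nat.zero_le _) hj) CE0460ap.hroot0 CE0460ap.hpcz0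
    (fun k hk => allRange_spec CE0460ap.hpc0 k (Nat.zero_le _) hk) CE0460ap.hpcn0
  have l1 := level_step ρ e he hρ CE0460ap.OL1 CE0460ap.LW1 [⟨0, by decide⟩] ⟨7, by decide⟩ 30
    (fun L hL p hp => fixK_spec CE0460at.D CE0460ap.hfix1 L hL p.val (List.mem_map_of_mem (f := Fin.val) hp))
    (fun j hj => (allRange_spec CE0460ap.horb1_0) j (Nat.zero_le _) hj) CE0460ap.hroot1 CE0460ap.hpcz1
    (fun k hk => allRange_spec CE0460ap.hpc1 k (Nat.zero_le _) hk) CE0460ap.hpcn1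
  have l2 := level_step ρ e he hρ CE0460ap.OL2 CE0460ap.LW2 [⟨7, by decide⟩, ⟨0, by decide⟩] ⟨1, by decide⟩ 4
    (fun L hL p hp => fixK_spec CE0460at.D CE0460ap.hfix2 L hL p.val (List.mem_map_of_mem (f := Fin.val) hp))
    (fun j hj => (allRange_spec CE0460ap.horb2_0) j (Nat.zero_le _) hj) CE0460ap.hroot2 CE0460ap.hpcz2
    (fun k hk => allRange_spec CE0460ap.hpc2 k (Nat.zero_le _) hk) CE0460ap.hpcn2
  have hch := (chain_le (chain_le l0 l1) l2)
  obtain ⟨hinj, hcard⟩ := rho_injective_of_chain ρ e he [⟨1, by decide⟩, ⟨7, by decide⟩, ⟨0, by decide⟩] 7920 (by norm_num)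
    ((by norm_num : (66 * 30 * 4 : ℕ) = 7920) ▸ hch) hub
  have hdich : ∀ K : Subgroup (PresentedGroup R0), K.Normal → (∀ g ∈ K, ρ g = 1) ∨ CE0460at.D.n ∣ Nat.card K :=
    fun K hK => @normal_dichotomy Gen CE0460at.D R0 (genSet CE0460at.TL) (genW CE0460at.TL) CE0460ap.O ρ e (by decide) he hρ he0 hS2
      (fun L hL i hi => hinvO L hL i (Nat.zero_le _) hi) (fun j hj => (allRange_spec CE0460ap.horbO_0) j (Nat.zero_le _) hj)
      4 0 [1, 20, 30, 15] (fun j hj => OData.labK_spec _ (allRange_spec CE0460ap.hlabk j (Nat.zero_le _) hj)) CE0460ap.hlab0 CE0460ap.hrootO hsz CE0460ap.hnum K hK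
  have hy : wordG R0 CE0460ap.Yw ^ 11 = 1 := by
    rw [← wordG_flatten_replicate, ← CE0460ap.hYp]
    exact wordG_eq_one_of_walk ρ hinj hρ _ (fun i hi => hrelY CE0460ap.Yp (List.mem_singleton.mpr rfl) i (Nat.zero_le _) hi)
  have htop : ∀ K : Subgroup (PresentedGroup R0), K.Normal → wordG R0 CE0460ap.Yw ∈ K → K = ⊤ :=
    fun K hK hyK => @normal_eq_top_of_collapse Gen R0 (relSet CE0460ac.RL) (FreeGroup.mk CE0460ap.Yw)
      (hRLc ▸ collapse_sub R0 CE0460at.RL CE0460ap.Yw (wordG_relSet CE0460at.RL)) (subsingleton_of_index_one _ CE0460ac.index) K hK hyK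
  have hs := simple_of_data ρ 7920 11 (wordG R0 CE0460ap.Yw) hfinG hcard (by norm_num) hinj hdich (by decide)
    (by decide +kernel) hy htop
  exact ⟨ρ, e, he, hinj, hfinG, hs.1, hs.2⟩

end Cfsg.Agent.Lib.helper9.CE0460a
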