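import Cfsg.Agent.Lib.helper9.CosetBase

/-!
# A finer simplicity criterion for groups acting on cosets

The orbit of a normal subgroup through the base point is a block; instead of excluding all the
nontrivial blocks by counting, it is enough that the size of every possible block is divisible by
a prime `p` whose square does not divide the order of the group, when the normal closure of an
element of order `p` is the whole group.
-/

set_option autoImplicit false

namespace Cfsg.Agent.Lib.helper9.CE

section Prim2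

variable {α : Type} {D : Data α} {rels : Set (FreeGroup α)} {S : Set (FreeGroup α)}
  {SW : List (Word α)} (O : OData)
  (ρ : PresentedGroup rels →* Equiv.Perm (Fin D.n))
  (e : Fin D.n ≃ PresentedGroup rels ⧸ subH rels S)

include O in
/-- the orbit of a normal subgroup through the base point is a block: a union of orbits of the point
stabilizer, of size dividing the degree and the order of the normal subgroup -/
theorem normal_block (hn : 0 < D.n)
    (he : ∀ g i, g • e i = e (ρ g i))
    (hρ : ∀ (L : Word α) (i : Fin D.n), (ρ (wordG rels L) i).val = D.walk L i.val)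
    (he0 : e ⟨0, hn⟩ = QuotientGroup.mk (1 : PresentedGroup rels))
    (hS2 : ∀ L ∈ SW, FreeGroup.mk L ∈ S)
    (hinv : ∀ L ∈ SW, ∀ i, i < D.n → O.lab (D.walk L i) = O.lab i)
    (horb : ∀ j, j < D.n → O.orbK D SW j = true)
    (k c0 : Nat) (szL : List Nat)
    (hlabk : ∀ j, j < D.n → O.lab j < k) (hc0 : O.lab 0 = c0) (hroot0 : O.root c0 = 0)
    (hsz : ∀ c, c < k → cntS O.lab c D.n = szL.getD c 0)
    (K : Subgroup (PresentedGroup rels)) [hK : K.Normal] :
    ∃ s ∈ (List.range k).sublists, c0 ∈ s ∧ (s.map (fun c => szL.getD c 0)).sum ∣ D.n ∧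
      (s.map (fun c => szL.getD c 0)).sum ∣ Nat.card K ∧ (s = [c0] → ∀ g ∈ K, ρ g = 1) := by
  classical
  let q0 : PresentedGroup rels ⧸ subH rels S := e ⟨0, hn⟩
  obtain ⟨B, hBdef⟩ : ∃ B : Set (PresentedGroup rels ⧸ subH rels S), B = MulAction.orbit K q0 :=
    ⟨_, rfl⟩
  have hblock : MulAction.IsBlock (PresentedGroup rels) B := by
    rw [hBdef]; exact MulAction.IsBlock.orbit_of_normal q0
  have hq : q0 ∈ B := by rw [hBdef]; exact MulAction.mem_orbit_self _
  have hKB : ∀ g ∈ K, g • q0 ∈ B := by
    intro g hg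
    rw [hBdef]
    exact ⟨⟨g, hg⟩, rfl⟩
  have hHq : ∀ h ∈ subH rels S, h • q0 = q0 := by
    intro h hh
    show h • e ⟨0, hn⟩ = e ⟨0, hn⟩
    rw [he0]
    show (QuotientGroup.mk (h * 1) : PresentedGroup rels ⧸ subH rels S) = QuotientGroup.mk 1
    rw [QuotientGroup.eq]
    simpa using hh
  have hBH : ∀ h ∈ subH rels S, ∀ x ∈ B, h • x ∈ B := by
    intro h hh x hx
    rw [hBdef] at hx
    obtain ⟨⟨k', hk'⟩, rfl⟩ := hx
    have h1 : h • (⟨k', hk'⟩ : K) • q0 = (h * k' * h⁻¹) • q0 := by
      show h • k' • q0 = (h * k' * h⁻¹) • q0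
      rw [mul_smul, mul_smul, hHq h⁻¹ (inv_mem hh)]
    rw [h1]
    exact hKB _ (hK.conj_mem k' hk' h)
  obtain ⟨P, hPdef⟩ : ∃ P : Nat → Prop, ∀ c, P c ↔ ∃ r : Fin D.n, r.val = O.root c ∧ e r ∈ B :=
    ⟨_, fun c => Iff.rfl⟩
  have hmemB : ∀ j : Fin D.n, e j ∈ B ↔ P (O.lab j.val) := by
    intro j
    obtain ⟨r, hr, hmem⟩ := mem_orbit_root O ρ e he hρ hS2 hinv horb j
    obtain ⟨⟨h, hh⟩, hh2⟩ := hmem
    have hh2' : h • e r = e j := hh2
    rw [hPdef]
    constructor
    · intro hj
      refine ⟨r, hr, ?_⟩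
      have : e r = h⁻¹ • e j := by rw [← hh2', inv_smul_smul]
      rw [this]
      exact hBH h⁻¹ (inv_mem hh) _ hj
    · rintro ⟨r', hr', hB'⟩
      have : r' = r := Fin.ext (by rw [hr', hr])
      rw [this] at hB'
      rw [← hh2']
      exact hBH h hh _ hB'
  have hBeq : B = e '' {j : Fin D.n | P (O.lab j.val)} := by
    ext x
    constructor
    · intro hx
      refine ⟨e.symm x, ?_, by simp⟩
      exact (hmemB _).mp (by simpa using hx)
    · rintro ⟨j, hj, rfl⟩
      exact (hmemB j).mpr hj
  have hXcard : Nat.card (PresentedGroup rels ⧸ subH rels S) = D.n := by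
    rw [← Nat.card_congr e, Nat.card_eq_fintype_card, Fintype.card_fin]
  have hcard : B.ncard =
      (((List.range k).filter (fun c => decide (P c))).map (fun c => szL.getD c 0)).sum := by
    rw [congrArg Set.ncard hBeq, Set.ncard_image_of_injective _ e.injective,
      ncard_fin_eq D.n (fun j => P (O.lab j))]
    have e1 : (Finset.range D.n).filter (fun j => P (O.lab j)) =
        (Finset.range D.n).filter (fun j => O.lab j ∈ List.range k ∧ P (O.lab j)) := by
      apply Finset.filter_congr
      intro j hj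
      simp [hlabk j (Finset.mem_range.mp hj)]
    rw [e1, card_filter_lab O.lab D.n P (List.range k) List.nodup_range]
    congr 1
    apply List.map_congr_left
    intro c hc
    exact hsz c (List.mem_range.mp (List.mem_filter.mp hc).1)
  have hdvd : B.ncard ∣ D.n := by
    have := hblock.ncard_dvd_card ⟨q0, hq⟩
    rwa [hXcard] at this
  have hc0k : c0 < k := hc0 ▸ hlabk 0 hn
  have hP0 : P c0 := (hPdef c0).mpr ⟨⟨0, hn⟩, hroot0.symm, hq⟩
  refine ⟨(List.range k).filter (fun c => decide (P c)),
    List.mem_sublists.mpr List.filter_sublist,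
    List.mem_filter.mpr ⟨List.mem_range.mpr hc0k, by simpa using hP0⟩, hcard ▸ hdvd, ?_, ?_⟩
  · have h1 : (MulAction.orbit K q0).ncard * Nat.card (MulAction.stabilizer K q0) =
        Nat.card K := by
      rw [← MulAction.index_stabilizer, Subgroup.index_mul_card]
    rw [← hcard, hBdef]
    exact Dvd.intro _ h1
  · intro h1
    have hB1 : ∀ x ∈ B, x = q0 := by
      intro x hx
      obtain ⟨j, rfl⟩ := e.surjective x
      have hPj := (hmemB j).mp hx
      have hjk := hlabk j.val j.2
      have hmem1 : O.lab j.val ∈ (List.range k).filter (fun c => decide (P c)) :=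
        List.mem_filter.mpr ⟨List.mem_range.mpr hjk, by simpa using hPj⟩
      rw [h1] at hmem1
      have hlab : O.lab j.val = c0 := by simpa using hmem1
      obtain ⟨r, hr, hmem⟩ := mem_orbit_root O ρ e he hρ hS2 hinv horb j
      have hr0 : r = ⟨0, hn⟩ := Fin.ext (by rw [hr, hlab, hroot0])
      rw [hr0] at hmem
      obtain ⟨⟨h, hh⟩, hh2⟩ := hmem
      have hh2' : h • q0 = e j := hh2
      rw [← hh2', hHq h hh]
    intro g hg
    have hgq : g • q0 = q0 := hB1 _ (hKB g hg)
    ext i
    have hi : g • e i = e i := by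
      obtain ⟨t, ht⟩ := MulAction.exists_smul_eq (PresentedGroup rels) q0 (e i)
      have h3 : (t⁻¹ * g * t) • q0 = q0 := hB1 _ (hKB _ (hK.conj_mem' g hg t))
      rw [← ht]
      calc g • t • q0 = t • (t⁻¹ * g * t) • q0 := by
            rw [← mul_smul, ← mul_smul]; congr 1; group
        _ = t • q0 := by rw [h3]
    rw [he] at hi
    have := e.injective hi
    rw [this]
    rfl

end Prim2

theorem simple_of_data2 {α : Type} {D : Data α} {rels : Set (FreeGroup α)}
    (ρ : PresentedGroup rels →* Equiv.Perm (Fin D.n))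
    (N p : ℕ) (y : PresentedGroup rels)
    (hfin : Finite (PresentedGroup rels)) (hcard : Nat.card (PresentedGroup rels) = N)
    (hN : 1 < N) (hinj : Function.Injective ρ)
    (k c0 : ℕ) (szL : List ℕ)
    (hblock : ∀ K : Subgroup (PresentedGroup rels), K.Normal →
      ∃ s ∈ (List.range k).sublists, c0 ∈ s ∧ (s.map (fun c => szL.getD c 0)).sum ∣ D.n ∧
        (s.map (fun c => szL.getD c 0)).sum ∣ Nat.card K ∧ (s = [c0] → ∀ g ∈ K, ρ g = 1))
    (hnum : ∀ s ∈ (List.range k).sublists, c0 ∈ s → (s.map (fun c => szL.getD c 0)).sum ∣ D.n →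
      s = [c0] ∨ p ∣ (s.map (fun c => szL.getD c 0)).sum)
    (hp : p.Prime) (hp2 : ¬ p ^ 2 ∣ N) (hy : y ^ p = 1)
    (htop : ∀ K : Subgroup (PresentedGroup rels), K.Normal → y ∈ K → K = ⊤) :
    IsSimpleGroup (PresentedGroup rels) ∧ Nat.card (PresentedGroup rels) = N := by
  refine ⟨?_, hcard⟩
  haveI : Nontrivial (PresentedGroup rels) :=
    Finite.one_lt_card_iff_nontrivial.mp (hcard ▸ hN)
  refine ⟨fun K hK => ?_⟩
  obtain ⟨s, hs, hc0, hdn, hdK, htriv⟩ := hblock K hK
  rcases hnum s hs hc0 hdn with h1 | h2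
  · left
    rw [eq_bot_iff]
    intro g hg
    have : ρ g = ρ 1 := by rw [htriv h1 g hg, map_one]
    exact Subgroup.mem_bot.mpr (hinj this)
  · right
    have hpK : p ∣ Nat.card K := dvd_trans h2 hdK
    have h3 : K.index * Nat.card K = N := by rw [Subgroup.index_mul_card, hcard]
    have h5 : Nat.Coprime p K.index := by
      rw [Nat.Prime.coprime_iff_not_dvd hp]
      intro hpi
      apply hp2
      rw [← h3, pow_two]
      exact Nat.mul_dvd_mul hpi hpK
    exact htop K hK (mem_of_pow_coprime K y p hy h5)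

end Cfsg.Agent.Lib.helper9.CE
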