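import Cfsg.Agent.Lib.helper9.CE0460btD

set_option autoImplicit false

namespace Cfsg.Agent.Lib.helper9.CE0460bt
open Cfsg.Agent.Lib.helper9 Cfsg.Agent.Lib.helper9.CE
open Cfsg.Spor.Fi23 (Gen)

theorem hfact_0 : allRange 0 8747 (D.factK WT) = true := by decide +kernel
theorem hrel_0 : D.relsK RL 0 266 = true := by decide +kernel
theorem htree_0 : allRange 1 2617 D.treeK = true := by decide +kernel
theorem hperm_a : allRange 0 266 (D.permK Gen.a) = true := by decide +kernel
theorem hperm_b : allRange 0 266 (D.permK Gen.b) = true := by decide +kernel
theorem hperm_c : allRange 0 266 (D.permK Gen.c) = true := by decide +kernel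
theorem hperm_d : allRange 0 266 (D.permK Gen.d) = true := by decide +kernel
theorem hperm_e : allRange 0 266 (D.permK Gen.e) = true := by decide +kernel
theorem hperm_f : allRange 0 266 (D.permK Gen.f) = true := by decide +kernel
theorem hperm_g : allRange 0 266 (D.permK Gen.g) = true := by decide +kernel
theorem hperm_j : allRange 0 266 (D.permK Gen.j) = true := by decide +kernel
theorem hperm_h : allRange 0 266 (D.permK Gen.h) = true := by decide +kernel
theorem hperm_i : allRange 0 266 (D.permK Gen.i) = true := by decide +kernel
theorem hfin_a : allRange 0 266 (D.finK Gen.a) = true := by decide +kernel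
theorem hfin_b : allRange 0 266 (D.finK Gen.b) = true := by decide +kernel
theorem hfin_c : allRange 0 266 (D.finK Gen.c) = true := by decide +kernel
theorem hfin_d : allRange 0 266 (D.finK Gen.d) = true := by decide +kernel
theorem hfin_e : allRange 0 266 (D.finK Gen.e) = true := by decide +kernel
theorem hfin_f : allRange 0 266 (D.finK Gen.f) = true := by decide +kernel
theorem hfin_g : allRange 0 266 (D.finK Gen.g) = true := by decide +kernel
theorem hfin_j : allRange 0 266 (D.finK Gen.j) = true := by decide +kernel
theorem hfin_h : allRange 0 266 (D.finK Gen.h) = true := by decide +kernel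
theorem hfin_i : allRange 0 266 (D.finK Gen.i) = true := by decide +kernel
theorem hrnK : allRange 0 266 D.rnK = true := by decide +kernel
theorem hsubK : D.subK (genW TL) = true := by decide +kernel
theorem hpi0 : D.pi 0 = 0 := by decide +kernel
theorem hrn0 : D.rn 0 = 0 := by decide +kernel

end Cfsg.Agent.Lib.helper9.CE0460bt
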