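import Cfsg.Agent.Lib.helper9.HomImage
import Cfsg.Agent.Lib.helper9.CE1692D
import Cfsg.Agent.Lib.helper9.CE0460atD
import Cfsg.Agent.Lib.helper9.CE0460btD

set_option autoImplicit false

namespace Cfsg.Agent.Lib.helper9.CE0460x

open Cfsg.Agent.Lib.helper9 Cfsg.Agent.Lib.helper9.CE
open Cfsg.Spor.ON (Gen)

/-- standard generators of the Mathieu group as words in the generators of the O'Nan group -/
def stdM : Bool → Word Gen
  | false => [(Gen.a, true)]
  | true => [(Gen.g, false), (Gen.b, true), (Gen.c, true), (Gen.d, true), (Gen.c, true), (Gen.b, true), (Gen.e, true), (Gen.g, true), (Gen.b, true), (Gen.d, true), (Gen.c, true), (Gen.b, true), (Gen.d, true), (Gen.c, true), (Gen.e, true), (Gen.g, true), (Gen.e, true), (Gen.c, true), (Gen.d, true), (Gen.b, true), (Gen.c, true), (Gen.d, true), (Gen.b, true), (Gen.g, false), (Gen.e, true), (Gen.b, true), (Gen.c, true), (Gen.d, true), (Gen.c, true), (Gen.b, true), (Gen.g, true)]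

/-- the generators of the presentation of the Mathieu group as words in the standard generators -/
def letM : Cfsg.Spor.Fi23.Gen → Word Bool
  | .a => [(true, false), (false, true), (true, false), (false, true), (true, true), (false, true), (true, false), (false, true), (true, true), (false, true), (true, true)]
  | .b => [(true, true), (true, true), (false, true), (true, false), (false, true), (true, true), (false, true), (true, true), (true, true)]
  | .c => [(false, true), (true, true), (false, true), (true, false), (false, true), (true, true), (false, true), (true, false), (false, true)]
  | .d => [(false, true), (true, false), (false, true), (true, false), (false, true), (true, true), (true, true), (false, true), (true, true), (false, true), (true, true), (false, true)]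
  | _ => []

/-- the generators of the presentation of the Mathieu group as words in the generators of the O'Nan group -/
def sigM (x : Cfsg.Spor.Fi23.Gen) : Word Gen := HI.substW stdM (letM x)

theorem hfixM : HI.relsSubK (HI.wk2 CE1692.D stdM letM) CE0460at.RL [31, 1, 0] = true := by decide +kernel

theorem hmoveM : HI.toSubK (HI.wk2 CE1692.D stdM letM) [(Cfsg.Spor.Fi23.Gen.c, true)] 0 53998 = true := by decide +kernel

/-- standard generators of the Janko group as words in the generators of the O'Nan group -/
def stdJ : Bool → Word Gen
  | false => [(Gen.a, true)]
  | true => [(Gen.g, false), (Gen.b, true), (Gen.a, true), (Gen.c, true), (Gen.d, true), (Gen.c, true), (Gen.b, true), (Gen.e, true), (Gen.d, true), (Gen.g, true), (Gen.c, true), (Gen.b, true), (Gen.d, true), (Gen.c, true), (Gen.a, true), (Gen.b, true), (Gen.c, true), (Gen.d, true), (Gen.b, true), (Gen.c, true), (Gen.g, false), (Gen.d, true), (Gen.e, true), (Gen.b, true), (Gen.c, true), (Gen.d, true), (Gen.c, true), (Gen.a, true), (Gen.b, true), (Gen.g, true)]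

/-- the generators of the presentation of the Janko group as words in the standard generators -/
def letJ : Cfsg.Spor.Fi23.Gen → Word Bool
  | .a => [(false, true), (true, true), (false, true), (true, false), (false, true), (true, true), (false, true), (true, true), (false, true), (true, false), (false, true), (true, false), (false, true), (true, true), (false, true), (true, false), (false, true), (true, true), (false, true), (true, false), (false, true), (true, true), (false, true), (true, false), (false, true), (true, true), (false, true), (true, true), (false, true), (true, false), (false, true), (true, false), (false, true), (true, true), (false, true), (true, false), (false, true)]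
  | .b => [(false, true), (true, true), (false, true), (true, true), (false, true), (true, false), (false, true), (true, false), (false, true), (true, true), (false, true), (true, false), (false, true), (true, true), (false, true), (true, false), (false, true), (true, true), (false, true), (true, false), (false, true), (true, true), (false, true), (true, true), (false, true), (true, false), (false, true), (true, false), (false, true)]
  | .c => [(true, false), (false, true), (true, true), (false, true), (true, false), (false, true), (true, true)]
  | .d => [(false, true)]
  | _ => []

/-- the generators of the presentation of the Janko group as words in the generators of the O'Nan group -/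
def sigJ (x : Cfsg.Spor.Fi23.Gen) : Word Gen := HI.substW stdJ (letJ x)

theorem hfixJ : HI.relsSubK (HI.wk2 CE1692.D stdJ letJ) CE0460bt.RL [31, 1, 0] = true := by decide +kernel

theorem hmoveJ : HI.toSubK (HI.wk2 CE1692.D stdJ letJ) [(Cfsg.Spor.Fi23.Gen.d, true)] 2 8 = true := by decide +kernel

end Cfsg.Agent.Lib.helper9.CE0460x
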