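import Cfsg.Agent.Lib.helper9.CE0462BtX
import Cfsg.Agent.Lib.helper9.CE0462BhX
import Cfsg.Agent.Lib.helper9.CE0462BcX
import Cfsg.Agent.Lib.helper9.CE0462BpK0

set_option autoImplicit false

namespace Cfsg.Agent.Lib.helper9.CE0462B

open Cfsg.Agent.Lib.helper9 Cfsg.Agent.Lib.helper9.CE
open Cfsg.Spor.Fi23 (Gen)

/-- the relators -/
abbrev R0 : Set (FreeGroup Gen) := relSet CE0462Bt.RL

theorem hS2 : ∀ L ∈ genW CE0462Bt.TL, FreeGroup.mk L ∈ genSet CE0462Bt.TL := by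
  intro L hL
  obtain ⟨x, hx, rfl⟩ := List.mem_map.mp hL
  exact ⟨x, hx, rfl⟩

theorem ub1 : Finite (PresentedGroup (relSet CE0462Bh.RL)) ∧ Nat.card (PresentedGroup (relSet CE0462Bh.RL)) ≤ 7200 :=
  chain_bot (relSet CE0462Bh.RL) 7200 (by decide) CE0462Bh.index

theorem ub0 : Finite (PresentedGroup R0) ∧ Nat.card (PresentedGroup R0) ≤ 136 * 7200 :=
  chain_step R0 CE0462Bt.RL (wordG_relSet CE0462Bt.RL) CE0462Bt.TL CE0462Bh.RL (by decide +kernel) (genSet CE0462Bt.TL)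
    (genSet_of CE0462Bt.TL) 136 7200 (by decide) CE0462Bt.index ub1

theorem hsz : ∀ c, c < 3 → cntS CE0462Bp.O.lab c CE0462Bt.D.n = ([1, 60, 75] : List Nat).getD c 0 := by
  intro c hc
  interval_cases c
  · rw [← CE0462Bp.O.pc_eq 0 CE0462Bt.D.n CE0462Bp.hpcz_0 (fun k hk => allRange_spec CE0462Bp.hpc_0 k (Nat.zero_le _) hk)]
    exact CE0462Bp.hpcn_0
  · rw [← CE0462Bp.O.pc_eq 1 CE0462Bt.D.n CE0462Bp.hpcz_1 (fun k hk => allRange_spec CE0462Bp.hpc_1 k (Nat.zero_le _) hk)]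
    exact CE0462Bp.hpcn_1
  · rw [← CE0462Bp.O.pc_eq 2 CE0462Bt.D.n CE0462Bp.hpcz_2 (fun k hk => allRange_spec CE0462Bp.hpc_2 k (Nat.zero_le _) hk)]
    exact CE0462Bp.hpcn_2

theorem hRLc : CE0462Bc.RL = CE0462Bt.RL ++ [CE0462Bp.Yw] := by decide +kernel

theorem hinvO : ∀ L ∈ (genW CE0462Bt.TL), ∀ i, 0 ≤ i → i < CE0462Bt.D.n → CE0462Bp.O.lab (CE0462Bt.D.walk L i) = CE0462Bp.O.lab i :=
  (CE0462Bp.O.invsK_spec CE0462Bt.D CE0462Bp.hinvO_0)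

theorem hrelY : ∀ L ∈ [CE0462Bp.Yp], ∀ i, 0 ≤ i → i < CE0462Bt.D.n → CE0462Bt.D.walk L i = i :=
  (CE0462Bt.D.relsK_spec CE0462Bp.hrelY_0)

/-- the presented group is simple of order 979200 and acts faithfully on the 136 cosets of the subgroup -/
theorem main : ∃ (ρ : PresentedGroup R0 →* Equiv.Perm (Fin CE0462Bt.D.n))
    (e : Fin CE0462Bt.D.n ≃ PresentedGroup R0 ⧸ subH R0 (genSet CE0462Bt.TL)),
    (∀ g i, g • e i = e (ρ g i)) ∧ Function.Injective ρ ∧ Finite (PresentedGroup R0) ∧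
    IsSimpleGroup (PresentedGroup R0) ∧ Nat.card (PresentedGroup R0) = 979200 := by
  obtain ⟨ρ, e, he, hρ, he0⟩ := CE0462Bt.cert.main
  have hfinG : Finite (PresentedGroup R0) := ub0.1
  have hub : Nat.card (PresentedGroup R0) ≤ 979200 := le_trans ub0.2 (by norm_num)
  have l0 := level_step ρ e he hρ CE0462Bp.OL0 CE0462Bp.LW0 [] ⟨0, by decide⟩ 136
    (fun L hL p hp => fixK_spec CE0462Bt.D CE0462Bp.hfix0 L hL p.val (List.mem_map_of_mem (f := Fin.val) hp))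
    (fun j hj => (allRange_spec CE0462Bp.horb0_0) j (Nat.zero_le _) hj) CE0462Bp.hroot0 CE0462Bp.hpcz0
    (fun k hk => allRange_spec CE0462Bp.hpc0 k (Nat.zero_le _) hk) CE0462Bp.hpcn0
  have l1 := level_step ρ e he hρ CE0462Bp.OL1 CE0462Bp.LW1 [⟨0, by decide⟩] ⟨5, by decide⟩ 75
    (fun L hL p hp => fixK_spec CE0462Bt.D CE0462Bp.hfix1 L hL p.val (List.mem_map_of_mem (f := Fin.val) hp))
    (fun j hj => (allRange_spec CE0462Bp.horb1_0) j (Nat.zero_le _) hj) CE0462Bp.hroot1 CE0462Bp.hpcz1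
    (fun k hk => allRange_spec CE0462Bp.hpc1 k (Nat.zero_le _) hk) CE0462Bp.hpcn1
  have l2 := level_step ρ e he hρ CE0462Bp.OL2 CE0462Bp.LW2 [⟨5, by decide⟩, ⟨0, by decide⟩] ⟨10, by decide⟩ 24
    (fun L hL p hp => fixK_spec CE0462Bt.D CE0462Bp.hfix2 L hL p.val (List.mem_map_of_mem (f := Fin.val) hp))
    (fun j hj => (allRange_spec CE0462Bp.horb2_0) j (Nat.zero_le _) hj) CE0462Bp.hroot2 CE0462Bp.hpcz2
    (fun k hk => allRange_spec CE0462Bp.hpc2 k (Nat.zero_le _) hk) CE0462Bp.hpcn2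
  have l3 := level_step ρ e he hρ CE0462Bp.OL3 CE0462Bp.LW3 [⟨10, by decide⟩, ⟨5, by decide⟩, ⟨0, by decide⟩] ⟨1, by decide⟩ 4
    (fun L hL p hp => fixK_spec CE0462Bt.D CE0462Bp.hfix3 L hL p.val (List.mem_map_of_mem (f := Fin.val) hp))
    (fun j hj => (allRange_spec CE0462Bp.horb3_0) j (Nat.zero_le _) hj) CE0462Bp.hroot3 CE0462Bp.hpcz3
    (fun k hk => allRange_spec CE0462Bp.hpc3 k (Nat.zero_le _) hk) CE0462Bp.hpcn3
  have hch := (chain_le (chain_le (chain_le l0 l1) l2) l3)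
  obtain ⟨hinj, hcard⟩ := rho_injective_of_chain ρ e he [⟨1, by decide⟩, ⟨10, by decide⟩, ⟨5, by decide⟩, ⟨0, by decide⟩] 979200 (by norm_num)
    ((by norm_num : (136 * 75 * 24 * 4 : ℕ) = 979200) ▸ hch) hub
  have hdich : ∀ K : Subgroup (PresentedGroup R0), K.Normal → (∀ g ∈ K, ρ g = 1) ∨ CE0462Bt.D.n ∣ Nat.card K :=
    fun K hK => @normal_dichotomy Gen CE0462Bt.D R0 (genSet CE0462Bt.TL) (genW CE0462Bt.TL) CE0462Bp.O ρ e (by decide) he hρ he0 hS2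
      (fun L hL i hi => hinvO L hL i (Nat.zero_le _) hi) (fun j hj => (allRange_spec CE0462Bp.horbO_0) j (Nat.zero_le _) hj)
      3 0 [1, 60, 75] (fun j hj => OData.labK_spec _ (allRange_spec CE0462Bp.hlabk j (Nat.zero_le _) hj)) CE0462Bp.hlab0 CE0462Bp.hrootO hsz CE0462Bp.hnum K hK
  have hy : wordG R0 CE0462Bp.Yw ^ 17 = 1 := by
    rw [← wordG_flatten_replicate, ← CE0462Bp.hYp]
    exact wordG_eq_one_of_walk ρ hinj hρ _ (fun i hi => hrelY CE0462Bp.Yp (List.mem_singleton.mpr rfl) i (Nat.zero_le _) hi)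
  have htop : ∀ K : Subgroup (PresentedGroup R0), K.Normal → wordG R0 CE0462Bp.Yw ∈ K → K = ⊤ :=
    fun K hK hyK => @normal_eq_top_of_collapse Gen R0 (relSet CE0462Bc.RL) (FreeGroup.mk CE0462Bp.Yw)
      (hRLc ▸ collapse_sub R0 CE0462Bt.RL CE0462Bp.Yw (wordG_relSet CE0462Bt.RL)) (subsingleton_of_index_one _ CE0462Bc.index) K hK hyK
  have hs := simple_of_data ρ 979200 17 (wordG R0 CE0462Bp.Yw) hfinG hcard (by norm_num) hinj hdich (by decide)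
    (by decide +kernel) hy htop
  exact ⟨ρ, e, he, hinj, hfinG, hs.1, hs.2⟩

end Cfsg.Agent.Lib.helper9.CE0462B
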