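import Cfsg.Agent.Lib.helper9.HomImage
import Cfsg.Agent.Lib.helper9.CE1683D
import Cfsg.Agent.Lib.helper9.CE0462BtD

set_option autoImplicit false

namespace Cfsg.Agent.Lib.helper9.CE0462x

open Cfsg.Agent.Lib.helper9 Cfsg.Agent.Lib.helper9.CE
open Cfsg.Spor.He (Gen)

/-- the generators of the subgroup as words in the generators of the Held group -/
def kgen : Gen → Word Gen
  | .a => [(Gen.a, true)]
  | .b => [(Gen.a, true), (Gen.b, true), (Gen.a, true), (Gen.b, true)]
  | .c => [(Gen.c, true)]
  | .d => [(Gen.d, true)]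
  | .e => [(Gen.e, true)]
  | .f => [(Gen.f, true)]
  | .g => [(Gen.b, true), (Gen.c, true), (Gen.d, true), (Gen.e, true), (Gen.b, true), (Gen.c, true), (Gen.d, true), (Gen.e, true), (Gen.b, true), (Gen.c, true), (Gen.d, true), (Gen.e, true), (Gen.b, true), (Gen.c, true), (Gen.d, true), (Gen.e, true), (Gen.b, true), (Gen.c, true), (Gen.d, true), (Gen.e, true), (Gen.b, true), (Gen.c, true), (Gen.d, true), (Gen.e, true), (Gen.b, true), (Gen.c, true), (Gen.d, true), (Gen.e, true)]

/-- the generators of the presentation of the symplectic group as words in the generators of the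
subgroup (`b` and `g` stand for the sixth and the seventh of them) -/
def letS : Cfsg.Spor.Fi23.Gen → Word Gen
  | .a => [(Gen.a, true)]
  | .b => [(Gen.e, true), (Gen.c, true)]
  | .c => [(Gen.g, true), (Gen.f, true), (Gen.d, true), (Gen.e, true), (Gen.c, true), (Gen.d, true), (Gen.f, true), (Gen.d, true), (Gen.g, true), (Gen.a, true)]
  | .d => [(Gen.e, true)]
  | _ => []

/-- the generators of the presentation as words in the generators of the Held group -/
def sigS (x : Cfsg.Spor.Fi23.Gen) : Word Gen := HI.substW kgen (letS x)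

theorem hfixS : HI.relsSubK (HI.wk2 CE1683.D kgen letS) CE0462Bt.RL [7, 80, 1, 0] = true := by decide +kernel

theorem hmoveS : HI.toSubK (HI.wk2 CE1683.D kgen letS) [(Cfsg.Spor.Fi23.Gen.a, true)] 5 6 = true := by decide +kernel

end Cfsg.Agent.Lib.helper9.CE0462x
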