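import Cfsg.Agent.Lib.helper9.CE1680O

set_option autoImplicit false

namespace Cfsg.Agent.Lib.helper9.CE1680
open Cfsg.Agent.Lib.helper9.CE
open Cfsg.Spor.Suz (Gen)

theorem hrel_0 : D.relsK RW 0 1568 = true := by decide +kernel

end Cfsg.Agent.Lib.helper9.CE1680
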