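import Cfsg.Agent.Lib.helper9.CE1680O

set_option autoImplicit false

namespace Cfsg.Agent.Lib.helper9.CE1680
open Cfsg.Agent.Lib.helper9.CE
open Cfsg.Spor.Suz (Gen)

theorem hfact_0 : allRange 0 20000 (D.factK WT) = true := by decide +kernel
theorem horbO : allRange 0 1782 (O.orbK D SW) = true := by decide +kernel
theorem hperm_c : allRange 0 1782 (D.permK Gen.c) = true := by decide +kernel
theorem hperm_f : allRange 0 1782 (D.permK Gen.f) = true := by decide +kernel
theorem hfin_b : allRange 0 1782 (D.finK Gen.b) = true := by decide +kernel
theorem hfin_e : allRange 0 1782 (D.finK Gen.e) = true := by decide +kernel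
theorem hpc_1 : allRange 0 1782 (O.pcK 1) = true := by decide +kernel
theorem hrnK : allRange 0 1782 D.rnK = true := by decide +kernel

end Cfsg.Agent.Lib.helper9.CE1680
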