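import Cfsg.Agent.Lib.helper9.CE1680O

set_option autoImplicit false

namespace Cfsg.Agent.Lib.helper9.CE1680
open Cfsg.Agent.Lib.helper9.CE
open Cfsg.Spor.Suz (Gen)

theorem hfact_1 : allRange 20000 40000 (D.factK WT) = true := by decide +kernel
theorem hinvO_0 : O.invsK D SW 0 1782 = true := by decide +kernel
theorem hperm_b : allRange 0 1782 (D.permK Gen.b) = true := by decide +kernel
theorem hperm_e : allRange 0 1782 (D.permK Gen.e) = true := by decide +kernel
theorem hfin_a : allRange 0 1782 (D.finK Gen.a) = true := by decide +kernel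
theorem hfin_d : allRange 0 1782 (D.finK Gen.d) = true := by decide +kernel
theorem hfin_g : allRange 0 1782 (D.finK Gen.g) = true := by decide +kernel
theorem hsubK : D.subK SW = true := by decide +kernel
theorem hpi0 : D.pi 0 = 0 := by decide +kernel
theorem hrn0 : D.rn 0 = 0 := by decide +kernel
theorem hpc0_1 : O.pc 1 0 = 0 := by decide +kernel
theorem hpcn_1 : O.pc 1 1782 = 1365 := by decide +kernel
theorem hlab_1 : O.lab 1 = 1 := by decide +kernel
theorem hroot_1 : O.root 1 = 1 := by decide +kernel
theorem hpc0_2 : O.pc 2 0 = 0 := by decide +kernel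
theorem hpcn_2 : O.pc 2 1782 = 416 := by decide +kernel
theorem hlab_2 : O.lab 47 = 2 := by decide +kernel
theorem hroot_2 : O.root 2 = 47 := by decide +kernel

end Cfsg.Agent.Lib.helper9.CE1680
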