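import Cfsg.Agent.Lib.helper9.CE1680O

set_option autoImplicit false

namespace Cfsg.Agent.Lib.helper9.CE1680
open Cfsg.Agent.Lib.helper9.CE
open Cfsg.Spor.Suz (Gen)

theorem hrel_1 : D.relsK RW 1568 1782 = true := by decide +kernel
theorem htree_0 : allRange 1 11951 D.treeK = true := by decide +kernel
theorem hfact_2 : allRange 40000 47112 (D.factK WT) = true := by decide +kernel
theorem hperm_a : allRange 0 1782 (D.permK Gen.a) = true := by decide +kernel
theorem hperm_d : allRange 0 1782 (D.permK Gen.d) = true := by decide +kernel
theorem hperm_g : allRange 0 1782 (D.permK Gen.g) = true := by decide +kernel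
theorem hfin_c : allRange 0 1782 (D.finK Gen.c) = true := by decide +kernel
theorem hfin_f : allRange 0 1782 (D.finK Gen.f) = true := by decide +kernel
theorem hpc_2 : allRange 0 1782 (O.pcK 2) = true := by decide +kernel

end Cfsg.Agent.Lib.helper9.CE1680
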