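import Cfsg.Agent.Lib.helper9.CE1681D

set_option autoImplicit false

namespace Cfsg.Agent.Lib.helper9.CE1681
open Cfsg.Agent.Lib.helper9.CE
open Cfsg.Spor.Suz (Gen)

theorem hrel_0 : D.relsK RW 0 1568 = true := by decide +kernel
theorem hrel_4 : D.relsK RW 6272 7840 = true := by decide +kernel
theorem hrel_8 : D.relsK RW 12544 14112 = true := by decide +kernel
theorem hrel_12 : D.relsK RW 18816 20384 = true := by decide +kernel
theorem hfact_2 : allRange 40000 60000 (D.factK WT) = true := by decide +kernel
theorem hperm_a : allRange 0 22880 (D.permK Gen.a) = true := by decide +kernel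
theorem hperm_c : allRange 0 22880 (D.permK Gen.c) = true := by decide +kernel
theorem hperm_g : allRange 0 22880 (D.permK Gen.g) = true := by decide +kernel
theorem hfin_d : allRange 0 22880 (D.finK Gen.d) = true := by decide +kernel
theorem hfact_9 : allRange 180000 188990 (D.factK WT) = true := by decide +kernel

end Cfsg.Agent.Lib.helper9.CE1681
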