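import Cfsg.Agent.Lib.helper9.CE1681D

set_option autoImplicit false

namespace Cfsg.Agent.Lib.helper9.CE1681
open Cfsg.Agent.Lib.helper9.CE
open Cfsg.Spor.Suz (Gen)

theorem hrel_1 : D.relsK RW 1568 3136 = true := by decide +kernel
theorem hrel_5 : D.relsK RW 7840 9408 = true := by decide +kernel
theorem hrel_9 : D.relsK RW 14112 15680 = true := by decide +kernel
theorem hrel_13 : D.relsK RW 20384 21952 = true := by decide +kernel
theorem hfact_0 : allRange 0 20000 (D.factK WT) = true := by decide +kernel
theorem htree_0 : allRange 1 33237 D.treeK = true := by decide +kernel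
theorem hperm_d : allRange 0 22880 (D.permK Gen.d) = true := by decide +kernel
theorem hfin_a : allRange 0 22880 (D.finK Gen.a) = true := by decide +kernel
theorem hfin_e : allRange 0 22880 (D.finK Gen.e) = true := by decide +kernel
theorem hrnK : allRange 0 22880 D.rnK = true := by decide +kernel

end Cfsg.Agent.Lib.helper9.CE1681
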