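import Cfsg.Agent.Lib.helper9.CE1681D

set_option autoImplicit false

namespace Cfsg.Agent.Lib.helper9.CE1681
open Cfsg.Agent.Lib.helper9.CE
open Cfsg.Spor.Suz (Gen)

theorem hrel_2 : D.relsK RW 3136 4704 = true := by decide +kernel
theorem hrel_6 : D.relsK RW 9408 10976 = true := by decide +kernel
theorem hrel_10 : D.relsK RW 15680 17248 = true := by decide +kernel
theorem hrel_14 : D.relsK RW 21952 22880 = true := by decide +kernel
theorem hfact_7 : allRange 140000 160000 (D.factK WT) = true := by decide +kernel
theorem hfact_4 : allRange 80000 100000 (D.factK WT) = true := by decide +kernel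
theorem hfact_1 : allRange 20000 40000 (D.factK WT) = true := by decide +kernel
theorem hperm_e : allRange 0 22880 (D.permK Gen.e) = true := by decide +kernel
theorem hfin_b : allRange 0 22880 (D.finK Gen.b) = true := by decide +kernel
theorem hfin_f : allRange 0 22880 (D.finK Gen.f) = true := by decide +kernel
theorem hsubK : D.subK SW = true := by decide +kernel
theorem hpi0 : D.pi 0 = 0 := by decide +kernel
theorem hrn0 : D.rn 0 = 0 := by decide +kernel

end Cfsg.Agent.Lib.helper9.CE1681
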