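import Cfsg.Agent.Lib.helper9.CE1681D

set_option autoImplicit false

namespace Cfsg.Agent.Lib.helper9.CE1681
open Cfsg.Agent.Lib.helper9.CE
open Cfsg.Spor.Suz (Gen)

theorem hrel_3 : D.relsK RW 4704 6272 = true := by decide +kernel
theorem hrel_7 : D.relsK RW 10976 12544 = true := by decide +kernel
theorem hrel_11 : D.relsK RW 17248 18816 = true := by decide +kernel
theorem hfact_8 : allRange 160000 180000 (D.factK WT) = true := by decide +kernel
theorem hfact_6 : allRange 120000 140000 (D.factK WT) = true := by decide +kernel
theorem hfact_5 : allRange 100000 120000 (D.factK WT) = true := by decide +kernel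
theorem hfact_3 : allRange 60000 80000 (D.factK WT) = true := by decide +kernel
theorem hperm_b : allRange 0 22880 (D.permK Gen.b) = true := by decide +kernel
theorem hperm_f : allRange 0 22880 (D.permK Gen.f) = true := by decide +kernel
theorem hfin_c : allRange 0 22880 (D.finK Gen.c) = true := by decide +kernel
theorem hfin_g : allRange 0 22880 (D.finK Gen.g) = true := by decide +kernel

end Cfsg.Agent.Lib.helper9.CE1681
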