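import Cfsg.Agent.Lib.helper9.CE1683O

set_option autoImplicit false

namespace Cfsg.Agent.Lib.helper9.CE1683
open Cfsg.Agent.Lib.helper9.CE
open Cfsg.Spor.He (Gen)

theorem hfact_0 : allRange 0 20000 (D.factK WT) = true := by decide +kernel
theorem hfin_a : allRange 0 2058 (D.finK Gen.a) = true := by decide +kernel
theorem hfin_d : allRange 0 2058 (D.finK Gen.d) = true := by decide +kernel
theorem hfin_g : allRange 0 2058 (D.finK Gen.g) = true := by decide +kernel
theorem hpc_4 : allRange 0 2058 (O.pcK 4) = true := by decide +kernel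

end Cfsg.Agent.Lib.helper9.CE1683
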