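import Cfsg.Agent.Lib.helper9.CE1683O

set_option autoImplicit false

namespace Cfsg.Agent.Lib.helper9.CE1683
open Cfsg.Agent.Lib.helper9.CE
open Cfsg.Spor.He (Gen)

theorem hinvO_0 : O.invsK D SW 0 2058 = true := by decide +kernel
theorem htree_0 : allRange 1 7604 D.treeK = true := by decide +kernel
theorem hperm_b : allRange 0 2058 (D.permK Gen.b) = true := by decide +kernel
theorem hperm_d : allRange 0 2058 (D.permK Gen.d) = true := by decide +kernel
theorem hperm_f : allRange 0 2058 (D.permK Gen.f) = true := by decide +kernel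
theorem hfin_b : allRange 0 2058 (D.finK Gen.b) = true := by decide +kernel
theorem hfin_e : allRange 0 2058 (D.finK Gen.e) = true := by decide +kernel
theorem hpc_1 : allRange 0 2058 (O.pcK 1) = true := by decide +kernel
theorem hpc_3 : allRange 0 2058 (O.pcK 3) = true := by decide +kernel
theorem hsubK : D.subK SW = true := by decide +kernel
theorem hpi0 : D.pi 0 = 0 := by decide +kernel
theorem hrn0 : D.rn 0 = 0 := by decide +kernel
theorem hpc0_1 : O.pc 1 0 = 0 := by decide +kernel
theorem hpcn_1 : O.pc 1 2058 = 1360 := by decide +kernel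
theorem hlab_1 : O.lab 1 = 1 := by decide +kernel
theorem hroot_1 : O.root 1 = 1 := by decide +kernel
theorem hpc0_2 : O.pc 2 0 = 0 := by decide +kernel
theorem hpcn_2 : O.pc 2 2058 = 425 := by decide +kernel
theorem hlab_2 : O.lab 5 = 2 := by decide +kernel
theorem hroot_2 : O.root 2 = 5 := by decide +kernel
theorem hpc0_3 : O.pc 3 0 = 0 := by decide +kernel
theorem hpcn_3 : O.pc 3 2058 = 136 := by decide +kernel
theorem hlab_3 : O.lab 37 = 3 := by decide +kernel
theorem hroot_3 : O.root 3 = 37 := by decide +kernel
theorem hpc0_4 : O.pc 4 0 = 0 := by decide +kernel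
theorem hpcn_4 : O.pc 4 2058 = 136 := by decide +kernel
theorem hlab_4 : O.lab 213 = 4 := by decide +kernel
theorem hroot_4 : O.root 4 = 213 := by decide +kernel

end Cfsg.Agent.Lib.helper9.CE1683
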