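import Cfsg.Agent.Lib.helper9.CE1687O

set_option autoImplicit false

namespace Cfsg.Agent.Lib.helper9.CE1687
open Cfsg.Agent.Lib.helper9.CE
open Cfsg.Spor.Fi22 (Gen)

theorem hrel_1 : D.relsK RW 1015 2030 = true := by decide +kernel
theorem horbO : allRange 0 3510 (O.orbK D SW) = true := by decide +kernel
theorem hperm_c : allRange 0 3510 (D.permK Gen.c) = true := by decide +kernel
theorem hperm_e : allRange 0 3510 (D.permK Gen.e) = true := by decide +kernel
theorem hperm_g : allRange 0 3510 (D.permK Gen.g) = true := by decide +kernel
theorem hperm_i : allRange 0 3510 (D.permK Gen.i) = true := by decide +kernel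
theorem hfin_c : allRange 0 3510 (D.finK Gen.c) = true := by decide +kernel
theorem hfin_g : allRange 0 3510 (D.finK Gen.g) = true := by decide +kernel
theorem hpc_1 : allRange 0 3510 (O.pcK 1) = true := by decide +kernel

end Cfsg.Agent.Lib.helper9.CE1687
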