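import Cfsg.Agent.Lib.helper9.CE1687O

set_option autoImplicit false

namespace Cfsg.Agent.Lib.helper9.CE1687
open Cfsg.Agent.Lib.helper9.CE
open Cfsg.Spor.Fi22 (Gen)

theorem hrel_2 : D.relsK RW 2030 3045 = true := by decide +kernel
theorem hperm_a : allRange 0 3510 (D.permK Gen.a) = true := by decide +kernel
theorem hperm_b : allRange 0 3510 (D.permK Gen.b) = true := by decide +kernel
theorem hperm_d : allRange 0 3510 (D.permK Gen.d) = true := by decide +kernel
theorem hperm_f : allRange 0 3510 (D.permK Gen.f) = true := by decide +kernel
theorem hperm_h : allRange 0 3510 (D.permK Gen.h) = true := by decide +kernel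
theorem hfin_b : allRange 0 3510 (D.finK Gen.b) = true := by decide +kernel
theorem hfin_f : allRange 0 3510 (D.finK Gen.f) = true := by decide +kernel
theorem htree_0 : allRange 1 3546 D.treeK = true := by decide +kernel
theorem hpc_2 : allRange 0 3510 (O.pcK 2) = true := by decide +kernel

end Cfsg.Agent.Lib.helper9.CE1687
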