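import Cfsg.Agent.Lib.helper9.CE1687O

set_option autoImplicit false

namespace Cfsg.Agent.Lib.helper9.CE1687
open Cfsg.Agent.Lib.helper9.CE
open Cfsg.Spor.Fi22 (Gen)

theorem hrel_3 : D.relsK RW 3045 3510 = true := by decide +kernel
theorem hfact_0 : allRange 0 20000 (D.factK WT) = true := by decide +kernel
theorem hinvO_0 : O.invsK D SW 0 3510 = true := by decide +kernel
theorem hfin_a : allRange 0 3510 (D.finK Gen.a) = true := by decide +kernel
theorem hfin_d : allRange 0 3510 (D.finK Gen.d) = true := by decide +kernel
theorem hfin_h : allRange 0 3510 (D.finK Gen.h) = true := by decide +kernel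
theorem hrnK : allRange 0 3510 D.rnK = true := by decide +kernel

end Cfsg.Agent.Lib.helper9.CE1687
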