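import Cfsg.Agent.Lib.helper9.CE1690D

set_option autoImplicit false

namespace Cfsg.Agent.Lib.helper9.CE1690
open Cfsg.Agent.Lib.helper9.CE
open Cfsg.Spor.Fi24 (Gen)

theorem hrel_0 : D.relsK RW 0 653 = true := by decide +kernel
theorem hrel_24 : D.relsK RW 15672 16325 = true := by decide +kernel
theorem hrel_48 : D.relsK RW 31344 31997 = true := by decide +kernel
theorem hrel_72 : D.relsK RW 47016 47669 = true := by decide +kernel
theorem hrel_96 : D.relsK RW 62688 63341 = true := by decide +kernel
theorem hrel_120 : D.relsK RW 78360 79013 = true := by decide +kernel
theorem hrel_144 : D.relsK RW 94032 94685 = true := by decide +kernel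
theorem hrel_168 : D.relsK RW 109704 110357 = true := by decide +kernel
theorem hrel_192 : D.relsK RW 125376 126029 = true := by decide +kernel
theorem hrel_216 : D.relsK RW 141048 141701 = true := by decide +kernel
theorem hrel_240 : D.relsK RW 156720 157373 = true := by decide +kernel
theorem hrel_264 : D.relsK RW 172392 173045 = true := by decide +kernel
theorem hrel_288 : D.relsK RW 188064 188717 = true := by decide +kernel
theorem hrel_312 : D.relsK RW 203736 204389 = true := by decide +kernel
theorem hrel_336 : D.relsK RW 219408 220061 = true := by decide +kernel
theorem hrel_360 : D.relsK RW 235080 235733 = true := by decide +kernel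
theorem hrel_384 : D.relsK RW 250752 251405 = true := by decide +kernel
theorem hrel_408 : D.relsK RW 266424 267077 = true := by decide +kernel
theorem hrel_432 : D.relsK RW 282096 282749 = true := by decide +kernel
theorem hrel_456 : D.relsK RW 297768 298421 = true := by decide +kernel
theorem hperm_c_0 : allRange 0 60000 (D.permK Gen.c) = true := by decide +kernel
theorem hperm_g_4 : allRange 240000 300000 (D.permK Gen.g) = true := by decide +kernel
theorem hfin_k_3 : allRange 180000 240000 (D.finK Gen.k) = true := by decide +kernel
theorem hfin_e_2 : allRange 120000 180000 (D.finK Gen.e) = true := by decide +kernel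
theorem hfin_i_1 : allRange 60000 120000 (D.finK Gen.i) = true := by decide +kernel
theorem hfact_181 : allRange 3620000 3640000 (D.factK WT) = true := by decide +kernel
theorem hfact_160 : allRange 3200000 3220000 (D.factK WT) = true := by decide +kernel
theorem hfact_9 : allRange 180000 200000 (D.factK WT) = true := by decide +kernel
theorem hfact_154 : allRange 3080000 3100000 (D.factK WT) = true := by decide +kernel
theorem hfact_69 : allRange 1380000 1400000 (D.factK WT) = true := by decide +kernel
theorem hfact_120 : allRange 2400000 2420000 (D.factK WT) = true := by decide +kernel
theorem hfact_30 : allRange 600000 620000 (D.factK WT) = true := by decide +kernel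
theorem htree_5 : allRange 200001 240001 D.treeK = true := by decide +kernel
theorem hperm_k_5 : allRange 300000 306936 (D.permK Gen.k) = true := by decide +kernel
theorem hfin_d_5 : allRange 300000 306936 (D.finK Gen.d) = true := by decide +kernel

end Cfsg.Agent.Lib.helper9.CE1690
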