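import Cfsg.Agent.Lib.helper9.CE1690D

set_option autoImplicit false

namespace Cfsg.Agent.Lib.helper9.CE1690
open Cfsg.Agent.Lib.helper9.CE
open Cfsg.Spor.Fi24 (Gen)

theorem hrel_12 : D.relsK RW 7836 8489 = true := by decide +kernel
theorem hrel_36 : D.relsK RW 23508 24161 = true := by decide +kernel
theorem hrel_60 : D.relsK RW 39180 39833 = true := by decide +kernel
theorem hrel_84 : D.relsK RW 54852 55505 = true := by decide +kernel
theorem hrel_108 : D.relsK RW 70524 71177 = true := by decide +kernel
theorem hrel_132 : D.relsK RW 86196 86849 = true := by decide +kernel
theorem hrel_156 : D.relsK RW 101868 102521 = true := by decide +kernel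
theorem hrel_180 : D.relsK RW 117540 118193 = true := by decide +kernel
theorem hrel_204 : D.relsK RW 133212 133865 = true := by decide +kernel
theorem hrel_228 : D.relsK RW 148884 149537 = true := by decide +kernel
theorem hrel_252 : D.relsK RW 164556 165209 = true := by decide +kernel
theorem hrel_276 : D.relsK RW 180228 180881 = true := by decide +kernel
theorem hrel_300 : D.relsK RW 195900 196553 = true := by decide +kernel
theorem hrel_324 : D.relsK RW 211572 212225 = true := by decide +kernel
theorem hrel_348 : D.relsK RW 227244 227897 = true := by decide +kernel
theorem hrel_372 : D.relsK RW 242916 243569 = true := by decide +kernel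
theorem hrel_396 : D.relsK RW 258588 259241 = true := by decide +kernel
theorem hrel_420 : D.relsK RW 274260 274913 = true := by decide +kernel
theorem hrel_444 : D.relsK RW 289932 290585 = true := by decide +kernel
theorem hrel_468 : D.relsK RW 305604 306257 = true := by decide +kernel
theorem hperm_e_2 : allRange 120000 180000 (D.permK Gen.e) = true := by decide +kernel
theorem hperm_i_1 : allRange 60000 120000 (D.permK Gen.i) = true := by decide +kernel
theorem hfin_c_0 : allRange 0 60000 (D.finK Gen.c) = true := by decide +kernel
theorem hfin_g_4 : allRange 240000 300000 (D.finK Gen.g) = true := by decide +kernel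
theorem hfact_186 : allRange 3720000 3740000 (D.factK WT) = true := by decide +kernel
theorem hfact_86 : allRange 1720000 1740000 (D.factK WT) = true := by decide +kernel
theorem hfact_169 : allRange 3380000 3400000 (D.factK WT) = true := by decide +kernel
theorem hfact_148 : allRange 2960000 2980000 (D.factK WT) = true := by decide +kernel
theorem hfact_130 : allRange 2600000 2620000 (D.factK WT) = true := by decide +kernel
theorem hfact_110 : allRange 2200000 2220000 (D.factK WT) = true := by decide +kernel
theorem hfact_103 : allRange 2060000 2080000 (D.factK WT) = true := by decide +kernel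
theorem hfact_35 : allRange 700000 720000 (D.factK WT) = true := by decide +kernel
theorem htree_9 : allRange 360001 394441 D.treeK = true := by decide +kernel
theorem hperm_j_5 : allRange 300000 306936 (D.permK Gen.j) = true := by decide +kernel

end Cfsg.Agent.Lib.helper9.CE1690
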