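import Cfsg.Agent.Lib.helper9.CE1690D

set_option autoImplicit false

namespace Cfsg.Agent.Lib.helper9.CE1690
open Cfsg.Agent.Lib.helper9.CE
open Cfsg.Spor.Fi24 (Gen)

theorem hrel_10 : D.relsK RW 6530 7183 = true := by decide +kernel
theorem hrel_34 : D.relsK RW 22202 22855 = true := by decide +kernel
theorem hrel_58 : D.relsK RW 37874 38527 = true := by decide +kernel
theorem hrel_82 : D.relsK RW 53546 54199 = true := by decide +kernel
theorem hrel_106 : D.relsK RW 69218 69871 = true := by decide +kernel
theorem hrel_130 : D.relsK RW 84890 85543 = true := by decide +kernel
theorem hrel_154 : D.relsK RW 100562 101215 = true := by decide +kernel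
theorem hrel_178 : D.relsK RW 116234 116887 = true := by decide +kernel
theorem hrel_202 : D.relsK RW 131906 132559 = true := by decide +kernel
theorem hrel_226 : D.relsK RW 147578 148231 = true := by decide +kernel
theorem hrel_250 : D.relsK RW 163250 163903 = true := by decide +kernel
theorem hrel_274 : D.relsK RW 178922 179575 = true := by decide +kernel
theorem hrel_298 : D.relsK RW 194594 195247 = true := by decide +kernel
theorem hrel_322 : D.relsK RW 210266 210919 = true := by decide +kernel
theorem hrel_346 : D.relsK RW 225938 226591 = true := by decide +kernel
theorem hrel_370 : D.relsK RW 241610 242263 = true := by decide +kernel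
theorem hrel_394 : D.relsK RW 257282 257935 = true := by decide +kernel
theorem hrel_418 : D.relsK RW 272954 273607 = true := by decide +kernel
theorem hrel_442 : D.relsK RW 288626 289279 = true := by decide +kernel
theorem hrel_466 : D.relsK RW 304298 304951 = true := by decide +kernel
theorem hperm_b_3 : allRange 180000 240000 (D.permK Gen.b) = true := by decide +kernel
theorem hperm_g_2 : allRange 120000 180000 (D.permK Gen.g) = true := by decide +kernel
theorem hfin_k_1 : allRange 60000 120000 (D.finK Gen.k) = true := by decide +kernel
theorem hfin_e_0 : allRange 0 60000 (D.finK Gen.e) = true := by decide +kernel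
theorem hfin_h_4 : allRange 240000 300000 (D.finK Gen.h) = true := by decide +kernel
theorem hfact_189 : allRange 3780000 3800000 (D.factK WT) = true := by decide +kernel
theorem hfact_74 : allRange 1480000 1500000 (D.factK WT) = true := by decide +kernel
theorem hfact_7 : allRange 140000 160000 (D.factK WT) = true := by decide +kernel
theorem hfact_100 : allRange 2000000 2020000 (D.factK WT) = true := by decide +kernel
theorem hfact_136 : allRange 2720000 2740000 (D.factK WT) = true := by decide +kernel
theorem hfact_118 : allRange 2360000 2380000 (D.factK WT) = true := by decide +kernel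
theorem hfact_31 : allRange 620000 640000 (D.factK WT) = true := by decide +kernel
theorem hfact_33 : allRange 660000 680000 (D.factK WT) = true := by decide +kernel
theorem hrnK_0 : allRange 0 60000 D.rnK = true := by decide +kernel
theorem hperm_h_5 : allRange 300000 306936 (D.permK Gen.h) = true := by decide +kernel

end Cfsg.Agent.Lib.helper9.CE1690
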