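import Cfsg.Agent.Lib.helper9.CE1690D

set_option autoImplicit false

namespace Cfsg.Agent.Lib.helper9.CE1690
open Cfsg.Agent.Lib.helper9.CE
open Cfsg.Spor.Fi24 (Gen)

theorem hrel_22 : D.relsK RW 14366 15019 = true := by decide +kernel
theorem hrel_46 : D.relsK RW 30038 30691 = true := by decide +kernel
theorem hrel_70 : D.relsK RW 45710 46363 = true := by decide +kernel
theorem hrel_94 : D.relsK RW 61382 62035 = true := by decide +kernel
theorem hrel_118 : D.relsK RW 77054 77707 = true := by decide +kernel
theorem hrel_142 : D.relsK RW 92726 93379 = true := by decide +kernel
theorem hrel_166 : D.relsK RW 108398 109051 = true := by decide +kernel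
theorem hrel_190 : D.relsK RW 124070 124723 = true := by decide +kernel
theorem hrel_214 : D.relsK RW 139742 140395 = true := by decide +kernel
theorem hrel_238 : D.relsK RW 155414 156067 = true := by decide +kernel
theorem hrel_262 : D.relsK RW 171086 171739 = true := by decide +kernel
theorem hrel_286 : D.relsK RW 186758 187411 = true := by decide +kernel
theorem hrel_310 : D.relsK RW 202430 203083 = true := by decide +kernel
theorem hrel_334 : D.relsK RW 218102 218755 = true := by decide +kernel
theorem hrel_358 : D.relsK RW 233774 234427 = true := by decide +kernel
theorem hrel_382 : D.relsK RW 249446 250099 = true := by decide +kernel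
theorem hrel_406 : D.relsK RW 265118 265771 = true := by decide +kernel
theorem hrel_430 : D.relsK RW 280790 281443 = true := by decide +kernel
theorem hrel_454 : D.relsK RW 296462 297115 = true := by decide +kernel
theorem hperm_k_3 : allRange 180000 240000 (D.permK Gen.k) = true := by decide +kernel
theorem hperm_e_0 : allRange 0 60000 (D.permK Gen.e) = true := by decide +kernel
theorem hperm_h_4 : allRange 240000 300000 (D.permK Gen.h) = true := by decide +kernel
theorem hfin_b_3 : allRange 180000 240000 (D.finK Gen.b) = true := by decide +kernel
theorem hfin_g_2 : allRange 120000 180000 (D.finK Gen.g) = true := by decide +kernel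
theorem hfact_194 : allRange 3880000 3900000 (D.factK WT) = true := by decide +kernel
theorem hfact_190 : allRange 3800000 3820000 (D.factK WT) = true := by decide +kernel
theorem hfact_156 : allRange 3120000 3140000 (D.factK WT) = true := by decide +kernel
theorem hfact_56 : allRange 1120000 1140000 (D.factK WT) = true := by decide +kernel
theorem hfact_150 : allRange 3000000 3020000 (D.factK WT) = true := by decide +kernel
theorem hfact_11 : allRange 220000 240000 (D.factK WT) = true := by decide +kernel
theorem hfact_107 : allRange 2140000 2160000 (D.factK WT) = true := by decide +kernel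
theorem hfact_108 : allRange 2160000 2180000 (D.factK WT) = true := by decide +kernel
theorem htree_0 : allRange 1 40001 D.treeK = true := by decide +kernel
theorem hperm_a_5 : allRange 300000 306936 (D.permK Gen.a) = true := by decide +kernel
theorem hfin_g_5 : allRange 300000 306936 (D.finK Gen.g) = true := by decide +kernel

end Cfsg.Agent.Lib.helper9.CE1690
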