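import Cfsg.Agent.Lib.helper9.CE1690D

set_option autoImplicit false

namespace Cfsg.Agent.Lib.helper9.CE1690
open Cfsg.Agent.Lib.helper9.CE
open Cfsg.Spor.Fi24 (Gen)

theorem hrel_11 : D.relsK RW 7183 7836 = true := by decide +kernel
theorem hrel_35 : D.relsK RW 22855 23508 = true := by decide +kernel
theorem hrel_59 : D.relsK RW 38527 39180 = true := by decide +kernel
theorem hrel_83 : D.relsK RW 54199 54852 = true := by decide +kernel
theorem hrel_107 : D.relsK RW 69871 70524 = true := by decide +kernel
theorem hrel_131 : D.relsK RW 85543 86196 = true := by decide +kernel
theorem hrel_155 : D.relsK RW 101215 101868 = true := by decide +kernel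
theorem hrel_179 : D.relsK RW 116887 117540 = true := by decide +kernel
theorem hrel_203 : D.relsK RW 132559 133212 = true := by decide +kernel
theorem hrel_227 : D.relsK RW 148231 148884 = true := by decide +kernel
theorem hrel_251 : D.relsK RW 163903 164556 = true := by decide +kernel
theorem hrel_275 : D.relsK RW 179575 180228 = true := by decide +kernel
theorem hrel_299 : D.relsK RW 195247 195900 = true := by decide +kernel
theorem hrel_323 : D.relsK RW 210919 211572 = true := by decide +kernel
theorem hrel_347 : D.relsK RW 226591 227244 = true := by decide +kernel
theorem hrel_371 : D.relsK RW 242263 242916 = true := by decide +kernel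
theorem hrel_395 : D.relsK RW 257935 258588 = true := by decide +kernel
theorem hrel_419 : D.relsK RW 273607 274260 = true := by decide +kernel
theorem hrel_443 : D.relsK RW 289279 289932 = true := by decide +kernel
theorem hrel_467 : D.relsK RW 304951 305604 = true := by decide +kernel
theorem hperm_b_4 : allRange 240000 300000 (D.permK Gen.b) = true := by decide +kernel
theorem hperm_g_3 : allRange 180000 240000 (D.permK Gen.g) = true := by decide +kernel
theorem hfin_k_2 : allRange 120000 180000 (D.finK Gen.k) = true := by decide +kernel
theorem hfin_e_1 : allRange 60000 120000 (D.finK Gen.e) = true := by decide +kernel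
theorem hfin_i_0 : allRange 0 60000 (D.finK Gen.i) = true := by decide +kernel
theorem hfact_184 : allRange 3680000 3700000 (D.factK WT) = true := by decide +kernel
theorem hfact_6 : allRange 120000 140000 (D.factK WT) = true := by decide +kernel
theorem hfact_65 : allRange 1300000 1320000 (D.factK WT) = true := by decide +kernel
theorem hfact_112 : allRange 2240000 2260000 (D.factK WT) = true := by decide +kernel
theorem hfact_114 : allRange 2280000 2300000 (D.factK WT) = true := by decide +kernel
theorem hfact_93 : allRange 1860000 1880000 (D.factK WT) = true := by decide +kernel
theorem hfact_102 : allRange 2040000 2060000 (D.factK WT) = true := by decide +kernel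
theorem hfact_124 : allRange 2480000 2500000 (D.factK WT) = true := by decide +kernel
theorem hrnK_2 : allRange 120000 180000 D.rnK = true := by decide +kernel
theorem hfin_l_5 : allRange 300000 306936 (D.finK Gen.l) = true := by decide +kernel

end Cfsg.Agent.Lib.helper9.CE1690
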