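import Cfsg.Agent.Lib.helper9.CE1690D

set_option autoImplicit false

namespace Cfsg.Agent.Lib.helper9.CE1690
open Cfsg.Agent.Lib.helper9.CE
open Cfsg.Spor.Fi24 (Gen)

theorem hrel_23 : D.relsK RW 15019 15672 = true := by decide +kernel
theorem hrel_47 : D.relsK RW 30691 31344 = true := by decide +kernel
theorem hrel_71 : D.relsK RW 46363 47016 = true := by decide +kernel
theorem hrel_95 : D.relsK RW 62035 62688 = true := by decide +kernel
theorem hrel_119 : D.relsK RW 77707 78360 = true := by decide +kernel
theorem hrel_143 : D.relsK RW 93379 94032 = true := by decide +kernel
theorem hrel_167 : D.relsK RW 109051 109704 = true := by decide +kernel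
theorem hrel_191 : D.relsK RW 124723 125376 = true := by decide +kernel
theorem hrel_215 : D.relsK RW 140395 141048 = true := by decide +kernel
theorem hrel_239 : D.relsK RW 156067 156720 = true := by decide +kernel
theorem hrel_263 : D.relsK RW 171739 172392 = true := by decide +kernel
theorem hrel_287 : D.relsK RW 187411 188064 = true := by decide +kernel
theorem hrel_311 : D.relsK RW 203083 203736 = true := by decide +kernel
theorem hrel_335 : D.relsK RW 218755 219408 = true := by decide +kernel
theorem hrel_359 : D.relsK RW 234427 235080 = true := by decide +kernel
theorem hrel_383 : D.relsK RW 250099 250752 = true := by decide +kernel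
theorem hrel_407 : D.relsK RW 265771 266424 = true := by decide +kernel
theorem hrel_431 : D.relsK RW 281443 282096 = true := by decide +kernel
theorem hrel_455 : D.relsK RW 297115 297768 = true := by decide +kernel
theorem hperm_k_4 : allRange 240000 300000 (D.permK Gen.k) = true := by decide +kernel
theorem hperm_e_1 : allRange 60000 120000 (D.permK Gen.e) = true := by decide +kernel
theorem hperm_i_0 : allRange 0 60000 (D.permK Gen.i) = true := by decide +kernel
theorem hfin_b_4 : allRange 240000 300000 (D.finK Gen.b) = true := by decide +kernel
theorem hfin_g_3 : allRange 180000 240000 (D.finK Gen.g) = true := by decide +kernel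
theorem hfact_193 : allRange 3860000 3880000 (D.factK WT) = true := by decide +kernel
theorem hfact_171 : allRange 3420000 3440000 (D.factK WT) = true := by decide +kernel
theorem hfact_164 : allRange 3280000 3300000 (D.factK WT) = true := by decide +kernel
theorem hfact_99 : allRange 1980000 2000000 (D.factK WT) = true := by decide +kernel
theorem hfact_147 : allRange 2940000 2960000 (D.factK WT) = true := by decide +kernel
theorem hfact_101 : allRange 2020000 2040000 (D.factK WT) = true := by decide +kernel
theorem hfact_121 : allRange 2420000 2440000 (D.factK WT) = true := by decide +kernel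
theorem hfact_92 : allRange 1840000 1860000 (D.factK WT) = true := by decide +kernel
theorem htree_2 : allRange 80001 120001 D.treeK = true := by decide +kernel
theorem hperm_c_5 : allRange 300000 306936 (D.permK Gen.c) = true := by decide +kernel
theorem hfin_h_5 : allRange 300000 306936 (D.finK Gen.h) = true := by decide +kernel

end Cfsg.Agent.Lib.helper9.CE1690
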