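import Cfsg.Agent.Lib.helper9.CE1690D

set_option autoImplicit false

namespace Cfsg.Agent.Lib.helper9.CE1690
open Cfsg.Agent.Lib.helper9.CE
open Cfsg.Spor.Fi24 (Gen)

theorem hrel_1 : D.relsK RW 653 1306 = true := by decide +kernel
theorem hrel_25 : D.relsK RW 16325 16978 = true := by decide +kernel
theorem hrel_49 : D.relsK RW 31997 32650 = true := by decide +kernel
theorem hrel_73 : D.relsK RW 47669 48322 = true := by decide +kernel
theorem hrel_97 : D.relsK RW 63341 63994 = true := by decide +kernel
theorem hrel_121 : D.relsK RW 79013 79666 = true := by decide +kernel
theorem hrel_145 : D.relsK RW 94685 95338 = true := by decide +kernel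
theorem hrel_169 : D.relsK RW 110357 111010 = true := by decide +kernel
theorem hrel_193 : D.relsK RW 126029 126682 = true := by decide +kernel
theorem hrel_217 : D.relsK RW 141701 142354 = true := by decide +kernel
theorem hrel_241 : D.relsK RW 157373 158026 = true := by decide +kernel
theorem hrel_265 : D.relsK RW 173045 173698 = true := by decide +kernel
theorem hrel_289 : D.relsK RW 188717 189370 = true := by decide +kernel
theorem hrel_313 : D.relsK RW 204389 205042 = true := by decide +kernel
theorem hrel_337 : D.relsK RW 220061 220714 = true := by decide +kernel
theorem hrel_361 : D.relsK RW 235733 236386 = true := by decide +kernel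
theorem hrel_385 : D.relsK RW 251405 252058 = true := by decide +kernel
theorem hrel_409 : D.relsK RW 267077 267730 = true := by decide +kernel
theorem hrel_433 : D.relsK RW 282749 283402 = true := by decide +kernel
theorem hrel_457 : D.relsK RW 298421 299074 = true := by decide +kernel
theorem hperm_c_1 : allRange 60000 120000 (D.permK Gen.c) = true := by decide +kernel
theorem hperm_j_0 : allRange 0 60000 (D.permK Gen.j) = true := by decide +kernel
theorem hfin_k_4 : allRange 240000 300000 (D.finK Gen.k) = true := by decide +kernel
theorem hfin_e_3 : allRange 180000 240000 (D.finK Gen.e) = true := by decide +kernel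
theorem hfin_i_2 : allRange 120000 180000 (D.finK Gen.i) = true := by decide +kernel
theorem hfact_174 : allRange 3480000 3500000 (D.factK WT) = true := by decide +kernel
theorem hfact_170 : allRange 3400000 3420000 (D.factK WT) = true := by decide +kernel
theorem hfact_151 : allRange 3020000 3040000 (D.factK WT) = true := by decide +kernel
theorem hfact_129 : allRange 2580000 2600000 (D.factK WT) = true := by decide +kernel
theorem hfact_14 : allRange 280000 300000 (D.factK WT) = true := by decide +kernel
theorem hfact_61 : allRange 1220000 1240000 (D.factK WT) = true := by decide +kernel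
theorem hfact_44 : allRange 880000 900000 (D.factK WT) = true := by decide +kernel
theorem htree_4 : allRange 160001 200001 D.treeK = true := by decide +kernel
theorem hperm_e_5 : allRange 300000 306936 (D.permK Gen.e) = true := by decide +kernel
theorem hrel_470 : D.relsK RW 306910 306936 = true := by decide +kernel

end Cfsg.Agent.Lib.helper9.CE1690
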