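import Cfsg.Agent.Lib.helper9.CE1690D

set_option autoImplicit false

namespace Cfsg.Agent.Lib.helper9.CE1690
open Cfsg.Agent.Lib.helper9.CE
open Cfsg.Spor.Fi24 (Gen)

theorem hrel_13 : D.relsK RW 8489 9142 = true := by decide +kernel
theorem hrel_37 : D.relsK RW 24161 24814 = true := by decide +kernel
theorem hrel_61 : D.relsK RW 39833 40486 = true := by decide +kernel
theorem hrel_85 : D.relsK RW 55505 56158 = true := by decide +kernel
theorem hrel_109 : D.relsK RW 71177 71830 = true := by decide +kernel
theorem hrel_133 : D.relsK RW 86849 87502 = true := by decide +kernel
theorem hrel_157 : D.relsK RW 102521 103174 = true := by decide +kernel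
theorem hrel_181 : D.relsK RW 118193 118846 = true := by decide +kernel
theorem hrel_205 : D.relsK RW 133865 134518 = true := by decide +kernel
theorem hrel_229 : D.relsK RW 149537 150190 = true := by decide +kernel
theorem hrel_253 : D.relsK RW 165209 165862 = true := by decide +kernel
theorem hrel_277 : D.relsK RW 180881 181534 = true := by decide +kernel
theorem hrel_301 : D.relsK RW 196553 197206 = true := by decide +kernel
theorem hrel_325 : D.relsK RW 212225 212878 = true := by decide +kernel
theorem hrel_349 : D.relsK RW 227897 228550 = true := by decide +kernel
theorem hrel_373 : D.relsK RW 243569 244222 = true := by decide +kernel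
theorem hrel_397 : D.relsK RW 259241 259894 = true := by decide +kernel
theorem hrel_421 : D.relsK RW 274913 275566 = true := by decide +kernel
theorem hrel_445 : D.relsK RW 290585 291238 = true := by decide +kernel
theorem hrel_469 : D.relsK RW 306257 306910 = true := by decide +kernel
theorem hperm_e_3 : allRange 180000 240000 (D.permK Gen.e) = true := by decide +kernel
theorem hperm_i_2 : allRange 120000 180000 (D.permK Gen.i) = true := by decide +kernel
theorem hfin_c_1 : allRange 60000 120000 (D.finK Gen.c) = true := by decide +kernel
theorem hfin_j_0 : allRange 0 60000 (D.finK Gen.j) = true := by decide +kernel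
theorem hfact_2 : allRange 40000 60000 (D.factK WT) = true := by decide +kernel
theorem hfact_111 : allRange 2220000 2240000 (D.factK WT) = true := by decide +kernel
theorem hfact_141 : allRange 2820000 2840000 (D.factK WT) = true := by decide +kernel
theorem hfact_60 : allRange 1200000 1220000 (D.factK WT) = true := by decide +kernel
theorem hfact_135 : allRange 2700000 2720000 (D.factK WT) = true := by decide +kernel
theorem hfact_34 : allRange 680000 700000 (D.factK WT) = true := by decide +kernel
theorem hfact_57 : allRange 1140000 1160000 (D.factK WT) = true := by decide +kernel
theorem hfact_32 : allRange 640000 660000 (D.factK WT) = true := by decide +kernel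
theorem hfact_55 : allRange 1100000 1120000 (D.factK WT) = true := by decide +kernel
theorem hfin_a_5 : allRange 300000 306936 (D.finK Gen.a) = true := by decide +kernel

end Cfsg.Agent.Lib.helper9.CE1690
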