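import Cfsg.Agent.Lib.helper9.CE1690D

set_option autoImplicit false

namespace Cfsg.Agent.Lib.helper9.CE1690
open Cfsg.Agent.Lib.helper9.CE
open Cfsg.Spor.Fi24 (Gen)

theorem hrel_2 : D.relsK RW 1306 1959 = true := by decide +kernel
theorem hrel_26 : D.relsK RW 16978 17631 = true := by decide +kernel
theorem hrel_50 : D.relsK RW 32650 33303 = true := by decide +kernel
theorem hrel_74 : D.relsK RW 48322 48975 = true := by decide +kernel
theorem hrel_98 : D.relsK RW 63994 64647 = true := by decide +kernel
theorem hrel_122 : D.relsK RW 79666 80319 = true := by decide +kernel
theorem hrel_146 : D.relsK RW 95338 95991 = true := by decide +kernel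
theorem hrel_170 : D.relsK RW 111010 111663 = true := by decide +kernel
theorem hrel_194 : D.relsK RW 126682 127335 = true := by decide +kernel
theorem hrel_218 : D.relsK RW 142354 143007 = true := by decide +kernel
theorem hrel_242 : D.relsK RW 158026 158679 = true := by decide +kernel
theorem hrel_266 : D.relsK RW 173698 174351 = true := by decide +kernel
theorem hrel_290 : D.relsK RW 189370 190023 = true := by decide +kernel
theorem hrel_314 : D.relsK RW 205042 205695 = true := by decide +kernel
theorem hrel_338 : D.relsK RW 220714 221367 = true := by decide +kernel
theorem hrel_362 : D.relsK RW 236386 237039 = true := by decide +kernel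
theorem hrel_386 : D.relsK RW 252058 252711 = true := by decide +kernel
theorem hrel_410 : D.relsK RW 267730 268383 = true := by decide +kernel
theorem hrel_434 : D.relsK RW 283402 284055 = true := by decide +kernel
theorem hrel_458 : D.relsK RW 299074 299727 = true := by decide +kernel
theorem hperm_a_0 : allRange 0 60000 (D.permK Gen.a) = true := by decide +kernel
theorem hperm_e_4 : allRange 240000 300000 (D.permK Gen.e) = true := by decide +kernel
theorem hperm_i_3 : allRange 180000 240000 (D.permK Gen.i) = true := by decide +kernel
theorem hfin_c_2 : allRange 120000 180000 (D.finK Gen.c) = true := by decide +kernel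
theorem hfin_j_1 : allRange 60000 120000 (D.finK Gen.j) = true := by decide +kernel
theorem hfact_179 : allRange 3580000 3600000 (D.factK WT) = true := by decide +kernel
theorem hfact_75 : allRange 1500000 1520000 (D.factK WT) = true := by decide +kernel
theorem hfact_63 : allRange 1260000 1280000 (D.factK WT) = true := by decide +kernel
theorem hfact_128 : allRange 2560000 2580000 (D.factK WT) = true := by decide +kernel
theorem hfact_115 : allRange 2300000 2320000 (D.factK WT) = true := by decide +kernel
theorem hfact_116 : allRange 2320000 2340000 (D.factK WT) = true := by decide +kernel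
theorem hfact_27 : allRange 540000 560000 (D.factK WT) = true := by decide +kernel
theorem hfact_25 : allRange 500000 520000 (D.factK WT) = true := by decide +kernel
theorem hfact_54 : allRange 1080000 1100000 (D.factK WT) = true := by decide +kernel

end Cfsg.Agent.Lib.helper9.CE1690
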