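import Cfsg.Agent.Lib.helper9.CE1690D

set_option autoImplicit false

namespace Cfsg.Agent.Lib.helper9.CE1690
open Cfsg.Agent.Lib.helper9.CE
open Cfsg.Spor.Fi24 (Gen)

theorem hrel_14 : D.relsK RW 9142 9795 = true := by decide +kernel
theorem hrel_38 : D.relsK RW 24814 25467 = true := by decide +kernel
theorem hrel_62 : D.relsK RW 40486 41139 = true := by decide +kernel
theorem hrel_86 : D.relsK RW 56158 56811 = true := by decide +kernel
theorem hrel_110 : D.relsK RW 71830 72483 = true := by decide +kernel
theorem hrel_134 : D.relsK RW 87502 88155 = true := by decide +kernel
theorem hrel_158 : D.relsK RW 103174 103827 = true := by decide +kernel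
theorem hrel_182 : D.relsK RW 118846 119499 = true := by decide +kernel
theorem hrel_206 : D.relsK RW 134518 135171 = true := by decide +kernel
theorem hrel_230 : D.relsK RW 150190 150843 = true := by decide +kernel
theorem hrel_254 : D.relsK RW 165862 166515 = true := by decide +kernel
theorem hrel_278 : D.relsK RW 181534 182187 = true := by decide +kernel
theorem hrel_302 : D.relsK RW 197206 197859 = true := by decide +kernel
theorem hrel_326 : D.relsK RW 212878 213531 = true := by decide +kernel
theorem hrel_350 : D.relsK RW 228550 229203 = true := by decide +kernel
theorem hrel_374 : D.relsK RW 244222 244875 = true := by decide +kernel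
theorem hrel_398 : D.relsK RW 259894 260547 = true := by decide +kernel
theorem hrel_422 : D.relsK RW 275566 276219 = true := by decide +kernel
theorem hrel_446 : D.relsK RW 291238 291891 = true := by decide +kernel
theorem hperm_l_0 : allRange 0 60000 (D.permK Gen.l) = true := by decide +kernel
theorem hperm_c_2 : allRange 120000 180000 (D.permK Gen.c) = true := by decide +kernel
theorem hperm_j_1 : allRange 60000 120000 (D.permK Gen.j) = true := by decide +kernel
theorem hfin_a_0 : allRange 0 60000 (D.finK Gen.a) = true := by decide +kernel
theorem hfin_e_4 : allRange 240000 300000 (D.finK Gen.e) = true := by decide +kernel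
theorem hfin_i_3 : allRange 180000 240000 (D.finK Gen.i) = true := by decide +kernel
theorem hfact_175 : allRange 3500000 3520000 (D.factK WT) = true := by decide +kernel
theorem hfact_5 : allRange 100000 120000 (D.factK WT) = true := by decide +kernel
theorem hfact_91 : allRange 1820000 1840000 (D.factK WT) = true := by decide +kernel
theorem hfact_97 : allRange 1940000 1960000 (D.factK WT) = true := by decide +kernel
theorem hfact_94 : allRange 1880000 1900000 (D.factK WT) = true := by decide +kernel
theorem hfact_80 : allRange 1600000 1620000 (D.factK WT) = true := by decide +kernel
theorem hfact_19 : allRange 380000 400000 (D.factK WT) = true := by decide +kernel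
theorem htree_8 : allRange 320001 360001 D.treeK = true := by decide +kernel
theorem hfin_f_5 : allRange 300000 306936 (D.finK Gen.f) = true := by decide +kernel

end Cfsg.Agent.Lib.helper9.CE1690
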