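import Cfsg.Agent.Lib.helper9.CE1690D

set_option autoImplicit false

namespace Cfsg.Agent.Lib.helper9.CE1690
open Cfsg.Agent.Lib.helper9.CE
open Cfsg.Spor.Fi24 (Gen)

theorem hrel_3 : D.relsK RW 1959 2612 = true := by decide +kernel
theorem hrel_27 : D.relsK RW 17631 18284 = true := by decide +kernel
theorem hrel_51 : D.relsK RW 33303 33956 = true := by decide +kernel
theorem hrel_75 : D.relsK RW 48975 49628 = true := by decide +kernel
theorem hrel_99 : D.relsK RW 64647 65300 = true := by decide +kernel
theorem hrel_123 : D.relsK RW 80319 80972 = true := by decide +kernel
theorem hrel_147 : D.relsK RW 95991 96644 = true := by decide +kernel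
theorem hrel_171 : D.relsK RW 111663 112316 = true := by decide +kernel
theorem hrel_195 : D.relsK RW 127335 127988 = true := by decide +kernel
theorem hrel_219 : D.relsK RW 143007 143660 = true := by decide +kernel
theorem hrel_243 : D.relsK RW 158679 159332 = true := by decide +kernel
theorem hrel_267 : D.relsK RW 174351 175004 = true := by decide +kernel
theorem hrel_291 : D.relsK RW 190023 190676 = true := by decide +kernel
theorem hrel_315 : D.relsK RW 205695 206348 = true := by decide +kernel
theorem hrel_339 : D.relsK RW 221367 222020 = true := by decide +kernel
theorem hrel_363 : D.relsK RW 237039 237692 = true := by decide +kernel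
theorem hrel_387 : D.relsK RW 252711 253364 = true := by decide +kernel
theorem hrel_411 : D.relsK RW 268383 269036 = true := by decide +kernel
theorem hrel_435 : D.relsK RW 284055 284708 = true := by decide +kernel
theorem hrel_459 : D.relsK RW 299727 300380 = true := by decide +kernel
theorem hperm_a_1 : allRange 60000 120000 (D.permK Gen.a) = true := by decide +kernel
theorem hperm_f_0 : allRange 0 60000 (D.permK Gen.f) = true := by decide +kernel
theorem hperm_i_4 : allRange 240000 300000 (D.permK Gen.i) = true := by decide +kernel
theorem hfin_c_3 : allRange 180000 240000 (D.finK Gen.c) = true := by decide +kernel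
theorem hfin_j_2 : allRange 120000 180000 (D.finK Gen.j) = true := by decide +kernel
theorem hfact_178 : allRange 3560000 3580000 (D.factK WT) = true := by decide +kernel
theorem hfact_157 : allRange 3140000 3160000 (D.factK WT) = true := by decide +kernel
theorem hfact_142 : allRange 2840000 2860000 (D.factK WT) = true := by decide +kernel
theorem hfact_132 : allRange 2640000 2660000 (D.factK WT) = true := by decide +kernel
theorem hfact_77 : allRange 1540000 1560000 (D.factK WT) = true := by decide +kernel
theorem hfact_24 : allRange 480000 500000 (D.factK WT) = true := by decide +kernel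
theorem hfact_90 : allRange 1800000 1820000 (D.factK WT) = true := by decide +kernel
theorem hfact_28 : allRange 560000 580000 (D.factK WT) = true := by decide +kernel
theorem hfact_51 : allRange 1020000 1040000 (D.factK WT) = true := by decide +kernel

end Cfsg.Agent.Lib.helper9.CE1690
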