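import Cfsg.Agent.Lib.helper9.CE1690D

set_option autoImplicit false

namespace Cfsg.Agent.Lib.helper9.CE1690
open Cfsg.Agent.Lib.helper9.CE
open Cfsg.Spor.Fi24 (Gen)

theorem hrel_15 : D.relsK RW 9795 10448 = true := by decide +kernel
theorem hrel_39 : D.relsK RW 25467 26120 = true := by decide +kernel
theorem hrel_63 : D.relsK RW 41139 41792 = true := by decide +kernel
theorem hrel_87 : D.relsK RW 56811 57464 = true := by decide +kernel
theorem hrel_111 : D.relsK RW 72483 73136 = true := by decide +kernel
theorem hrel_135 : D.relsK RW 88155 88808 = true := by decide +kernel
theorem hrel_159 : D.relsK RW 103827 104480 = true := by decide +kernel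
theorem hrel_183 : D.relsK RW 119499 120152 = true := by decide +kernel
theorem hrel_207 : D.relsK RW 135171 135824 = true := by decide +kernel
theorem hrel_231 : D.relsK RW 150843 151496 = true := by decide +kernel
theorem hrel_255 : D.relsK RW 166515 167168 = true := by decide +kernel
theorem hrel_279 : D.relsK RW 182187 182840 = true := by decide +kernel
theorem hrel_303 : D.relsK RW 197859 198512 = true := by decide +kernel
theorem hrel_327 : D.relsK RW 213531 214184 = true := by decide +kernel
theorem hrel_351 : D.relsK RW 229203 229856 = true := by decide +kernel
theorem hrel_375 : D.relsK RW 244875 245528 = true := by decide +kernel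
theorem hrel_399 : D.relsK RW 260547 261200 = true := by decide +kernel
theorem hrel_423 : D.relsK RW 276219 276872 = true := by decide +kernel
theorem hrel_447 : D.relsK RW 291891 292544 = true := by decide +kernel
theorem hperm_l_1 : allRange 60000 120000 (D.permK Gen.l) = true := by decide +kernel
theorem hperm_c_3 : allRange 180000 240000 (D.permK Gen.c) = true := by decide +kernel
theorem hperm_j_2 : allRange 120000 180000 (D.permK Gen.j) = true := by decide +kernel
theorem hfin_a_1 : allRange 60000 120000 (D.finK Gen.a) = true := by decide +kernel
theorem hfin_f_0 : allRange 0 60000 (D.finK Gen.f) = true := by decide +kernel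
theorem hfin_i_4 : allRange 240000 300000 (D.finK Gen.i) = true := by decide +kernel
theorem hfact_177 : allRange 3540000 3560000 (D.factK WT) = true := by decide +kernel
theorem hfact_125 : allRange 2500000 2520000 (D.factK WT) = true := by decide +kernel
theorem hfact_144 : allRange 2880000 2900000 (D.factK WT) = true := by decide +kernel
theorem hfact_153 : allRange 3060000 3080000 (D.factK WT) = true := by decide +kernel
theorem hfact_82 : allRange 1640000 1660000 (D.factK WT) = true := by decide +kernel
theorem hfact_67 : allRange 1340000 1360000 (D.factK WT) = true := by decide +kernel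
theorem hfact_123 : allRange 2460000 2480000 (D.factK WT) = true := by decide +kernel
theorem htree_7 : allRange 280001 320001 D.treeK = true := by decide +kernel
theorem hfin_e_5 : allRange 300000 306936 (D.finK Gen.e) = true := by decide +kernel

end Cfsg.Agent.Lib.helper9.CE1690
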