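import Cfsg.Agent.Lib.helper9.CE1690D

set_option autoImplicit false

namespace Cfsg.Agent.Lib.helper9.CE1690
open Cfsg.Agent.Lib.helper9.CE
open Cfsg.Spor.Fi24 (Gen)

theorem hrel_4 : D.relsK RW 2612 3265 = true := by decide +kernel
theorem hrel_28 : D.relsK RW 18284 18937 = true := by decide +kernel
theorem hrel_52 : D.relsK RW 33956 34609 = true := by decide +kernel
theorem hrel_76 : D.relsK RW 49628 50281 = true := by decide +kernel
theorem hrel_100 : D.relsK RW 65300 65953 = true := by decide +kernel
theorem hrel_124 : D.relsK RW 80972 81625 = true := by decide +kernel
theorem hrel_148 : D.relsK RW 96644 97297 = true := by decide +kernel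
theorem hrel_172 : D.relsK RW 112316 112969 = true := by decide +kernel
theorem hrel_196 : D.relsK RW 127988 128641 = true := by decide +kernel
theorem hrel_220 : D.relsK RW 143660 144313 = true := by decide +kernel
theorem hrel_244 : D.relsK RW 159332 159985 = true := by decide +kernel
theorem hrel_268 : D.relsK RW 175004 175657 = true := by decide +kernel
theorem hrel_292 : D.relsK RW 190676 191329 = true := by decide +kernel
theorem hrel_316 : D.relsK RW 206348 207001 = true := by decide +kernel
theorem hrel_340 : D.relsK RW 222020 222673 = true := by decide +kernel
theorem hrel_364 : D.relsK RW 237692 238345 = true := by decide +kernel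
theorem hrel_388 : D.relsK RW 253364 254017 = true := by decide +kernel
theorem hrel_412 : D.relsK RW 269036 269689 = true := by decide +kernel
theorem hrel_436 : D.relsK RW 284708 285361 = true := by decide +kernel
theorem hrel_460 : D.relsK RW 300380 301033 = true := by decide +kernel
theorem hperm_a_2 : allRange 120000 180000 (D.permK Gen.a) = true := by decide +kernel
theorem hperm_f_1 : allRange 60000 120000 (D.permK Gen.f) = true := by decide +kernel
theorem hfin_l_0 : allRange 0 60000 (D.finK Gen.l) = true := by decide +kernel
theorem hfin_c_4 : allRange 240000 300000 (D.finK Gen.c) = true := by decide +kernel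
theorem hfin_j_3 : allRange 180000 240000 (D.finK Gen.j) = true := by decide +kernel
theorem hfact_180 : allRange 3600000 3620000 (D.factK WT) = true := by decide +kernel
theorem hfact_166 : allRange 3320000 3340000 (D.factK WT) = true := by decide +kernel
theorem hfact_79 : allRange 1580000 1600000 (D.factK WT) = true := by decide +kernel
theorem hfact_10 : allRange 200000 220000 (D.factK WT) = true := by decide +kernel
theorem hfact_117 : allRange 2340000 2360000 (D.factK WT) = true := by decide +kernel
theorem hfact_119 : allRange 2380000 2400000 (D.factK WT) = true := by decide +kernel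
theorem hfact_23 : allRange 460000 480000 (D.factK WT) = true := by decide +kernel
theorem hfact_109 : allRange 2180000 2200000 (D.factK WT) = true := by decide +kernel
theorem hfact_48 : allRange 960000 980000 (D.factK WT) = true := by decide +kernel
theorem hsubK : D.subK SW = true := by decide +kernel
theorem hrn0 : D.rn 0 = 0 := by decide +kernel

end Cfsg.Agent.Lib.helper9.CE1690
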