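import Cfsg.Agent.Lib.helper9.CE1690D

set_option autoImplicit false

namespace Cfsg.Agent.Lib.helper9.CE1690
open Cfsg.Agent.Lib.helper9.CE
open Cfsg.Spor.Fi24 (Gen)

theorem hrel_16 : D.relsK RW 10448 11101 = true := by decide +kernel
theorem hrel_40 : D.relsK RW 26120 26773 = true := by decide +kernel
theorem hrel_64 : D.relsK RW 41792 42445 = true := by decide +kernel
theorem hrel_88 : D.relsK RW 57464 58117 = true := by decide +kernel
theorem hrel_112 : D.relsK RW 73136 73789 = true := by decide +kernel
theorem hrel_136 : D.relsK RW 88808 89461 = true := by decide +kernel
theorem hrel_160 : D.relsK RW 104480 105133 = true := by decide +kernel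
theorem hrel_184 : D.relsK RW 120152 120805 = true := by decide +kernel
theorem hrel_208 : D.relsK RW 135824 136477 = true := by decide +kernel
theorem hrel_232 : D.relsK RW 151496 152149 = true := by decide +kernel
theorem hrel_256 : D.relsK RW 167168 167821 = true := by decide +kernel
theorem hrel_280 : D.relsK RW 182840 183493 = true := by decide +kernel
theorem hrel_304 : D.relsK RW 198512 199165 = true := by decide +kernel
theorem hrel_328 : D.relsK RW 214184 214837 = true := by decide +kernel
theorem hrel_352 : D.relsK RW 229856 230509 = true := by decide +kernel
theorem hrel_376 : D.relsK RW 245528 246181 = true := by decide +kernel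
theorem hrel_400 : D.relsK RW 261200 261853 = true := by decide +kernel
theorem hrel_424 : D.relsK RW 276872 277525 = true := by decide +kernel
theorem hrel_448 : D.relsK RW 292544 293197 = true := by decide +kernel
theorem hperm_l_2 : allRange 120000 180000 (D.permK Gen.l) = true := by decide +kernel
theorem hperm_c_4 : allRange 240000 300000 (D.permK Gen.c) = true := by decide +kernel
theorem hperm_j_3 : allRange 180000 240000 (D.permK Gen.j) = true := by decide +kernel
theorem hfin_a_2 : allRange 120000 180000 (D.finK Gen.a) = true := by decide +kernel
theorem hfin_f_1 : allRange 60000 120000 (D.finK Gen.f) = true := by decide +kernel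
theorem hfact_198 : allRange 3960000 3980000 (D.factK WT) = true := by decide +kernel
theorem hfact_176 : allRange 3520000 3540000 (D.factK WT) = true := by decide +kernel
theorem hfact_87 : allRange 1740000 1760000 (D.factK WT) = true := by decide +kernel
theorem hfact_155 : allRange 3100000 3120000 (D.factK WT) = true := by decide +kernel
theorem hfact_59 : allRange 1180000 1200000 (D.factK WT) = true := by decide +kernel
theorem hfact_131 : allRange 2620000 2640000 (D.factK WT) = true := by decide +kernel
theorem hfact_43 : allRange 860000 880000 (D.factK WT) = true := by decide +kernel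
theorem hfact_105 : allRange 2100000 2120000 (D.factK WT) = true := by decide +kernel
theorem htree_6 : allRange 240001 280001 D.treeK = true := by decide +kernel
theorem hfact_53 : allRange 1060000 1080000 (D.factK WT) = true := by decide +kernel
theorem hpi0 : D.pi 0 = 0 := by decide +kernel

end Cfsg.Agent.Lib.helper9.CE1690
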