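import Cfsg.Agent.Lib.helper9.CE1690D

set_option autoImplicit false

namespace Cfsg.Agent.Lib.helper9.CE1690
open Cfsg.Agent.Lib.helper9.CE
open Cfsg.Spor.Fi24 (Gen)

theorem hrel_5 : D.relsK RW 3265 3918 = true := by decide +kernel
theorem hrel_29 : D.relsK RW 18937 19590 = true := by decide +kernel
theorem hrel_53 : D.relsK RW 34609 35262 = true := by decide +kernel
theorem hrel_77 : D.relsK RW 50281 50934 = true := by decide +kernel
theorem hrel_101 : D.relsK RW 65953 66606 = true := by decide +kernel
theorem hrel_125 : D.relsK RW 81625 82278 = true := by decide +kernel
theorem hrel_149 : D.relsK RW 97297 97950 = true := by decide +kernel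
theorem hrel_173 : D.relsK RW 112969 113622 = true := by decide +kernel
theorem hrel_197 : D.relsK RW 128641 129294 = true := by decide +kernel
theorem hrel_221 : D.relsK RW 144313 144966 = true := by decide +kernel
theorem hrel_245 : D.relsK RW 159985 160638 = true := by decide +kernel
theorem hrel_269 : D.relsK RW 175657 176310 = true := by decide +kernel
theorem hrel_293 : D.relsK RW 191329 191982 = true := by decide +kernel
theorem hrel_317 : D.relsK RW 207001 207654 = true := by decide +kernel
theorem hrel_341 : D.relsK RW 222673 223326 = true := by decide +kernel
theorem hrel_365 : D.relsK RW 238345 238998 = true := by decide +kernel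
theorem hrel_389 : D.relsK RW 254017 254670 = true := by decide +kernel
theorem hrel_413 : D.relsK RW 269689 270342 = true := by decide +kernel
theorem hrel_437 : D.relsK RW 285361 286014 = true := by decide +kernel
theorem hrel_461 : D.relsK RW 301033 301686 = true := by decide +kernel
theorem hperm_a_3 : allRange 180000 240000 (D.permK Gen.a) = true := by decide +kernel
theorem hperm_f_2 : allRange 120000 180000 (D.permK Gen.f) = true := by decide +kernel
theorem hfin_l_1 : allRange 60000 120000 (D.finK Gen.l) = true := by decide +kernel
theorem hfin_d_0 : allRange 0 60000 (D.finK Gen.d) = true := by decide +kernel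
theorem hfin_j_4 : allRange 240000 300000 (D.finK Gen.j) = true := by decide +kernel
theorem hfact_185 : allRange 3700000 3720000 (D.factK WT) = true := by decide +kernel
theorem hfact_161 : allRange 3220000 3240000 (D.factK WT) = true := by decide +kernel
theorem hfact_58 : allRange 1160000 1180000 (D.factK WT) = true := by decide +kernel
theorem hfact_12 : allRange 240000 260000 (D.factK WT) = true := by decide +kernel
theorem hfact_39 : allRange 780000 800000 (D.factK WT) = true := by decide +kernel
theorem hfact_89 : allRange 1780000 1800000 (D.factK WT) = true := by decide +kernel
theorem hfact_41 : allRange 820000 840000 (D.factK WT) = true := by decide +kernel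
theorem hfact_96 : allRange 1920000 1940000 (D.factK WT) = true := by decide +kernel
theorem hfact_49 : allRange 980000 1000000 (D.factK WT) = true := by decide +kernel
theorem hperm_g_5 : allRange 300000 306936 (D.permK Gen.g) = true := by decide +kernel
theorem hfact_199 : allRange 3980000 3981410 (D.factK WT) = true := by decide +kernel

end Cfsg.Agent.Lib.helper9.CE1690
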