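import Cfsg.Agent.Lib.helper9.CE1690D

set_option autoImplicit false

namespace Cfsg.Agent.Lib.helper9.CE1690
open Cfsg.Agent.Lib.helper9.CE
open Cfsg.Spor.Fi24 (Gen)

theorem hrel_17 : D.relsK RW 11101 11754 = true := by decide +kernel
theorem hrel_41 : D.relsK RW 26773 27426 = true := by decide +kernel
theorem hrel_65 : D.relsK RW 42445 43098 = true := by decide +kernel
theorem hrel_89 : D.relsK RW 58117 58770 = true := by decide +kernel
theorem hrel_113 : D.relsK RW 73789 74442 = true := by decide +kernel
theorem hrel_137 : D.relsK RW 89461 90114 = true := by decide +kernel
theorem hrel_161 : D.relsK RW 105133 105786 = true := by decide +kernel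
theorem hrel_185 : D.relsK RW 120805 121458 = true := by decide +kernel
theorem hrel_209 : D.relsK RW 136477 137130 = true := by decide +kernel
theorem hrel_233 : D.relsK RW 152149 152802 = true := by decide +kernel
theorem hrel_257 : D.relsK RW 167821 168474 = true := by decide +kernel
theorem hrel_281 : D.relsK RW 183493 184146 = true := by decide +kernel
theorem hrel_305 : D.relsK RW 199165 199818 = true := by decide +kernel
theorem hrel_329 : D.relsK RW 214837 215490 = true := by decide +kernel
theorem hrel_353 : D.relsK RW 230509 231162 = true := by decide +kernel
theorem hrel_377 : D.relsK RW 246181 246834 = true := by decide +kernel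
theorem hrel_401 : D.relsK RW 261853 262506 = true := by decide +kernel
theorem hrel_425 : D.relsK RW 277525 278178 = true := by decide +kernel
theorem hrel_449 : D.relsK RW 293197 293850 = true := by decide +kernel
theorem hperm_l_3 : allRange 180000 240000 (D.permK Gen.l) = true := by decide +kernel
theorem hperm_d_0 : allRange 0 60000 (D.permK Gen.d) = true := by decide +kernel
theorem hperm_j_4 : allRange 240000 300000 (D.permK Gen.j) = true := by decide +kernel
theorem hfin_a_3 : allRange 180000 240000 (D.finK Gen.a) = true := by decide +kernel
theorem hfin_f_2 : allRange 120000 180000 (D.finK Gen.f) = true := by decide +kernel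
theorem hfact_196 : allRange 3920000 3940000 (D.factK WT) = true := by decide +kernel
theorem hfact_167 : allRange 3340000 3360000 (D.factK WT) = true := by decide +kernel
theorem hfact_8 : allRange 160000 180000 (D.factK WT) = true := by decide +kernel
theorem hfact_143 : allRange 2860000 2880000 (D.factK WT) = true := by decide +kernel
theorem hfact_42 : allRange 840000 860000 (D.factK WT) = true := by decide +kernel
theorem hfact_13 : allRange 260000 280000 (D.factK WT) = true := by decide +kernel
theorem hfact_37 : allRange 740000 760000 (D.factK WT) = true := by decide +kernel
theorem hfact_72 : allRange 1440000 1460000 (D.factK WT) = true := by decide +kernel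
theorem hfact_4 : allRange 80000 100000 (D.factK WT) = true := by decide +kernel
theorem hperm_l_5 : allRange 300000 306936 (D.permK Gen.l) = true := by decide +kernel
theorem hfin_c_5 : allRange 300000 306936 (D.finK Gen.c) = true := by decide +kernel

end Cfsg.Agent.Lib.helper9.CE1690
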