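import Cfsg.Agent.Lib.helper9.CE1690D

set_option autoImplicit false

namespace Cfsg.Agent.Lib.helper9.CE1690
open Cfsg.Agent.Lib.helper9.CE
open Cfsg.Spor.Fi24 (Gen)

theorem hrel_6 : D.relsK RW 3918 4571 = true := by decide +kernel
theorem hrel_30 : D.relsK RW 19590 20243 = true := by decide +kernel
theorem hrel_54 : D.relsK RW 35262 35915 = true := by decide +kernel
theorem hrel_78 : D.relsK RW 50934 51587 = true := by decide +kernel
theorem hrel_102 : D.relsK RW 66606 67259 = true := by decide +kernel
theorem hrel_126 : D.relsK RW 82278 82931 = true := by decide +kernel
theorem hrel_150 : D.relsK RW 97950 98603 = true := by decide +kernel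
theorem hrel_174 : D.relsK RW 113622 114275 = true := by decide +kernel
theorem hrel_198 : D.relsK RW 129294 129947 = true := by decide +kernel
theorem hrel_222 : D.relsK RW 144966 145619 = true := by decide +kernel
theorem hrel_246 : D.relsK RW 160638 161291 = true := by decide +kernel
theorem hrel_270 : D.relsK RW 176310 176963 = true := by decide +kernel
theorem hrel_294 : D.relsK RW 191982 192635 = true := by decide +kernel
theorem hrel_318 : D.relsK RW 207654 208307 = true := by decide +kernel
theorem hrel_342 : D.relsK RW 223326 223979 = true := by decide +kernel
theorem hrel_366 : D.relsK RW 238998 239651 = true := by decide +kernel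
theorem hrel_390 : D.relsK RW 254670 255323 = true := by decide +kernel
theorem hrel_414 : D.relsK RW 270342 270995 = true := by decide +kernel
theorem hrel_438 : D.relsK RW 286014 286667 = true := by decide +kernel
theorem hrel_462 : D.relsK RW 301686 302339 = true := by decide +kernel
theorem hperm_a_4 : allRange 240000 300000 (D.permK Gen.a) = true := by decide +kernel
theorem hperm_f_3 : allRange 180000 240000 (D.permK Gen.f) = true := by decide +kernel
theorem hfin_l_2 : allRange 120000 180000 (D.finK Gen.l) = true := by decide +kernel
theorem hfin_d_1 : allRange 60000 120000 (D.finK Gen.d) = true := by decide +kernel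
theorem hfin_h_0 : allRange 0 60000 (D.finK Gen.h) = true := by decide +kernel
theorem hfact_183 : allRange 3660000 3680000 (D.factK WT) = true := by decide +kernel
theorem hfact_165 : allRange 3300000 3320000 (D.factK WT) = true := by decide +kernel
theorem hfact_68 : allRange 1360000 1380000 (D.factK WT) = true := by decide +kernel
theorem hfact_46 : allRange 920000 940000 (D.factK WT) = true := by decide +kernel
theorem hfact_73 : allRange 1460000 1480000 (D.factK WT) = true := by decide +kernel
theorem hfact_18 : allRange 360000 380000 (D.factK WT) = true := by decide +kernel
theorem hfact_84 : allRange 1680000 1700000 (D.factK WT) = true := by decide +kernel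
theorem hfact_83 : allRange 1660000 1680000 (D.factK WT) = true := by decide +kernel
theorem hrnK_3 : allRange 180000 240000 D.rnK = true := by decide +kernel
theorem hfin_k_5 : allRange 300000 306936 (D.finK Gen.k) = true := by decide +kernel

end Cfsg.Agent.Lib.helper9.CE1690
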