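import Cfsg.Agent.Lib.helper9.CE1690D

set_option autoImplicit false

namespace Cfsg.Agent.Lib.helper9.CE1690
open Cfsg.Agent.Lib.helper9.CE
open Cfsg.Spor.Fi24 (Gen)

theorem hrel_18 : D.relsK RW 11754 12407 = true := by decide +kernel
theorem hrel_42 : D.relsK RW 27426 28079 = true := by decide +kernel
theorem hrel_66 : D.relsK RW 43098 43751 = true := by decide +kernel
theorem hrel_90 : D.relsK RW 58770 59423 = true := by decide +kernel
theorem hrel_114 : D.relsK RW 74442 75095 = true := by decide +kernel
theorem hrel_138 : D.relsK RW 90114 90767 = true := by decide +kernel
theorem hrel_162 : D.relsK RW 105786 106439 = true := by decide +kernel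
theorem hrel_186 : D.relsK RW 121458 122111 = true := by decide +kernel
theorem hrel_210 : D.relsK RW 137130 137783 = true := by decide +kernel
theorem hrel_234 : D.relsK RW 152802 153455 = true := by decide +kernel
theorem hrel_258 : D.relsK RW 168474 169127 = true := by decide +kernel
theorem hrel_282 : D.relsK RW 184146 184799 = true := by decide +kernel
theorem hrel_306 : D.relsK RW 199818 200471 = true := by decide +kernel
theorem hrel_330 : D.relsK RW 215490 216143 = true := by decide +kernel
theorem hrel_354 : D.relsK RW 231162 231815 = true := by decide +kernel
theorem hrel_378 : D.relsK RW 246834 247487 = true := by decide +kernel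
theorem hrel_402 : D.relsK RW 262506 263159 = true := by decide +kernel
theorem hrel_426 : D.relsK RW 278178 278831 = true := by decide +kernel
theorem hrel_450 : D.relsK RW 293850 294503 = true := by decide +kernel
theorem hperm_l_4 : allRange 240000 300000 (D.permK Gen.l) = true := by decide +kernel
theorem hperm_d_1 : allRange 60000 120000 (D.permK Gen.d) = true := by decide +kernel
theorem hperm_h_0 : allRange 0 60000 (D.permK Gen.h) = true := by decide +kernel
theorem hfin_a_4 : allRange 240000 300000 (D.finK Gen.a) = true := by decide +kernel
theorem hfin_f_3 : allRange 180000 240000 (D.finK Gen.f) = true := by decide +kernel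
theorem hfact_195 : allRange 3900000 3920000 (D.factK WT) = true := by decide +kernel
theorem hfact_3 : allRange 60000 80000 (D.factK WT) = true := by decide +kernel
theorem hfact_85 : allRange 1700000 1720000 (D.factK WT) = true := by decide +kernel
theorem hfact_140 : allRange 2800000 2820000 (D.factK WT) = true := by decide +kernel
theorem hfact_66 : allRange 1320000 1340000 (D.factK WT) = true := by decide +kernel
theorem hfact_15 : allRange 300000 320000 (D.factK WT) = true := by decide +kernel
theorem hfact_133 : allRange 2660000 2680000 (D.factK WT) = true := by decide +kernel
theorem hfact_21 : allRange 420000 440000 (D.factK WT) = true := by decide +kernel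
theorem htree_3 : allRange 120001 160001 D.treeK = true := by decide +kernel
theorem hperm_d_5 : allRange 300000 306936 (D.permK Gen.d) = true := by decide +kernel
theorem hfin_i_5 : allRange 300000 306936 (D.finK Gen.i) = true := by decide +kernel

end Cfsg.Agent.Lib.helper9.CE1690
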