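import Cfsg.Agent.Lib.helper9.CE1690D

set_option autoImplicit false

namespace Cfsg.Agent.Lib.helper9.CE1690
open Cfsg.Agent.Lib.helper9.CE
open Cfsg.Spor.Fi24 (Gen)

theorem hrel_7 : D.relsK RW 4571 5224 = true := by decide +kernel
theorem hrel_31 : D.relsK RW 20243 20896 = true := by decide +kernel
theorem hrel_55 : D.relsK RW 35915 36568 = true := by decide +kernel
theorem hrel_79 : D.relsK RW 51587 52240 = true := by decide +kernel
theorem hrel_103 : D.relsK RW 67259 67912 = true := by decide +kernel
theorem hrel_127 : D.relsK RW 82931 83584 = true := by decide +kernel
theorem hrel_151 : D.relsK RW 98603 99256 = true := by decide +kernel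
theorem hrel_175 : D.relsK RW 114275 114928 = true := by decide +kernel
theorem hrel_199 : D.relsK RW 129947 130600 = true := by decide +kernel
theorem hrel_223 : D.relsK RW 145619 146272 = true := by decide +kernel
theorem hrel_247 : D.relsK RW 161291 161944 = true := by decide +kernel
theorem hrel_271 : D.relsK RW 176963 177616 = true := by decide +kernel
theorem hrel_295 : D.relsK RW 192635 193288 = true := by decide +kernel
theorem hrel_319 : D.relsK RW 208307 208960 = true := by decide +kernel
theorem hrel_343 : D.relsK RW 223979 224632 = true := by decide +kernel
theorem hrel_367 : D.relsK RW 239651 240304 = true := by decide +kernel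
theorem hrel_391 : D.relsK RW 255323 255976 = true := by decide +kernel
theorem hrel_415 : D.relsK RW 270995 271648 = true := by decide +kernel
theorem hrel_439 : D.relsK RW 286667 287320 = true := by decide +kernel
theorem hrel_463 : D.relsK RW 302339 302992 = true := by decide +kernel
theorem hperm_b_0 : allRange 0 60000 (D.permK Gen.b) = true := by decide +kernel
theorem hperm_f_4 : allRange 240000 300000 (D.permK Gen.f) = true := by decide +kernel
theorem hfin_l_3 : allRange 180000 240000 (D.finK Gen.l) = true := by decide +kernel
theorem hfin_d_2 : allRange 120000 180000 (D.finK Gen.d) = true := by decide +kernel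
theorem hfin_h_1 : allRange 60000 120000 (D.finK Gen.h) = true := by decide +kernel
theorem hfact_188 : allRange 3760000 3780000 (D.factK WT) = true := by decide +kernel
theorem hfact_158 : allRange 3160000 3180000 (D.factK WT) = true := by decide +kernel
theorem hfact_76 : allRange 1520000 1540000 (D.factK WT) = true := by decide +kernel
theorem hfact_145 : allRange 2900000 2920000 (D.factK WT) = true := by decide +kernel
theorem hfact_106 : allRange 2120000 2140000 (D.factK WT) = true := by decide +kernel
theorem hfact_20 : allRange 400000 420000 (D.factK WT) = true := by decide +kernel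
theorem hfact_139 : allRange 2780000 2800000 (D.factK WT) = true := by decide +kernel
theorem hfact_95 : allRange 1900000 1920000 (D.factK WT) = true := by decide +kernel
theorem hrnK_1 : allRange 60000 120000 D.rnK = true := by decide +kernel
theorem hperm_i_5 : allRange 300000 306936 (D.permK Gen.i) = true := by decide +kernel

end Cfsg.Agent.Lib.helper9.CE1690
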