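import Cfsg.Agent.Lib.helper9.CE1690D

set_option autoImplicit false

namespace Cfsg.Agent.Lib.helper9.CE1690
open Cfsg.Agent.Lib.helper9.CE
open Cfsg.Spor.Fi24 (Gen)

theorem hrel_19 : D.relsK RW 12407 13060 = true := by decide +kernel
theorem hrel_43 : D.relsK RW 28079 28732 = true := by decide +kernel
theorem hrel_67 : D.relsK RW 43751 44404 = true := by decide +kernel
theorem hrel_91 : D.relsK RW 59423 60076 = true := by decide +kernel
theorem hrel_115 : D.relsK RW 75095 75748 = true := by decide +kernel
theorem hrel_139 : D.relsK RW 90767 91420 = true := by decide +kernel
theorem hrel_163 : D.relsK RW 106439 107092 = true := by decide +kernel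
theorem hrel_187 : D.relsK RW 122111 122764 = true := by decide +kernel
theorem hrel_211 : D.relsK RW 137783 138436 = true := by decide +kernel
theorem hrel_235 : D.relsK RW 153455 154108 = true := by decide +kernel
theorem hrel_259 : D.relsK RW 169127 169780 = true := by decide +kernel
theorem hrel_283 : D.relsK RW 184799 185452 = true := by decide +kernel
theorem hrel_307 : D.relsK RW 200471 201124 = true := by decide +kernel
theorem hrel_331 : D.relsK RW 216143 216796 = true := by decide +kernel
theorem hrel_355 : D.relsK RW 231815 232468 = true := by decide +kernel
theorem hrel_379 : D.relsK RW 247487 248140 = true := by decide +kernel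
theorem hrel_403 : D.relsK RW 263159 263812 = true := by decide +kernel
theorem hrel_427 : D.relsK RW 278831 279484 = true := by decide +kernel
theorem hrel_451 : D.relsK RW 294503 295156 = true := by decide +kernel
theorem hperm_k_0 : allRange 0 60000 (D.permK Gen.k) = true := by decide +kernel
theorem hperm_d_2 : allRange 120000 180000 (D.permK Gen.d) = true := by decide +kernel
theorem hperm_h_1 : allRange 60000 120000 (D.permK Gen.h) = true := by decide +kernel
theorem hfin_b_0 : allRange 0 60000 (D.finK Gen.b) = true := by decide +kernel
theorem hfin_f_4 : allRange 240000 300000 (D.finK Gen.f) = true := by decide +kernel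
theorem hfact_197 : allRange 3940000 3960000 (D.factK WT) = true := by decide +kernel
theorem hfact_172 : allRange 3440000 3460000 (D.factK WT) = true := by decide +kernel
theorem hfact_163 : allRange 3260000 3280000 (D.factK WT) = true := by decide +kernel
theorem hfact_152 : allRange 3040000 3060000 (D.factK WT) = true := by decide +kernel
theorem hfact_146 : allRange 2920000 2940000 (D.factK WT) = true := by decide +kernel
theorem hfact_62 : allRange 1240000 1260000 (D.factK WT) = true := by decide +kernel
theorem hfact_138 : allRange 2760000 2780000 (D.factK WT) = true := by decide +kernel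
theorem hfact_38 : allRange 760000 780000 (D.factK WT) = true := by decide +kernel
theorem htree_1 : allRange 40001 80001 D.treeK = true := by decide +kernel
theorem hperm_b_5 : allRange 300000 306936 (D.permK Gen.b) = true := by decide +kernel
theorem hfin_j_5 : allRange 300000 306936 (D.finK Gen.j) = true := by decide +kernel

end Cfsg.Agent.Lib.helper9.CE1690
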