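import Cfsg.Agent.Lib.helper9.CE1690D

set_option autoImplicit false

namespace Cfsg.Agent.Lib.helper9.CE1690
open Cfsg.Agent.Lib.helper9.CE
open Cfsg.Spor.Fi24 (Gen)

theorem hrel_8 : D.relsK RW 5224 5877 = true := by decide +kernel
theorem hrel_32 : D.relsK RW 20896 21549 = true := by decide +kernel
theorem hrel_56 : D.relsK RW 36568 37221 = true := by decide +kernel
theorem hrel_80 : D.relsK RW 52240 52893 = true := by decide +kernel
theorem hrel_104 : D.relsK RW 67912 68565 = true := by decide +kernel
theorem hrel_128 : D.relsK RW 83584 84237 = true := by decide +kernel
theorem hrel_152 : D.relsK RW 99256 99909 = true := by decide +kernel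
theorem hrel_176 : D.relsK RW 114928 115581 = true := by decide +kernel
theorem hrel_200 : D.relsK RW 130600 131253 = true := by decide +kernel
theorem hrel_224 : D.relsK RW 146272 146925 = true := by decide +kernel
theorem hrel_248 : D.relsK RW 161944 162597 = true := by decide +kernel
theorem hrel_272 : D.relsK RW 177616 178269 = true := by decide +kernel
theorem hrel_296 : D.relsK RW 193288 193941 = true := by decide +kernel
theorem hrel_320 : D.relsK RW 208960 209613 = true := by decide +kernel
theorem hrel_344 : D.relsK RW 224632 225285 = true := by decide +kernel
theorem hrel_368 : D.relsK RW 240304 240957 = true := by decide +kernel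
theorem hrel_392 : D.relsK RW 255976 256629 = true := by decide +kernel
theorem hrel_416 : D.relsK RW 271648 272301 = true := by decide +kernel
theorem hrel_440 : D.relsK RW 287320 287973 = true := by decide +kernel
theorem hrel_464 : D.relsK RW 302992 303645 = true := by decide +kernel
theorem hperm_b_1 : allRange 60000 120000 (D.permK Gen.b) = true := by decide +kernel
theorem hperm_g_0 : allRange 0 60000 (D.permK Gen.g) = true := by decide +kernel
theorem hfin_l_4 : allRange 240000 300000 (D.finK Gen.l) = true := by decide +kernel
theorem hfin_d_3 : allRange 180000 240000 (D.finK Gen.d) = true := by decide +kernel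
theorem hfin_h_2 : allRange 120000 180000 (D.finK Gen.h) = true := by decide +kernel
theorem hfact_192 : allRange 3840000 3860000 (D.factK WT) = true := by decide +kernel
theorem hfact_64 : allRange 1280000 1300000 (D.factK WT) = true := by decide +kernel
theorem hfact_168 : allRange 3360000 3380000 (D.factK WT) = true := by decide +kernel
theorem hfact_113 : allRange 2260000 2280000 (D.factK WT) = true := by decide +kernel
theorem hfact_104 : allRange 2080000 2100000 (D.factK WT) = true := by decide +kernel
theorem hfact_71 : allRange 1420000 1440000 (D.factK WT) = true := by decide +kernel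
theorem hfact_40 : allRange 800000 820000 (D.factK WT) = true := by decide +kernel
theorem hfact_45 : allRange 900000 920000 (D.factK WT) = true := by decide +kernel
theorem hfact_50 : allRange 1000000 1020000 (D.factK WT) = true := by decide +kernel

end Cfsg.Agent.Lib.helper9.CE1690
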