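import Cfsg.Agent.Lib.helper9.CE1690D

set_option autoImplicit false

namespace Cfsg.Agent.Lib.helper9.CE1690
open Cfsg.Agent.Lib.helper9.CE
open Cfsg.Spor.Fi24 (Gen)

theorem hrel_20 : D.relsK RW 13060 13713 = true := by decide +kernel
theorem hrel_44 : D.relsK RW 28732 29385 = true := by decide +kernel
theorem hrel_68 : D.relsK RW 44404 45057 = true := by decide +kernel
theorem hrel_92 : D.relsK RW 60076 60729 = true := by decide +kernel
theorem hrel_116 : D.relsK RW 75748 76401 = true := by decide +kernel
theorem hrel_140 : D.relsK RW 91420 92073 = true := by decide +kernel
theorem hrel_164 : D.relsK RW 107092 107745 = true := by decide +kernel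
theorem hrel_188 : D.relsK RW 122764 123417 = true := by decide +kernel
theorem hrel_212 : D.relsK RW 138436 139089 = true := by decide +kernel
theorem hrel_236 : D.relsK RW 154108 154761 = true := by decide +kernel
theorem hrel_260 : D.relsK RW 169780 170433 = true := by decide +kernel
theorem hrel_284 : D.relsK RW 185452 186105 = true := by decide +kernel
theorem hrel_308 : D.relsK RW 201124 201777 = true := by decide +kernel
theorem hrel_332 : D.relsK RW 216796 217449 = true := by decide +kernel
theorem hrel_356 : D.relsK RW 232468 233121 = true := by decide +kernel
theorem hrel_380 : D.relsK RW 248140 248793 = true := by decide +kernel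
theorem hrel_404 : D.relsK RW 263812 264465 = true := by decide +kernel
theorem hrel_428 : D.relsK RW 279484 280137 = true := by decide +kernel
theorem hrel_452 : D.relsK RW 295156 295809 = true := by decide +kernel
theorem hperm_k_1 : allRange 60000 120000 (D.permK Gen.k) = true := by decide +kernel
theorem hperm_d_3 : allRange 180000 240000 (D.permK Gen.d) = true := by decide +kernel
theorem hperm_h_2 : allRange 120000 180000 (D.permK Gen.h) = true := by decide +kernel
theorem hfin_b_1 : allRange 60000 120000 (D.finK Gen.b) = true := by decide +kernel
theorem hfin_g_0 : allRange 0 60000 (D.finK Gen.g) = true := by decide +kernel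
theorem hfact_0 : allRange 0 20000 (D.factK WT) = true := by decide +kernel
theorem hfact_187 : allRange 3740000 3760000 (D.factK WT) = true := by decide +kernel
theorem hfact_98 : allRange 1960000 1980000 (D.factK WT) = true := by decide +kernel
theorem hfact_127 : allRange 2540000 2560000 (D.factK WT) = true := by decide +kernel
theorem hfact_88 : allRange 1760000 1780000 (D.factK WT) = true := by decide +kernel
theorem hfact_81 : allRange 1620000 1640000 (D.factK WT) = true := by decide +kernel
theorem hfact_16 : allRange 320000 340000 (D.factK WT) = true := by decide +kernel
theorem hfact_122 : allRange 2440000 2460000 (D.factK WT) = true := by decide +kernel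
theorem hfact_36 : allRange 720000 740000 (D.factK WT) = true := by decide +kernel
theorem hfact_52 : allRange 1040000 1060000 (D.factK WT) = true := by decide +kernel

end Cfsg.Agent.Lib.helper9.CE1690
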