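import Cfsg.Agent.Lib.helper9.CE1690D

set_option autoImplicit false

namespace Cfsg.Agent.Lib.helper9.CE1690
open Cfsg.Agent.Lib.helper9.CE
open Cfsg.Spor.Fi24 (Gen)

theorem hrel_9 : D.relsK RW 5877 6530 = true := by decide +kernel
theorem hrel_33 : D.relsK RW 21549 22202 = true := by decide +kernel
theorem hrel_57 : D.relsK RW 37221 37874 = true := by decide +kernel
theorem hrel_81 : D.relsK RW 52893 53546 = true := by decide +kernel
theorem hrel_105 : D.relsK RW 68565 69218 = true := by decide +kernel
theorem hrel_129 : D.relsK RW 84237 84890 = true := by decide +kernel
theorem hrel_153 : D.relsK RW 99909 100562 = true := by decide +kernel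
theorem hrel_177 : D.relsK RW 115581 116234 = true := by decide +kernel
theorem hrel_201 : D.relsK RW 131253 131906 = true := by decide +kernel
theorem hrel_225 : D.relsK RW 146925 147578 = true := by decide +kernel
theorem hrel_249 : D.relsK RW 162597 163250 = true := by decide +kernel
theorem hrel_273 : D.relsK RW 178269 178922 = true := by decide +kernel
theorem hrel_297 : D.relsK RW 193941 194594 = true := by decide +kernel
theorem hrel_321 : D.relsK RW 209613 210266 = true := by decide +kernel
theorem hrel_345 : D.relsK RW 225285 225938 = true := by decide +kernel
theorem hrel_369 : D.relsK RW 240957 241610 = true := by decide +kernel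
theorem hrel_393 : D.relsK RW 256629 257282 = true := by decide +kernel
theorem hrel_417 : D.relsK RW 272301 272954 = true := by decide +kernel
theorem hrel_441 : D.relsK RW 287973 288626 = true := by decide +kernel
theorem hrel_465 : D.relsK RW 303645 304298 = true := by decide +kernel
theorem hperm_b_2 : allRange 120000 180000 (D.permK Gen.b) = true := by decide +kernel
theorem hperm_g_1 : allRange 60000 120000 (D.permK Gen.g) = true := by decide +kernel
theorem hfin_k_0 : allRange 0 60000 (D.finK Gen.k) = true := by decide +kernel
theorem hfin_d_4 : allRange 240000 300000 (D.finK Gen.d) = true := by decide +kernel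
theorem hfin_h_3 : allRange 180000 240000 (D.finK Gen.h) = true := by decide +kernel
theorem hfact_1 : allRange 20000 40000 (D.factK WT) = true := by decide +kernel
theorem hfact_182 : allRange 3640000 3660000 (D.factK WT) = true := by decide +kernel
theorem hfact_162 : allRange 3240000 3260000 (D.factK WT) = true := by decide +kernel
theorem hfact_126 : allRange 2520000 2540000 (D.factK WT) = true := by decide +kernel
theorem hfact_70 : allRange 1400000 1420000 (D.factK WT) = true := by decide +kernel
theorem hfact_26 : allRange 520000 540000 (D.factK WT) = true := by decide +kernel
theorem hfact_78 : allRange 1560000 1580000 (D.factK WT) = true := by decide +kernel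
theorem hfact_22 : allRange 440000 460000 (D.factK WT) = true := by decide +kernel
theorem hrnK_4 : allRange 240000 300000 D.rnK = true := by decide +kernel
theorem hfin_b_5 : allRange 300000 306936 (D.finK Gen.b) = true := by decide +kernel

end Cfsg.Agent.Lib.helper9.CE1690
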