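import Cfsg.Agent.Lib.helper9.CE1690D

set_option autoImplicit false

namespace Cfsg.Agent.Lib.helper9.CE1690
open Cfsg.Agent.Lib.helper9.CE
open Cfsg.Spor.Fi24 (Gen)

theorem hrel_21 : D.relsK RW 13713 14366 = true := by decide +kernel
theorem hrel_45 : D.relsK RW 29385 30038 = true := by decide +kernel
theorem hrel_69 : D.relsK RW 45057 45710 = true := by decide +kernel
theorem hrel_93 : D.relsK RW 60729 61382 = true := by decide +kernel
theorem hrel_117 : D.relsK RW 76401 77054 = true := by decide +kernel
theorem hrel_141 : D.relsK RW 92073 92726 = true := by decide +kernel
theorem hrel_165 : D.relsK RW 107745 108398 = true := by decide +kernel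
theorem hrel_189 : D.relsK RW 123417 124070 = true := by decide +kernel
theorem hrel_213 : D.relsK RW 139089 139742 = true := by decide +kernel
theorem hrel_237 : D.relsK RW 154761 155414 = true := by decide +kernel
theorem hrel_261 : D.relsK RW 170433 171086 = true := by decide +kernel
theorem hrel_285 : D.relsK RW 186105 186758 = true := by decide +kernel
theorem hrel_309 : D.relsK RW 201777 202430 = true := by decide +kernel
theorem hrel_333 : D.relsK RW 217449 218102 = true := by decide +kernel
theorem hrel_357 : D.relsK RW 233121 233774 = true := by decide +kernel
theorem hrel_381 : D.relsK RW 248793 249446 = true := by decide +kernel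
theorem hrel_405 : D.relsK RW 264465 265118 = true := by decide +kernel
theorem hrel_429 : D.relsK RW 280137 280790 = true := by decide +kernel
theorem hrel_453 : D.relsK RW 295809 296462 = true := by decide +kernel
theorem hperm_k_2 : allRange 120000 180000 (D.permK Gen.k) = true := by decide +kernel
theorem hperm_d_4 : allRange 240000 300000 (D.permK Gen.d) = true := by decide +kernel
theorem hperm_h_3 : allRange 180000 240000 (D.permK Gen.h) = true := by decide +kernel
theorem hfin_b_2 : allRange 120000 180000 (D.finK Gen.b) = true := by decide +kernel
theorem hfin_g_1 : allRange 60000 120000 (D.finK Gen.g) = true := by decide +kernel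
theorem hfact_191 : allRange 3820000 3840000 (D.factK WT) = true := by decide +kernel
theorem hfact_173 : allRange 3460000 3480000 (D.factK WT) = true := by decide +kernel
theorem hfact_159 : allRange 3180000 3200000 (D.factK WT) = true := by decide +kernel
theorem hfact_149 : allRange 2980000 3000000 (D.factK WT) = true := by decide +kernel
theorem hfact_134 : allRange 2680000 2700000 (D.factK WT) = true := by decide +kernel
theorem hfact_137 : allRange 2740000 2760000 (D.factK WT) = true := by decide +kernel
theorem hfact_29 : allRange 580000 600000 (D.factK WT) = true := by decide +kernel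
theorem hfact_17 : allRange 340000 360000 (D.factK WT) = true := by decide +kernel
theorem hfact_47 : allRange 940000 960000 (D.factK WT) = true := by decide +kernel
theorem hperm_f_5 : allRange 300000 306936 (D.permK Gen.f) = true := by decide +kernel
theorem hrnK_5 : allRange 300000 306936 D.rnK = true := by decide +kernel

end Cfsg.Agent.Lib.helper9.CE1690
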