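import Cfsg.Agent.Lib.helper9.CE1692D

set_option autoImplicit false

namespace Cfsg.Agent.Lib.helper9.CE1692
open Cfsg.Agent.Lib.helper9.CE
open Cfsg.Spor.ON (Gen)

theorem hperm_g : allRange 0 122760 (D.permK Gen.g) = true := by decide +kernel
theorem hfin_a : allRange 0 122760 (D.finK Gen.a) = true := by decide +kernel
theorem hrel_4 : D.relsK RW 9520 11900 = true := by decide +kernel
theorem hrel_12 : D.relsK RW 28560 30940 = true := by decide +kernel
theorem hrel_20 : D.relsK RW 47600 49980 = true := by decide +kernel
theorem hrel_28 : D.relsK RW 66640 69020 = true := by decide +kernel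
theorem hrel_36 : D.relsK RW 85680 88060 = true := by decide +kernel
theorem hrel_44 : D.relsK RW 104720 107100 = true := by decide +kernel
theorem hrel_51 : D.relsK RW 121380 122760 = true := by decide +kernel
theorem hfact_51 : allRange 1020000 1040000 (D.factK WT) = true := by decide +kernel
theorem hfact_49 : allRange 980000 1000000 (D.factK WT) = true := by decide +kernel
theorem hfact_11 : allRange 220000 240000 (D.factK WT) = true := by decide +kernel
theorem hfact_37 : allRange 740000 760000 (D.factK WT) = true := by decide +kernel
theorem hfact_17 : allRange 340000 360000 (D.factK WT) = true := by decide +kernel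
theorem hfact_5 : allRange 100000 120000 (D.factK WT) = true := by decide +kernel
theorem hfact_15 : allRange 300000 320000 (D.factK WT) = true := by decide +kernel
theorem hfact_38 : allRange 760000 780000 (D.factK WT) = true := by decide +kernel
theorem hfact_45 : allRange 900000 920000 (D.factK WT) = true := by decide +kernel

end Cfsg.Agent.Lib.helper9.CE1692
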