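import Cfsg.Agent.Lib.helper9.CE1692D

set_option autoImplicit false

namespace Cfsg.Agent.Lib.helper9.CE1692
open Cfsg.Agent.Lib.helper9.CE
open Cfsg.Spor.ON (Gen)

theorem hperm_a : allRange 0 122760 (D.permK Gen.a) = true := by decide +kernel
theorem hfin_b : allRange 0 122760 (D.finK Gen.b) = true := by decide +kernel
theorem hrel_5 : D.relsK RW 11900 14280 = true := by decide +kernel
theorem hrel_13 : D.relsK RW 30940 33320 = true := by decide +kernel
theorem hrel_21 : D.relsK RW 49980 52360 = true := by decide +kernel
theorem hrel_29 : D.relsK RW 69020 71400 = true := by decide +kernel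
theorem hrel_37 : D.relsK RW 88060 90440 = true := by decide +kernel
theorem hrel_45 : D.relsK RW 107100 109480 = true := by decide +kernel
theorem hfact_70 : allRange 1400000 1420000 (D.factK WT) = true := by decide +kernel
theorem hfact_60 : allRange 1200000 1220000 (D.factK WT) = true := by decide +kernel
theorem hfact_55 : allRange 1100000 1120000 (D.factK WT) = true := by decide +kernel
theorem hfact_35 : allRange 700000 720000 (D.factK WT) = true := by decide +kernel
theorem hfact_34 : allRange 680000 700000 (D.factK WT) = true := by decide +kernel
theorem hfact_26 : allRange 520000 540000 (D.factK WT) = true := by decide +kernel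
theorem hfact_29 : allRange 580000 600000 (D.factK WT) = true := by decide +kernel
theorem hfact_16 : allRange 320000 340000 (D.factK WT) = true := by decide +kernel
theorem htree_3 : allRange 120001 160001 D.treeK = true := by decide +kernel
theorem hfact_39 : allRange 780000 800000 (D.factK WT) = true := by decide +kernel
theorem hfact_46 : allRange 920000 940000 (D.factK WT) = true := by decide +kernel

end Cfsg.Agent.Lib.helper9.CE1692
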