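import Cfsg.Agent.Lib.helper9.CE1692D

set_option autoImplicit false

namespace Cfsg.Agent.Lib.helper9.CE1692
open Cfsg.Agent.Lib.helper9.CE
open Cfsg.Spor.ON (Gen)

theorem hperm_b : allRange 0 122760 (D.permK Gen.b) = true := by decide +kernel
theorem hfin_c : allRange 0 122760 (D.finK Gen.c) = true := by decide +kernel
theorem hrel_6 : D.relsK RW 14280 16660 = true := by decide +kernel
theorem hrel_14 : D.relsK RW 33320 35700 = true := by decide +kernel
theorem hrel_22 : D.relsK RW 52360 54740 = true := by decide +kernel
theorem hrel_30 : D.relsK RW 71400 73780 = true := by decide +kernel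
theorem hrel_38 : D.relsK RW 90440 92820 = true := by decide +kernel
theorem hrel_46 : D.relsK RW 109480 111860 = true := by decide +kernel
theorem hfact_69 : allRange 1380000 1400000 (D.factK WT) = true := by decide +kernel
theorem hfact_61 : allRange 1220000 1240000 (D.factK WT) = true := by decide +kernel
theorem hfact_71 : allRange 1420000 1437336 (D.factK WT) = true := by decide +kernel
theorem hfact_53 : allRange 1060000 1080000 (D.factK WT) = true := by decide +kernel
theorem hfact_30 : allRange 600000 620000 (D.factK WT) = true := by decide +kernel
theorem hfact_19 : allRange 380000 400000 (D.factK WT) = true := by decide +kernel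
theorem hfact_13 : allRange 260000 280000 (D.factK WT) = true := by decide +kernel
theorem hfact_22 : allRange 440000 460000 (D.factK WT) = true := by decide +kernel
theorem hfact_18 : allRange 360000 380000 (D.factK WT) = true := by decide +kernel
theorem hfact_44 : allRange 880000 900000 (D.factK WT) = true := by decide +kernel

end Cfsg.Agent.Lib.helper9.CE1692
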