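import Cfsg.Agent.Lib.helper9.CE1692D

set_option autoImplicit false

namespace Cfsg.Agent.Lib.helper9.CE1692
open Cfsg.Agent.Lib.helper9.CE
open Cfsg.Spor.ON (Gen)

theorem hperm_c : allRange 0 122760 (D.permK Gen.c) = true := by decide +kernel
theorem hfin_d : allRange 0 122760 (D.finK Gen.d) = true := by decide +kernel
theorem hrel_7 : D.relsK RW 16660 19040 = true := by decide +kernel
theorem hrel_15 : D.relsK RW 35700 38080 = true := by decide +kernel
theorem hrel_23 : D.relsK RW 54740 57120 = true := by decide +kernel
theorem hrel_31 : D.relsK RW 73780 76160 = true := by decide +kernel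
theorem hrel_39 : D.relsK RW 92820 95200 = true := by decide +kernel
theorem hrel_47 : D.relsK RW 111860 114240 = true := by decide +kernel
theorem hfact_68 : allRange 1360000 1380000 (D.factK WT) = true := by decide +kernel
theorem hfact_62 : allRange 1240000 1260000 (D.factK WT) = true := by decide +kernel
theorem hfact_56 : allRange 1120000 1140000 (D.factK WT) = true := by decide +kernel
theorem hfact_33 : allRange 660000 680000 (D.factK WT) = true := by decide +kernel
theorem hfact_6 : allRange 120000 140000 (D.factK WT) = true := by decide +kernel
theorem hfact_20 : allRange 400000 420000 (D.factK WT) = true := by decide +kernel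
theorem hfact_10 : allRange 200000 220000 (D.factK WT) = true := by decide +kernel
theorem hfact_0 : allRange 0 20000 (D.factK WT) = true := by decide +kernel
theorem htree_2 : allRange 80001 120001 D.treeK = true := by decide +kernel
theorem hfact_42 : allRange 840000 860000 (D.factK WT) = true := by decide +kernel
theorem hsubK : D.subK SW = true := by decide +kernel
theorem hpi0 : D.pi 0 = 0 := by decide +kernel
theorem hrn0 : D.rn 0 = 0 := by decide +kernel

end Cfsg.Agent.Lib.helper9.CE1692
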