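import Cfsg.Agent.Lib.helper9.CE1692D

set_option autoImplicit false

namespace Cfsg.Agent.Lib.helper9.CE1692
open Cfsg.Agent.Lib.helper9.CE
open Cfsg.Spor.ON (Gen)

theorem hperm_d : allRange 0 122760 (D.permK Gen.d) = true := by decide +kernel
theorem hfin_e : allRange 0 122760 (D.finK Gen.e) = true := by decide +kernel
theorem hrel_8 : D.relsK RW 19040 21420 = true := by decide +kernel
theorem hrel_16 : D.relsK RW 38080 40460 = true := by decide +kernel
theorem hrel_24 : D.relsK RW 57120 59500 = true := by decide +kernel
theorem hrel_32 : D.relsK RW 76160 78540 = true := by decide +kernel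
theorem hrel_40 : D.relsK RW 95200 97580 = true := by decide +kernel
theorem hrel_48 : D.relsK RW 114240 116620 = true := by decide +kernel
theorem hfact_67 : allRange 1340000 1360000 (D.factK WT) = true := by decide +kernel
theorem hfact_63 : allRange 1260000 1280000 (D.factK WT) = true := by decide +kernel
theorem hfact_50 : allRange 1000000 1020000 (D.factK WT) = true := by decide +kernel
theorem hfact_21 : allRange 420000 440000 (D.factK WT) = true := by decide +kernel
theorem hfact_24 : allRange 480000 500000 (D.factK WT) = true := by decide +kernel
theorem hfact_14 : allRange 280000 300000 (D.factK WT) = true := by decide +kernel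
theorem hfact_23 : allRange 460000 480000 (D.factK WT) = true := by decide +kernel
theorem hfact_31 : allRange 620000 640000 (D.factK WT) = true := by decide +kernel
theorem htree_1 : allRange 40001 80001 D.treeK = true := by decide +kernel
theorem hfact_43 : allRange 860000 880000 (D.factK WT) = true := by decide +kernel
theorem htree_5 : allRange 200001 226019 D.treeK = true := by decide +kernel

end Cfsg.Agent.Lib.helper9.CE1692
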