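import Cfsg.Agent.Lib.helper9.CE1692D

set_option autoImplicit false

namespace Cfsg.Agent.Lib.helper9.CE1692
open Cfsg.Agent.Lib.helper9.CE
open Cfsg.Spor.ON (Gen)

theorem hperm_e : allRange 0 122760 (D.permK Gen.e) = true := by decide +kernel
theorem hfin_f : allRange 0 122760 (D.finK Gen.f) = true := by decide +kernel
theorem hrel_9 : D.relsK RW 21420 23800 = true := by decide +kernel
theorem hrel_17 : D.relsK RW 40460 42840 = true := by decide +kernel
theorem hrel_25 : D.relsK RW 59500 61880 = true := by decide +kernel
theorem hrel_33 : D.relsK RW 78540 80920 = true := by decide +kernel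
theorem hrel_41 : D.relsK RW 97580 99960 = true := by decide +kernel
theorem hrel_49 : D.relsK RW 116620 119000 = true := by decide +kernel
theorem hfact_65 : allRange 1300000 1320000 (D.factK WT) = true := by decide +kernel
theorem hfact_64 : allRange 1280000 1300000 (D.factK WT) = true := by decide +kernel
theorem hfact_57 : allRange 1140000 1160000 (D.factK WT) = true := by decide +kernel
theorem hfact_48 : allRange 960000 980000 (D.factK WT) = true := by decide +kernel
theorem hfact_27 : allRange 540000 560000 (D.factK WT) = true := by decide +kernel
theorem hfact_8 : allRange 160000 180000 (D.factK WT) = true := by decide +kernel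
theorem hfact_32 : allRange 640000 660000 (D.factK WT) = true := by decide +kernel
theorem hfact_4 : allRange 80000 100000 (D.factK WT) = true := by decide +kernel
theorem htree_4 : allRange 160001 200001 D.treeK = true := by decide +kernel
theorem hfact_41 : allRange 820000 840000 (D.factK WT) = true := by decide +kernel

end Cfsg.Agent.Lib.helper9.CE1692
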