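import Cfsg.Agent.Lib.helper9.CE1692D

set_option autoImplicit false

namespace Cfsg.Agent.Lib.helper9.CE1692
open Cfsg.Agent.Lib.helper9.CE
open Cfsg.Spor.ON (Gen)

theorem hperm_f : allRange 0 122760 (D.permK Gen.f) = true := by decide +kernel
theorem hrel_0 : D.relsK RW 0 2380 = true := by decide +kernel
theorem hrel_2 : D.relsK RW 4760 7140 = true := by decide +kernel
theorem hrel_10 : D.relsK RW 23800 26180 = true := by decide +kernel
theorem hrel_18 : D.relsK RW 42840 45220 = true := by decide +kernel
theorem hrel_26 : D.relsK RW 61880 64260 = true := by decide +kernel
theorem hrel_34 : D.relsK RW 80920 83300 = true := by decide +kernel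
theorem hrel_42 : D.relsK RW 99960 102340 = true := by decide +kernel
theorem hrel_50 : D.relsK RW 119000 121380 = true := by decide +kernel
theorem hfact_59 : allRange 1180000 1200000 (D.factK WT) = true := by decide +kernel
theorem hfact_54 : allRange 1080000 1100000 (D.factK WT) = true := by decide +kernel
theorem hfact_12 : allRange 240000 260000 (D.factK WT) = true := by decide +kernel
theorem hfact_28 : allRange 560000 580000 (D.factK WT) = true := by decide +kernel
theorem hfact_7 : allRange 140000 160000 (D.factK WT) = true := by decide +kernel
theorem hfact_2 : allRange 40000 60000 (D.factK WT) = true := by decide +kernel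
theorem hfact_9 : allRange 180000 200000 (D.factK WT) = true := by decide +kernel
theorem hfact_47 : allRange 940000 960000 (D.factK WT) = true := by decide +kernel

end Cfsg.Agent.Lib.helper9.CE1692
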