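import Cfsg.Agent.Lib.helper9.CE1692D

set_option autoImplicit false

namespace Cfsg.Agent.Lib.helper9.CE1692
open Cfsg.Agent.Lib.helper9.CE
open Cfsg.Spor.ON (Gen)

theorem hfin_g : allRange 0 122760 (D.finK Gen.g) = true := by decide +kernel
theorem hrel_1 : D.relsK RW 2380 4760 = true := by decide +kernel
theorem hrel_3 : D.relsK RW 7140 9520 = true := by decide +kernel
theorem hrel_11 : D.relsK RW 26180 28560 = true := by decide +kernel
theorem hrel_19 : D.relsK RW 45220 47600 = true := by decide +kernel
theorem hrel_27 : D.relsK RW 64260 66640 = true := by decide +kernel
theorem hrel_35 : D.relsK RW 83300 85680 = true := by decide +kernel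
theorem hrel_43 : D.relsK RW 102340 104720 = true := by decide +kernel
theorem hrnK : allRange 0 122760 D.rnK = true := by decide +kernel
theorem hfact_66 : allRange 1320000 1340000 (D.factK WT) = true := by decide +kernel
theorem hfact_58 : allRange 1160000 1180000 (D.factK WT) = true := by decide +kernel
theorem hfact_52 : allRange 1040000 1060000 (D.factK WT) = true := by decide +kernel
theorem hfact_36 : allRange 720000 740000 (D.factK WT) = true := by decide +kernel
theorem hfact_25 : allRange 500000 520000 (D.factK WT) = true := by decide +kernel
theorem hfact_3 : allRange 60000 80000 (D.factK WT) = true := by decide +kernel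
theorem hfact_1 : allRange 20000 40000 (D.factK WT) = true := by decide +kernel
theorem htree_0 : allRange 1 40001 D.treeK = true := by decide +kernel
theorem hfact_40 : allRange 800000 820000 (D.factK WT) = true := by decide +kernel

end Cfsg.Agent.Lib.helper9.CE1692
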