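import Cfsg.Agent.Lib.helper9.CE1694s2D

set_option autoImplicit false

namespace Cfsg.Agent.Lib.helper9.CE1694s2
open Cfsg.Agent.Lib.helper9 Cfsg.Agent.Lib.helper9.CE
open Cfsg.Spor.Suz (Gen)

theorem hfact_3 : allRange 60000 80000 (D.factK WT) = true := by decide +kernel
theorem hfact_0 : allRange 0 20000 (D.factK WT) = true := by decide +kernel
theorem hrel_0 : D.relsK RL 0 2424 = true := by decide +kernel
theorem hrel_1 : D.relsK RL 2424 4848 = true := by decide +kernel
theorem hrel_2 : D.relsK RL 4848 6300 = true := by decide +kernel
theorem hperm_a : allRange 0 6300 (D.permK Gen.a) = true := by decide +kernel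
theorem hperm_b : allRange 0 6300 (D.permK Gen.b) = true := by decide +kernel
theorem hperm_c : allRange 0 6300 (D.permK Gen.c) = true := by decide +kernel
theorem hperm_e : allRange 0 6300 (D.permK Gen.e) = true := by decide +kernel
theorem hperm_g : allRange 0 6300 (D.permK Gen.g) = true := by decide +kernel
theorem hfin_b : allRange 0 6300 (D.finK Gen.b) = true := by decide +kernel
theorem hfin_d : allRange 0 6300 (D.finK Gen.d) = true := by decide +kernel
theorem hfin_f : allRange 0 6300 (D.finK Gen.f) = true := by decide +kernel
theorem hrnK : allRange 0 6300 D.rnK = true := by decide +kernel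
theorem htree_1 : allRange 40001 40748 D.treeK = true := by decide +kernel

end Cfsg.Agent.Lib.helper9.CE1694s2
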