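import Cfsg.Agent.Lib.helper9.CE1694s3D

set_option autoImplicit false

namespace Cfsg.Agent.Lib.helper9.CE1694s3
open Cfsg.Agent.Lib.helper9 Cfsg.Agent.Lib.helper9.CE
open Cfsg.Spor.Suz (Gen)

theorem hfact_0 : allRange 0 1536 (D.factK WT) = true := by decide +kernel

end Cfsg.Agent.Lib.helper9.CE1694s3
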