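import Cfsg.Agent.Lib.helper9.CE1695pD

set_option autoImplicit false

namespace Cfsg.Agent.Lib.helper9.CE1695p
open Cfsg.Agent.Lib.helper9 Cfsg.Agent.Lib.helper9.CE
open Cfsg.Spor.He (Gen)

theorem hinvO_0 : O.invsK CE1683.D CE1683.SW 0 2058 = true := by decide +kernel
theorem horb2_0 : allRange 0 2058 (OL2.orb2K CE1683.D LW2) = true := by decide +kernel
theorem hpc_1 : allRange 0 2058 (O.pcK 1) = true := by decide +kernel
theorem hpc_3 : allRange 0 2058 (O.pcK 3) = true := by decide +kernel
theorem hpc0 : allRange 0 2058 (OL0.pcK 1) = true := by decide +kernel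
theorem hpc2 : allRange 0 2058 (OL2.pcK 1) = true := by decide +kernel
theorem horb3_0 : allRange 0 2058 (OL3.orb2K CE1683.D LW3) = true := by decide +kernel
theorem hlabk : allRange 0 2058 (O.labK 5) = true := by decide +kernel
theorem hfix2 : fixK CE1683.D LW2 [1, 0] = true := by decide +kernel

end Cfsg.Agent.Lib.helper9.CE1695p
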