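import Cfsg.Agent.Lib.helper9.CE1695pD

set_option autoImplicit false

namespace Cfsg.Agent.Lib.helper9.CE1695p
open Cfsg.Agent.Lib.helper9 Cfsg.Agent.Lib.helper9.CE
open Cfsg.Spor.He (Gen)

theorem hrelY_0 : CE1683.D.relsK [Yp] 0 2058 = true := by decide +kernel
theorem horb1_0 : allRange 0 2058 (OL1.orb2K CE1683.D LW1) = true := by decide +kernel
theorem horb0_0 : allRange 0 2058 (OL0.orb2K CE1683.D LW0) = true := by decide +kernel
theorem horbO_0 : allRange 0 2058 (O.orbK CE1683.D CE1683.SW) = true := by decide +kernel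
theorem hpc_0 : allRange 0 2058 (O.pcK 0) = true := by decide +kernel
theorem hpc_2 : allRange 0 2058 (O.pcK 2) = true := by decide +kernel
theorem hpc_4 : allRange 0 2058 (O.pcK 4) = true := by decide +kernel
theorem hpc1 : allRange 0 2058 (OL1.pcK 1) = true := by decide +kernel
theorem hpc3 : allRange 0 2058 (OL3.pcK 1) = true := by decide +kernel
theorem hfix1 : fixK CE1683.D LW1 [0] = true := by decide +kernel
theorem hfix3 : fixK CE1683.D LW3 [80, 1, 0] = true := by decide +kernel
theorem hnum : ∀ s ∈ (List.range 5).sublists, 0 ∈ s → (s.map (fun c => ([1, 1360, 425, 136, 136] : List Nat).getD c 0)).sum ∣ CE1683.D.n → s = [0] ∨ s = List.range 5 := by decide +kernel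
theorem hYp : Yp = (List.replicate 7 Yw).flatten := by decide +kernel
theorem hpcz_0 : O.pc 0 0 = 0 := by decide +kernel
theorem hpcn_0 : O.pc 0 2058 = 1 := by decide +kernel
theorem hpcz_1 : O.pc 1 0 = 0 := by decide +kernel
theorem hpcn_1 : O.pc 1 2058 = 1360 := by decide +kernel
theorem hpcz_2 : O.pc 2 0 = 0 := by decide +kernel
theorem hpcn_2 : O.pc 2 2058 = 425 := by decide +kernel
theorem hpcz_3 : O.pc 3 0 = 0 := by decide +kernel
theorem hpcn_3 : O.pc 3 2058 = 136 := by decide +kernel
theorem hpcz_4 : O.pc 4 0 = 0 := by decide +kernel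
theorem hpcn_4 : O.pc 4 2058 = 136 := by decide +kernel
theorem hlab0 : O.lab 0 = 0 := by decide +kernel
theorem hrootO : O.root 0 = 0 := by decide +kernel
theorem hfix0 : fixK CE1683.D LW0 [] = true := by decide +kernel
theorem hpcz0 : OL0.pc 1 0 = 0 := by decide +kernel
theorem hpcn0 : OL0.pc 1 2058 = 2058 := by decide +kernel
theorem hroot0 : OL0.root 1 = 0 := by decide +kernel
theorem hpcz1 : OL1.pc 1 0 = 0 := by decide +kernel
theorem hpcn1 : OL1.pc 1 2058 = 1360 := by decide +kernel
theorem hroot1 : OL1.root 1 = 1 := by decide +kernel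
theorem hpcz2 : OL2.pc 1 0 = 0 := by decide +kernel
theorem hpcn2 : OL2.pc 1 2058 = 360 := by decide +kernel
theorem hroot2 : OL2.root 1 = 80 := by decide +kernel
theorem hpcz3 : OL3.pc 1 0 = 0 := by decide +kernel
theorem hpcn3 : OL3.pc 1 2058 = 4 := by decide +kernel
theorem hroot3 : OL3.root 1 = 7 := by decide +kernel

end Cfsg.Agent.Lib.helper9.CE1695p
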