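import Cfsg.Agent.Lib.helper9.CosetSimple
import Cfsg.Prelude.Def_Spor_He
import Cfsg.Agent.Lib.helper9.CE1695s2T0

set_option autoImplicit false

namespace Cfsg.Agent.Lib.helper9.CE1695s2
open Cfsg.Agent.Lib.helper9.CE
open Cfsg.Spor
open Cfsg.Spor.He (Gen)

noncomputable def fwd1 (x : Gen) (i : Nat) : Nat := Gen.rec (motive := fun _ => Nat) (fwd_a i) (fwd_b i) (fwd_c i) (fwd_d i) (fwd_e i) (fwd_f i) (fwd_g i) x
noncomputable def bwd1 (x : Gen) (i : Nat) : Nat := Gen.rec (motive := fun _ => Nat) (fwd_a i) (fwd_b i) (fwd_c i) (fwd_d i) (fwd_e i) (fwd_f i) (fwd_g i) x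
noncomputable def fin1 (x : Gen) (i : Nat) : Nat := Gen.rec (motive := fun _ => Nat) (fin_a i) (fin_b i) (fin_c i) (fin_d i) (fin_e i) (fin_f i) (fin_g i) x
noncomputable def code (x : Gen) : Nat := Gen.rec (motive := fun _ => Nat) (nat_lit 0) (nat_lit 1) (nat_lit 2) (nat_lit 3) (nat_lit 4) (nat_lit 5) (nat_lit 6) x
noncomputable def dec (k : Nat) : Gen := getD' [Gen.a, Gen.b, Gen.c, Gen.d, Gen.e, Gen.f, Gen.g] Gen.a k
noncomputable def D : Data Gen where
  n := 48
  fwd1 := fwd1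
  bwd1 := bwd1
  code := code
  dec := dec
  mtag := nat_lit 7
  w := nat_lit 8
  mw := nat_lit 255
  v := nat_lit 10
  mv := nat_lit 1023
  NN := 192
  NF := 768
  np1 := np1
  key1 := key1
  cert1 := cert1
  st1 := st1
  fin1 := fin1
  rn1 := rn1

def TW : List Gen := []
def TL : List Gen := []
def RL : List (Word Gen) := [
  [(Gen.a, true), (Gen.a, true)],
  [(Gen.b, true), (Gen.b, true)],
  [(Gen.c, true), (Gen.c, true)],
  [(Gen.d, true), (Gen.d, true)],
  [(Gen.e, true), (Gen.e, true)],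
  [(Gen.f, true), (Gen.f, true)],
  [(Gen.g, true), (Gen.g, true)],
  [(Gen.a, true), (Gen.b, true), (Gen.a, true), (Gen.b, true), (Gen.a, true), (Gen.b, true), (Gen.a, true), (Gen.b, true)],
  [(Gen.a, true), (Gen.d, true), (Gen.a, true), (Gen.d, true)],
  [(Gen.a, true), (Gen.e, true), (Gen.a, true), (Gen.e, true)],
  [(Gen.b, true), (Gen.d, true), (Gen.b, true), (Gen.d, true)],
  [(Gen.b, true), (Gen.e, true), (Gen.b, true), (Gen.e, true)],
  [(Gen.d, true), (Gen.e, true), (Gen.d, true), (Gen.e, true), (Gen.d, true), (Gen.e, true)],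
  [(Gen.c, true)],
  [(Gen.f, true)],
  [(Gen.g, true)]]
def RWP : List (Word Gen × Nat) := [
  ([(Gen.a, true), (Gen.a, true)], 1),
  ([(Gen.b, true), (Gen.b, true)], 1),
  ([(Gen.c, true), (Gen.c, true)], 1),
  ([(Gen.d, true), (Gen.d, true)], 1),
  ([(Gen.e, true), (Gen.e, true)], 1),
  ([(Gen.f, true), (Gen.f, true)], 1),
  ([(Gen.g, true), (Gen.g, true)], 1),
  ([(Gen.a, true), (Gen.b, true), (Gen.a, true), (Gen.b, true), (Gen.a, true), (Gen.b, true), (Gen.a, true), (Gen.b, true)], 2),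
  ([(Gen.a, true), (Gen.d, true), (Gen.a, true), (Gen.d, true)], 2),
  ([(Gen.a, true), (Gen.e, true), (Gen.a, true), (Gen.e, true)], 2),
  ([(Gen.b, true), (Gen.d, true), (Gen.b, true), (Gen.d, true)], 2),
  ([(Gen.b, true), (Gen.e, true), (Gen.b, true), (Gen.e, true)], 2),
  ([(Gen.d, true), (Gen.e, true), (Gen.d, true), (Gen.e, true), (Gen.d, true), (Gen.e, true)], 2),
  ([(Gen.c, true)], 1),
  ([(Gen.f, true)], 1),
  ([(Gen.g, true)], 1)]
def WT : List (Bool × List (Word Gen)) := [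
  (false, [[(Gen.a, true), (Gen.a, true)]]),
  (false, [[(Gen.b, true), (Gen.b, true)]]),
  (false, [[(Gen.c, true), (Gen.c, true)]]),
  (false, [[(Gen.d, true), (Gen.d, true)]]),
  (false, [[(Gen.e, true), (Gen.e, true)]]),
  (false, [[(Gen.f, true), (Gen.f, true)]]),
  (false, [[(Gen.g, true), (Gen.g, true)]]),
  (false, [[(Gen.a, true), (Gen.b, true), (Gen.a, true), (Gen.b, true), (Gen.a, true), (Gen.b, true), (Gen.a, true), (Gen.b, true)], [(Gen.b, true), (Gen.a, true), (Gen.b, true), (Gen.a, true), (Gen.b, true), (Gen.a, true), (Gen.b, true), (Gen.a, true)]]),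
  (false, [[(Gen.a, true), (Gen.d, true), (Gen.a, true), (Gen.d, true)], [(Gen.d, true), (Gen.a, true), (Gen.d, true), (Gen.a, true)]]),
  (false, [[(Gen.a, true), (Gen.e, true), (Gen.a, true), (Gen.e, true)], [(Gen.e, true), (Gen.a, true), (Gen.e, true), (Gen.a, true)]]),
  (false, [[(Gen.b, true), (Gen.d, true), (Gen.b, true), (Gen.d, true)], [(Gen.d, true), (Gen.b, true), (Gen.d, true), (Gen.b, true)]]),
  (false, [[(Gen.b, true), (Gen.e, true), (Gen.b, true), (Gen.e, true)], [(Gen.e, true), (Gen.b, true), (Gen.e, true), (Gen.b, true)]]),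
  (false, [[(Gen.d, true), (Gen.e, true), (Gen.d, true), (Gen.e, true), (Gen.d, true), (Gen.e, true)], [(Gen.e, true), (Gen.d, true), (Gen.e, true), (Gen.d, true), (Gen.e, true), (Gen.d, true)]]),
  (false, [[(Gen.c, true)]]),
  (false, [[(Gen.f, true)]]),
  (false, [[(Gen.g, true)]])]
theorem hRWP : RWP.map Prod.fst = RL := by decide +kernel
theorem hWTeq : WT = mkWT (fun _ => true) RWP TW (genW TL) := by decide +kernel
theorem hsq : ∀ x : Gen, (fun _ => true) x = true → sqW x ∈ RL := by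
  intro x hx
  cases x <;> first | (exact absurd hx (by decide)) | decide +kernel
theorem hdec : ∀ x : Gen, D.dec (D.code x) = x := by
  intro x
  cases x <;> rfl
theorem hm : ∀ x : Gen, D.code x ≠ D.mtag := by
  intro x
  cases x <;> decide +kernel

end Cfsg.Agent.Lib.helper9.CE1695s2
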