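import Cfsg.Agent.Lib.helper9.CE1695tD

set_option autoImplicit false

namespace Cfsg.Agent.Lib.helper9.CE1695t
open Cfsg.Agent.Lib.helper9 Cfsg.Agent.Lib.helper9.CE
open Cfsg.Spor.He (Gen)

theorem hfact_92 : allRange 1840000 1860000 (D.factK WT) = true := by decide +kernel
theorem hfact_79 : allRange 1580000 1600000 (D.factK WT) = true := by decide +kernel
theorem hfact_70 : allRange 1400000 1420000 (D.factK WT) = true := by decide +kernel
theorem hfact_69 : allRange 1380000 1400000 (D.factK WT) = true := by decide +kernel
theorem hfact_59 : allRange 1180000 1200000 (D.factK WT) = true := by decide +kernel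
theorem hfact_19 : allRange 380000 400000 (D.factK WT) = true := by decide +kernel
theorem hfact_32 : allRange 640000 660000 (D.factK WT) = true := by decide +kernel
theorem hfact_29 : allRange 580000 600000 (D.factK WT) = true := by decide +kernel
theorem hfact_42 : allRange 840000 860000 (D.factK WT) = true := by decide +kernel
theorem hfact_43 : allRange 860000 880000 (D.factK WT) = true := by decide +kernel
theorem hfact_12 : allRange 240000 260000 (D.factK WT) = true := by decide +kernel
theorem hfact_2 : allRange 40000 60000 (D.factK WT) = true := by decide +kernel
theorem hperm_g_0 : allRange 0 90000 (D.permK Gen.g) = true := by decide +kernel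
theorem hperm_g_1 : allRange 90000 180000 (D.permK Gen.g) = true := by decide +kernel
theorem hperm_g_2 : allRange 180000 266560 (D.permK Gen.g) = true := by decide +kernel
theorem hrnK_0 : allRange 0 90000 D.rnK = true := by decide +kernel
theorem hrnK_1 : allRange 90000 180000 D.rnK = true := by decide +kernel
theorem hrnK_2 : allRange 180000 266560 D.rnK = true := by decide +kernel
theorem hrel_6 : D.relsK RW 13950 16275 = true := by decide +kernel
theorem hrel_12 : D.relsK RW 27900 30225 = true := by decide +kernel
theorem hrel_20 : D.relsK RW 46500 48825 = true := by decide +kernel
theorem hrel_28 : D.relsK RW 65100 67425 = true := by decide +kernel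
theorem hrel_36 : D.relsK RW 83700 86025 = true := by decide +kernel
theorem hrel_44 : D.relsK RW 102300 104625 = true := by decide +kernel
theorem hrel_52 : D.relsK RW 120900 123225 = true := by decide +kernel
theorem hrel_60 : D.relsK RW 139500 141825 = true := by decide +kernel
theorem hrel_68 : D.relsK RW 158100 160425 = true := by decide +kernel
theorem hrel_76 : D.relsK RW 176700 179025 = true := by decide +kernel
theorem hrel_84 : D.relsK RW 195300 197625 = true := by decide +kernel
theorem hrel_92 : D.relsK RW 213900 216225 = true := by decide +kernel
theorem hrel_100 : D.relsK RW 232500 234825 = true := by decide +kernel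
theorem hrel_108 : D.relsK RW 251100 253425 = true := by decide +kernel
theorem htree_1 : allRange 40001 80001 D.treeK = true := by decide +kernel
theorem htree_4 : allRange 160001 200001 D.treeK = true := by decide +kernel

end Cfsg.Agent.Lib.helper9.CE1695t
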