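import Cfsg.Agent.Lib.helper9.CE1695tD

set_option autoImplicit false

namespace Cfsg.Agent.Lib.helper9.CE1695t
open Cfsg.Agent.Lib.helper9 Cfsg.Agent.Lib.helper9.CE
open Cfsg.Spor.He (Gen)

theorem hfact_91 : allRange 1820000 1840000 (D.factK WT) = true := by decide +kernel
theorem hfact_78 : allRange 1560000 1580000 (D.factK WT) = true := by decide +kernel
theorem hfact_71 : allRange 1420000 1440000 (D.factK WT) = true := by decide +kernel
theorem hfact_65 : allRange 1300000 1320000 (D.factK WT) = true := by decide +kernel
theorem hfact_52 : allRange 1040000 1060000 (D.factK WT) = true := by decide +kernel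
theorem hfact_58 : allRange 1160000 1180000 (D.factK WT) = true := by decide +kernel
theorem hfact_51 : allRange 1020000 1040000 (D.factK WT) = true := by decide +kernel
theorem hfact_23 : allRange 460000 480000 (D.factK WT) = true := by decide +kernel
theorem hfact_21 : allRange 420000 440000 (D.factK WT) = true := by decide +kernel
theorem hfact_11 : allRange 220000 240000 (D.factK WT) = true := by decide +kernel
theorem hfact_15 : allRange 300000 320000 (D.factK WT) = true := by decide +kernel
theorem hperm_b_0 : allRange 0 90000 (D.permK Gen.b) = true := by decide +kernel
theorem hperm_b_1 : allRange 90000 180000 (D.permK Gen.b) = true := by decide +kernel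
theorem hperm_b_2 : allRange 180000 266560 (D.permK Gen.b) = true := by decide +kernel
theorem hperm_d_0 : allRange 0 90000 (D.permK Gen.d) = true := by decide +kernel
theorem hperm_d_1 : allRange 90000 180000 (D.permK Gen.d) = true := by decide +kernel
theorem hperm_d_2 : allRange 180000 266560 (D.permK Gen.d) = true := by decide +kernel
theorem hfin_e_0 : allRange 0 90000 (D.finK Gen.e) = true := by decide +kernel
theorem hfin_e_1 : allRange 90000 180000 (D.finK Gen.e) = true := by decide +kernel
theorem hfin_e_2 : allRange 180000 266560 (D.finK Gen.e) = true := by decide +kernel
theorem hrel_11 : D.relsK RW 25575 27900 = true := by decide +kernel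
theorem hrel_19 : D.relsK RW 44175 46500 = true := by decide +kernel
theorem hrel_27 : D.relsK RW 62775 65100 = true := by decide +kernel
theorem hrel_35 : D.relsK RW 81375 83700 = true := by decide +kernel
theorem hrel_43 : D.relsK RW 99975 102300 = true := by decide +kernel
theorem hrel_51 : D.relsK RW 118575 120900 = true := by decide +kernel
theorem hrel_59 : D.relsK RW 137175 139500 = true := by decide +kernel
theorem hrel_67 : D.relsK RW 155775 158100 = true := by decide +kernel
theorem hrel_75 : D.relsK RW 174375 176700 = true := by decide +kernel
theorem hrel_83 : D.relsK RW 192975 195300 = true := by decide +kernel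
theorem hrel_91 : D.relsK RW 211575 213900 = true := by decide +kernel
theorem hrel_99 : D.relsK RW 230175 232500 = true := by decide +kernel
theorem hrel_107 : D.relsK RW 248775 251100 = true := by decide +kernel
theorem htree_0 : allRange 1 40001 D.treeK = true := by decide +kernel
theorem htree_2 : allRange 80001 120001 D.treeK = true := by decide +kernel
theorem htree_6 : allRange 240001 269121 D.treeK = true := by decide +kernel

end Cfsg.Agent.Lib.helper9.CE1695t
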