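import Cfsg.Agent.Lib.helper9.CE1695tD

set_option autoImplicit false

namespace Cfsg.Agent.Lib.helper9.CE1695t
open Cfsg.Agent.Lib.helper9 Cfsg.Agent.Lib.helper9.CE
open Cfsg.Spor.He (Gen)

theorem hfact_90 : allRange 1800000 1820000 (D.factK WT) = true := by decide +kernel
theorem hfact_83 : allRange 1660000 1680000 (D.factK WT) = true := by decide +kernel
theorem hfact_75 : allRange 1500000 1520000 (D.factK WT) = true := by decide +kernel
theorem hfact_64 : allRange 1280000 1300000 (D.factK WT) = true := by decide +kernel
theorem hfact_53 : allRange 1060000 1080000 (D.factK WT) = true := by decide +kernel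
theorem hfact_37 : allRange 740000 760000 (D.factK WT) = true := by decide +kernel
theorem hfact_24 : allRange 480000 500000 (D.factK WT) = true := by decide +kernel
theorem hfact_20 : allRange 400000 420000 (D.factK WT) = true := by decide +kernel
theorem hfact_18 : allRange 360000 380000 (D.factK WT) = true := by decide +kernel
theorem hfact_34 : allRange 680000 700000 (D.factK WT) = true := by decide +kernel
theorem hfact_9 : allRange 180000 200000 (D.factK WT) = true := by decide +kernel
theorem hfact_3 : allRange 60000 80000 (D.factK WT) = true := by decide +kernel
theorem hperm_f_0 : allRange 0 90000 (D.permK Gen.f) = true := by decide +kernel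
theorem hperm_f_1 : allRange 90000 180000 (D.permK Gen.f) = true := by decide +kernel
theorem hperm_f_2 : allRange 180000 266560 (D.permK Gen.f) = true := by decide +kernel
theorem hfin_g_0 : allRange 0 90000 (D.finK Gen.g) = true := by decide +kernel
theorem hfin_g_1 : allRange 90000 180000 (D.finK Gen.g) = true := by decide +kernel
theorem hfin_g_2 : allRange 180000 266560 (D.finK Gen.g) = true := by decide +kernel
theorem hrel_14 : D.relsK RW 32550 34875 = true := by decide +kernel
theorem hrel_22 : D.relsK RW 51150 53475 = true := by decide +kernel
theorem hrel_30 : D.relsK RW 69750 72075 = true := by decide +kernel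
theorem hrel_38 : D.relsK RW 88350 90675 = true := by decide +kernel
theorem hrel_46 : D.relsK RW 106950 109275 = true := by decide +kernel
theorem hrel_54 : D.relsK RW 125550 127875 = true := by decide +kernel
theorem hrel_62 : D.relsK RW 144150 146475 = true := by decide +kernel
theorem hrel_70 : D.relsK RW 162750 165075 = true := by decide +kernel
theorem hrel_78 : D.relsK RW 181350 183675 = true := by decide +kernel
theorem hrel_86 : D.relsK RW 199950 202275 = true := by decide +kernel
theorem hrel_94 : D.relsK RW 218550 220875 = true := by decide +kernel
theorem hrel_102 : D.relsK RW 237150 239475 = true := by decide +kernel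
theorem hrel_110 : D.relsK RW 255750 258075 = true := by decide +kernel
theorem htree_5 : allRange 200001 240001 D.treeK = true := by decide +kernel

end Cfsg.Agent.Lib.helper9.CE1695t
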