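import Cfsg.Agent.Lib.helper9.CE1695tD

set_option autoImplicit false

namespace Cfsg.Agent.Lib.helper9.CE1695t
open Cfsg.Agent.Lib.helper9 Cfsg.Agent.Lib.helper9.CE
open Cfsg.Spor.He (Gen)

theorem hfact_89 : allRange 1780000 1800000 (D.factK WT) = true := by decide +kernel
theorem hfact_80 : allRange 1600000 1620000 (D.factK WT) = true := by decide +kernel
theorem hfact_76 : allRange 1520000 1540000 (D.factK WT) = true := by decide +kernel
theorem hfact_68 : allRange 1360000 1380000 (D.factK WT) = true := by decide +kernel
theorem hfact_38 : allRange 760000 780000 (D.factK WT) = true := by decide +kernel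
theorem hfact_57 : allRange 1140000 1160000 (D.factK WT) = true := by decide +kernel
theorem hfact_33 : allRange 660000 680000 (D.factK WT) = true := by decide +kernel
theorem hfact_50 : allRange 1000000 1020000 (D.factK WT) = true := by decide +kernel
theorem hfact_49 : allRange 980000 1000000 (D.factK WT) = true := by decide +kernel
theorem hfact_17 : allRange 340000 360000 (D.factK WT) = true := by decide +kernel
theorem hfact_0 : allRange 0 20000 (D.factK WT) = true := by decide +kernel
theorem hfact_6 : allRange 120000 140000 (D.factK WT) = true := by decide +kernel
theorem hfin_b_0 : allRange 0 90000 (D.finK Gen.b) = true := by decide +kernel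
theorem hfin_b_1 : allRange 90000 180000 (D.finK Gen.b) = true := by decide +kernel
theorem hfin_b_2 : allRange 180000 266560 (D.finK Gen.b) = true := by decide +kernel
theorem hrel_1 : D.relsK RW 2325 4650 = true := by decide +kernel
theorem hrel_4 : D.relsK RW 9300 11625 = true := by decide +kernel
theorem hrel_8 : D.relsK RW 18600 20925 = true := by decide +kernel
theorem hrel_16 : D.relsK RW 37200 39525 = true := by decide +kernel
theorem hrel_24 : D.relsK RW 55800 58125 = true := by decide +kernel
theorem hrel_32 : D.relsK RW 74400 76725 = true := by decide +kernel
theorem hrel_40 : D.relsK RW 93000 95325 = true := by decide +kernel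
theorem hrel_48 : D.relsK RW 111600 113925 = true := by decide +kernel
theorem hrel_56 : D.relsK RW 130200 132525 = true := by decide +kernel
theorem hrel_64 : D.relsK RW 148800 151125 = true := by decide +kernel
theorem hrel_72 : D.relsK RW 167400 169725 = true := by decide +kernel
theorem hrel_80 : D.relsK RW 186000 188325 = true := by decide +kernel
theorem hrel_88 : D.relsK RW 204600 206925 = true := by decide +kernel
theorem hrel_96 : D.relsK RW 223200 225525 = true := by decide +kernel
theorem hrel_104 : D.relsK RW 241800 244125 = true := by decide +kernel
theorem hrel_112 : D.relsK RW 260400 262725 = true := by decide +kernel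

end Cfsg.Agent.Lib.helper9.CE1695t
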