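import Cfsg.Agent.Lib.helper9.CE1695tD

set_option autoImplicit false

namespace Cfsg.Agent.Lib.helper9.CE1695t
open Cfsg.Agent.Lib.helper9 Cfsg.Agent.Lib.helper9.CE
open Cfsg.Spor.He (Gen)

theorem hfact_88 : allRange 1760000 1780000 (D.factK WT) = true := by decide +kernel
theorem hfact_81 : allRange 1620000 1640000 (D.factK WT) = true := by decide +kernel
theorem hfact_77 : allRange 1540000 1560000 (D.factK WT) = true := by decide +kernel
theorem hfact_61 : allRange 1220000 1240000 (D.factK WT) = true := by decide +kernel
theorem hfact_63 : allRange 1260000 1280000 (D.factK WT) = true := by decide +kernel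
theorem hfact_31 : allRange 620000 640000 (D.factK WT) = true := by decide +kernel
theorem hfact_41 : allRange 820000 840000 (D.factK WT) = true := by decide +kernel
theorem hfact_36 : allRange 720000 740000 (D.factK WT) = true := by decide +kernel
theorem hfact_45 : allRange 900000 920000 (D.factK WT) = true := by decide +kernel
theorem hfact_48 : allRange 960000 980000 (D.factK WT) = true := by decide +kernel
theorem hfact_8 : allRange 160000 180000 (D.factK WT) = true := by decide +kernel
theorem hfact_1 : allRange 20000 40000 (D.factK WT) = true := by decide +kernel
theorem hperm_e_0 : allRange 0 90000 (D.permK Gen.e) = true := by decide +kernel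
theorem hperm_e_1 : allRange 90000 180000 (D.permK Gen.e) = true := by decide +kernel
theorem hperm_e_2 : allRange 180000 266560 (D.permK Gen.e) = true := by decide +kernel
theorem hfin_f_0 : allRange 0 90000 (D.finK Gen.f) = true := by decide +kernel
theorem hfin_f_1 : allRange 90000 180000 (D.finK Gen.f) = true := by decide +kernel
theorem hfin_f_2 : allRange 180000 266560 (D.finK Gen.f) = true := by decide +kernel
theorem hrel_13 : D.relsK RW 30225 32550 = true := by decide +kernel
theorem hrel_21 : D.relsK RW 48825 51150 = true := by decide +kernel
theorem hrel_29 : D.relsK RW 67425 69750 = true := by decide +kernel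
theorem hrel_37 : D.relsK RW 86025 88350 = true := by decide +kernel
theorem hrel_45 : D.relsK RW 104625 106950 = true := by decide +kernel
theorem hrel_53 : D.relsK RW 123225 125550 = true := by decide +kernel
theorem hrel_61 : D.relsK RW 141825 144150 = true := by decide +kernel
theorem hrel_69 : D.relsK RW 160425 162750 = true := by decide +kernel
theorem hrel_77 : D.relsK RW 179025 181350 = true := by decide +kernel
theorem hrel_85 : D.relsK RW 197625 199950 = true := by decide +kernel
theorem hrel_93 : D.relsK RW 216225 218550 = true := by decide +kernel
theorem hrel_101 : D.relsK RW 234825 237150 = true := by decide +kernel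
theorem hrel_109 : D.relsK RW 253425 255750 = true := by decide +kernel
theorem htree_3 : allRange 120001 160001 D.treeK = true := by decide +kernel

end Cfsg.Agent.Lib.helper9.CE1695t
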