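import Cfsg.Agent.Lib.helper9.CE1695tD

set_option autoImplicit false

namespace Cfsg.Agent.Lib.helper9.CE1695t
open Cfsg.Agent.Lib.helper9 Cfsg.Agent.Lib.helper9.CE
open Cfsg.Spor.He (Gen)

theorem hfact_87 : allRange 1740000 1760000 (D.factK WT) = true := by decide +kernel
theorem hfact_82 : allRange 1640000 1660000 (D.factK WT) = true := by decide +kernel
theorem hfact_73 : allRange 1460000 1480000 (D.factK WT) = true := by decide +kernel
theorem hfact_62 : allRange 1240000 1260000 (D.factK WT) = true := by decide +kernel
theorem hfact_56 : allRange 1120000 1140000 (D.factK WT) = true := by decide +kernel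
theorem hfact_28 : allRange 560000 580000 (D.factK WT) = true := by decide +kernel
theorem hfact_25 : allRange 500000 520000 (D.factK WT) = true := by decide +kernel
theorem hfact_27 : allRange 540000 560000 (D.factK WT) = true := by decide +kernel
theorem hfact_14 : allRange 280000 300000 (D.factK WT) = true := by decide +kernel
theorem hfact_13 : allRange 260000 280000 (D.factK WT) = true := by decide +kernel
theorem hfact_4 : allRange 80000 100000 (D.factK WT) = true := by decide +kernel
theorem hfact_5 : allRange 100000 120000 (D.factK WT) = true := by decide +kernel
theorem hfin_a_0 : allRange 0 90000 (D.finK Gen.a) = true := by decide +kernel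
theorem hfin_a_1 : allRange 90000 180000 (D.finK Gen.a) = true := by decide +kernel
theorem hfin_a_2 : allRange 180000 266560 (D.finK Gen.a) = true := by decide +kernel
theorem hrel_0 : D.relsK RW 0 2325 = true := by decide +kernel
theorem hrel_3 : D.relsK RW 6975 9300 = true := by decide +kernel
theorem hrel_7 : D.relsK RW 16275 18600 = true := by decide +kernel
theorem hrel_15 : D.relsK RW 34875 37200 = true := by decide +kernel
theorem hrel_23 : D.relsK RW 53475 55800 = true := by decide +kernel
theorem hrel_31 : D.relsK RW 72075 74400 = true := by decide +kernel
theorem hrel_39 : D.relsK RW 90675 93000 = true := by decide +kernel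
theorem hrel_47 : D.relsK RW 109275 111600 = true := by decide +kernel
theorem hrel_55 : D.relsK RW 127875 130200 = true := by decide +kernel
theorem hrel_63 : D.relsK RW 146475 148800 = true := by decide +kernel
theorem hrel_71 : D.relsK RW 165075 167400 = true := by decide +kernel
theorem hrel_79 : D.relsK RW 183675 186000 = true := by decide +kernel
theorem hrel_87 : D.relsK RW 202275 204600 = true := by decide +kernel
theorem hrel_95 : D.relsK RW 220875 223200 = true := by decide +kernel
theorem hrel_103 : D.relsK RW 239475 241800 = true := by decide +kernel
theorem hrel_111 : D.relsK RW 258075 260400 = true := by decide +kernel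

end Cfsg.Agent.Lib.helper9.CE1695t
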