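import Cfsg.Agent.Lib.helper9.CE1695tD

set_option autoImplicit false

namespace Cfsg.Agent.Lib.helper9.CE1695t
open Cfsg.Agent.Lib.helper9 Cfsg.Agent.Lib.helper9.CE
open Cfsg.Spor.He (Gen)

theorem hfact_86 : allRange 1720000 1740000 (D.factK WT) = true := by decide +kernel
theorem hfact_85 : allRange 1700000 1720000 (D.factK WT) = true := by decide +kernel
theorem hfact_72 : allRange 1440000 1460000 (D.factK WT) = true := by decide +kernel
theorem hfact_67 : allRange 1340000 1360000 (D.factK WT) = true := by decide +kernel
theorem hfact_60 : allRange 1200000 1220000 (D.factK WT) = true := by decide +kernel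
theorem hfact_55 : allRange 1100000 1120000 (D.factK WT) = true := by decide +kernel
theorem hfact_39 : allRange 780000 800000 (D.factK WT) = true := by decide +kernel
theorem hfact_47 : allRange 940000 960000 (D.factK WT) = true := by decide +kernel
theorem hfact_30 : allRange 600000 620000 (D.factK WT) = true := by decide +kernel
theorem hfact_16 : allRange 320000 340000 (D.factK WT) = true := by decide +kernel
theorem hfact_10 : allRange 200000 220000 (D.factK WT) = true := by decide +kernel
theorem hfact_7 : allRange 140000 160000 (D.factK WT) = true := by decide +kernel
theorem hfin_c_0 : allRange 0 90000 (D.finK Gen.c) = true := by decide +kernel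
theorem hfin_c_1 : allRange 90000 180000 (D.finK Gen.c) = true := by decide +kernel
theorem hfin_c_2 : allRange 180000 266560 (D.finK Gen.c) = true := by decide +kernel
theorem hrel_2 : D.relsK RW 4650 6975 = true := by decide +kernel
theorem hrel_5 : D.relsK RW 11625 13950 = true := by decide +kernel
theorem hrel_9 : D.relsK RW 20925 23250 = true := by decide +kernel
theorem hrel_17 : D.relsK RW 39525 41850 = true := by decide +kernel
theorem hrel_25 : D.relsK RW 58125 60450 = true := by decide +kernel
theorem hrel_33 : D.relsK RW 76725 79050 = true := by decide +kernel
theorem hrel_41 : D.relsK RW 95325 97650 = true := by decide +kernel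
theorem hrel_49 : D.relsK RW 113925 116250 = true := by decide +kernel
theorem hrel_57 : D.relsK RW 132525 134850 = true := by decide +kernel
theorem hrel_65 : D.relsK RW 151125 153450 = true := by decide +kernel
theorem hrel_73 : D.relsK RW 169725 172050 = true := by decide +kernel
theorem hrel_81 : D.relsK RW 188325 190650 = true := by decide +kernel
theorem hrel_89 : D.relsK RW 206925 209250 = true := by decide +kernel
theorem hrel_97 : D.relsK RW 225525 227850 = true := by decide +kernel
theorem hrel_105 : D.relsK RW 244125 246450 = true := by decide +kernel
theorem hrel_113 : D.relsK RW 262725 265050 = true := by decide +kernel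

end Cfsg.Agent.Lib.helper9.CE1695t
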