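import Cfsg.Agent.Lib.helper9.CE1695tD

set_option autoImplicit false

namespace Cfsg.Agent.Lib.helper9.CE1695t
open Cfsg.Agent.Lib.helper9 Cfsg.Agent.Lib.helper9.CE
open Cfsg.Spor.He (Gen)

theorem hfact_93 : allRange 1860000 1879464 (D.factK WT) = true := by decide +kernel
theorem hfact_84 : allRange 1680000 1700000 (D.factK WT) = true := by decide +kernel
theorem hfact_74 : allRange 1480000 1500000 (D.factK WT) = true := by decide +kernel
theorem hfact_66 : allRange 1320000 1340000 (D.factK WT) = true := by decide +kernel
theorem hfact_54 : allRange 1080000 1100000 (D.factK WT) = true := by decide +kernel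
theorem hfact_40 : allRange 800000 820000 (D.factK WT) = true := by decide +kernel
theorem hfact_44 : allRange 880000 900000 (D.factK WT) = true := by decide +kernel
theorem hfact_26 : allRange 520000 540000 (D.factK WT) = true := by decide +kernel
theorem hfact_46 : allRange 920000 940000 (D.factK WT) = true := by decide +kernel
theorem hfact_22 : allRange 440000 460000 (D.factK WT) = true := by decide +kernel
theorem hfact_35 : allRange 700000 720000 (D.factK WT) = true := by decide +kernel
theorem hperm_a_0 : allRange 0 90000 (D.permK Gen.a) = true := by decide +kernel
theorem hperm_a_1 : allRange 90000 180000 (D.permK Gen.a) = true := by decide +kernel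
theorem hperm_a_2 : allRange 180000 266560 (D.permK Gen.a) = true := by decide +kernel
theorem hperm_c_0 : allRange 0 90000 (D.permK Gen.c) = true := by decide +kernel
theorem hperm_c_1 : allRange 90000 180000 (D.permK Gen.c) = true := by decide +kernel
theorem hperm_c_2 : allRange 180000 266560 (D.permK Gen.c) = true := by decide +kernel
theorem hfin_d_0 : allRange 0 90000 (D.finK Gen.d) = true := by decide +kernel
theorem hfin_d_1 : allRange 90000 180000 (D.finK Gen.d) = true := by decide +kernel
theorem hfin_d_2 : allRange 180000 266560 (D.finK Gen.d) = true := by decide +kernel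
theorem hrel_10 : D.relsK RW 23250 25575 = true := by decide +kernel
theorem hrel_18 : D.relsK RW 41850 44175 = true := by decide +kernel
theorem hrel_26 : D.relsK RW 60450 62775 = true := by decide +kernel
theorem hrel_34 : D.relsK RW 79050 81375 = true := by decide +kernel
theorem hrel_42 : D.relsK RW 97650 99975 = true := by decide +kernel
theorem hrel_50 : D.relsK RW 116250 118575 = true := by decide +kernel
theorem hrel_58 : D.relsK RW 134850 137175 = true := by decide +kernel
theorem hrel_66 : D.relsK RW 153450 155775 = true := by decide +kernel
theorem hrel_74 : D.relsK RW 172050 174375 = true := by decide +kernel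
theorem hrel_82 : D.relsK RW 190650 192975 = true := by decide +kernel
theorem hrel_90 : D.relsK RW 209250 211575 = true := by decide +kernel
theorem hrel_98 : D.relsK RW 227850 230175 = true := by decide +kernel
theorem hrel_106 : D.relsK RW 246450 248775 = true := by decide +kernel
theorem hrel_114 : D.relsK RW 265050 266560 = true := by decide +kernel
theorem hsubK : D.subK SW = true := by decide +kernel
theorem hpi0 : D.pi 0 = 0 := by decide +kernel
theorem hrn0 : D.rn 0 = 0 := by decide +kernel

end Cfsg.Agent.Lib.helper9.CE1695t
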