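import Cfsg.Agent.Lib.helper9.CE1698cD

set_option autoImplicit false

namespace Cfsg.Agent.Lib.helper9.CE1698c
open Cfsg.Agent.Lib.helper9 Cfsg.Agent.Lib.helper9.CE
open Cfsg.Spor.Fi24 (Gen)

theorem hfact_3 : allRange 60000 80000 (D.factK WT) = true := by decide +kernel
theorem hfact_1 : allRange 20000 40000 (D.factK WT) = true := by decide +kernel
theorem hfact_0 : allRange 0 20000 (D.factK WT) = true := by decide +kernel
theorem hfact_7 : allRange 140000 154132 (D.factK WT) = true := by decide +kernel
theorem htree_0 : allRange 1 40001 D.treeK = true := by decide +kernel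
theorem htree_1 : allRange 40001 80001 D.treeK = true := by decide +kernel
theorem htree_3 : allRange 120001 160001 D.treeK = true := by decide +kernel
theorem htree_5 : allRange 200001 209194 D.treeK = true := by decide +kernel
theorem hrel_0 : D.relsK RL 0 2 = true := by decide +kernel

end Cfsg.Agent.Lib.helper9.CE1698c
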