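import Cfsg.Agent.Lib.helper9.CE1698qpD

set_option autoImplicit false

namespace Cfsg.Agent.Lib.helper9.CE1698qp
open Cfsg.Agent.Lib.helper9 Cfsg.Agent.Lib.helper9.CE
open Cfsg.Spor.Fi24 (Gen)

theorem horb2_0 : allRange 0 21920 (OL2.orb2K CE1698q.D LW2) = true := by decide +kernel
theorem horb0_0 : allRange 0 28431 (OL0.orb2K CE1698q.D LW0) = true := by decide +kernel
theorem horb1_0 : allRange 0 28431 (OL1.orb2K CE1698q.D LW1) = true := by decide +kernel
theorem horb2_1 : allRange 21920 28431 (OL2.orb2K CE1698q.D LW2) = true := by decide +kernel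
theorem hpc0_0 : allRange 0 28431 (OL0.pcK 1) = true := by decide +kernel
theorem hpc1_0 : allRange 0 28431 (OL1.pcK 1) = true := by decide +kernel
theorem hpc2_0 : allRange 0 28431 (OL2.pcK 1) = true := by decide +kernel
theorem hpc3_0 : allRange 0 28431 (OL3.pcK 1) = true := by decide +kernel
theorem horb3_0 : allRange 0 28431 (OL3.orb2K CE1698q.D LW3) = true := by decide +kernel
theorem hfix2 : fixK CE1698q.D LW2 [169, 0] = true := by decide +kernel
theorem hfix1 : fixK CE1698q.D LW1 [0] = true := by decide +kernel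
theorem hfixSP : fixK CE1698q.D [SPw] [13, 1177, 169, 0] = true := by decide +kernel
theorem hfix3 : fixK CE1698q.D LW3 [1177, 169, 0] = true := by decide +kernel
theorem hfix0 : fixK CE1698q.D LW0 [] = true := by decide +kernel
theorem hpcz0 : OL0.pc 1 0 = 0 := by decide +kernel
theorem hpcn0 : OL0.pc 1 28431 = 28431 := by decide +kernel
theorem hroot0 : OL0.root 1 = 0 := by decide +kernel
theorem hpcz1 : OL1.pc 1 0 = 0 := by decide +kernel
theorem hpcn1 : OL1.pc 1 28431 = 22400 := by decide +kernel
theorem hroot1 : OL1.root 1 = 169 := by decide +kernel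
theorem hpcz2 : OL2.pc 1 0 = 0 := by decide +kernel
theorem hpcn2 : OL2.pc 1 28431 = 7776 := by decide +kernel
theorem hroot2 : OL2.root 1 = 1177 := by decide +kernel
theorem hpcz3 : OL3.pc 1 0 = 0 := by decide +kernel
theorem hpcn3 : OL3.pc 1 28431 = 2 := by decide +kernel
theorem hroot3 : OL3.root 1 = 13 := by decide +kernel

end Cfsg.Agent.Lib.helper9.CE1698qp
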