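import Cfsg.Agent.Lib.helper9.CosetBase
import Cfsg.Agent.Lib.helper9.CE1690D
import Cfsg.Agent.Lib.helper9.CE1698qX
import Cfsg.Agent.Lib.helper9.CE1698q1X
import Cfsg.Agent.Lib.helper9.CE1698q2X
import Cfsg.Agent.Lib.helper9.CE1698q3X
import Cfsg.Agent.Lib.helper9.CE1698q4X
import Cfsg.Agent.Lib.helper9.CE1698qpK0

/-!
# The spider relation in the presented group Fi24

The relation `(d c b d e f d h i)^10 = 1` holds in the group presented by the relators on the
generators `k l a b c d e f h i`, hence in the presented group.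
-/

set_option autoImplicit false

namespace Cfsg.Agent.Lib.helper9.CE1698m

open Cfsg.Agent.Lib.helper9 Cfsg.Agent.Lib.helper9.CE
open Cfsg.Spor
open Cfsg.Spor.Fi24 (Gen)

theorem ubq4 : Finite (PresentedGroup (relSet CE1698q4.RL)) ∧ Nat.card (PresentedGroup (relSet CE1698q4.RL)) ≤ (5040) :=
  chain_bot (relSet CE1698q4.RL) 5040 (by decide) CE1698q4.index

theorem ubq3 : Finite (PresentedGroup (relSet CE1698q3.RL)) ∧ Nat.card (PresentedGroup (relSet CE1698q3.RL)) ≤ 2 * ((5040)) :=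
  chain_step (relSet CE1698q3.RL) CE1698q3.RL (wordG_relSet CE1698q3.RL) CE1698q3.TL CE1698q4.RL (by decide +kernel) (genSet CE1698q3.TL)
    (genSet_of CE1698q3.TL) 2 ((5040)) (by decide) CE1698q3.index ubq4

theorem ubq2 : Finite (PresentedGroup (relSet CE1698q2.RL)) ∧ Nat.card (PresentedGroup (relSet CE1698q2.RL)) ≤ 288 * (2 * ((5040))) :=
  chain_step (relSet CE1698q2.RL) CE1698q2.RL (wordG_relSet CE1698q2.RL) CE1698q2.TL CE1698q3.RL (by decide +kernel) (genSet CE1698q2.TL)
    (genSet_of CE1698q2.TL) 288 (2 * ((5040))) (by decide) CE1698q2.index ubq3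

theorem ubq1 : Finite (PresentedGroup (relSet CE1698q1.RL)) ∧ Nat.card (PresentedGroup (relSet CE1698q1.RL)) ≤ 120 * (288 * (2 * ((5040)))) :=
  chain_step (relSet CE1698q1.RL) CE1698q1.RL (wordG_relSet CE1698q1.RL) CE1698q1.TL CE1698q2.RL (by decide +kernel) (genSet CE1698q1.TL)
    (genSet_of CE1698q1.TL) 120 (288 * (2 * ((5040)))) (by decide) CE1698q1.index ubq2

theorem ubq0 : Finite (PresentedGroup (relSet CE1698q.RL)) ∧ Nat.card (PresentedGroup (relSet CE1698q.RL)) ≤ 28431 * (120 * (288 * (2 * ((5040))))) :=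
  chain_step (relSet CE1698q.RL) CE1698q.RL (wordG_relSet CE1698q.RL) CE1698q.TL CE1698q1.RL (by decide +kernel) (genSet CE1698q.TL)
    (genSet_of CE1698q.TL) 28431 (120 * (288 * (2 * ((5040))))) (by decide) CE1698q.index ubq1

/-- the spider relation holds in the sub-presentation -/
theorem spider_q : wordG (relSet CE1698q.RL) CE1698qp.SPw = 1 := by
  obtain ⟨ρ, e, he, hρ, he0⟩ := CE1698q.cert.main
  have hfinG : Finite (PresentedGroup (relSet CE1698q.RL)) := ubq0.1
  have hub : Nat.card (PresentedGroup (relSet CE1698q.RL)) ≤ 9904359628800 := le_trans ubq0.2 (by norm_num)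
  have l0 := level_step ρ e he hρ CE1698qp.OL0 CE1698qp.LW0 [] ⟨0, by decide⟩ 28431
    (fun L hL p hp => fixK_spec CE1698q.D CE1698qp.hfix0 L hL p.val (List.mem_map_of_mem (f := Fin.val) hp))
    (fun j hj => (allRange_spec CE1698qp.horb0_0) j (Nat.zero_le _) hj) CE1698qp.hroot0 CE1698qp.hpcz0
    (fun k hk => (allRange_spec CE1698qp.hpc0_0) k (Nat.zero_le _) hk) CE1698qp.hpcn0
  have l1 := level_step ρ e he hρ CE1698qp.OL1 CE1698qp.LW1 [⟨0, by decide⟩] ⟨169, by decide⟩ 22400
    (fun L hL p hp => fixK_spec CE1698q.D CE1698qp.hfix1 L hL p.val (List.mem_map_of_mem (f := Fin.val) hp))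
    (fun j hj => (allRange_spec CE1698qp.horb1_0) j (Nat.zero_le _) hj) CE1698qp.hroot1 CE1698qp.hpcz1
    (fun k hk => (allRange_spec CE1698qp.hpc1_0) k (Nat.zero_le _) hk) CE1698qp.hpcn1
  have l2 := level_step ρ e he hρ CE1698qp.OL2 CE1698qp.LW2 [⟨169, by decide⟩, ⟨0, by decide⟩] ⟨1177, by decide⟩ 7776
    (fun L hL p hp => fixK_spec CE1698q.D CE1698qp.hfix2 L hL p.val (List.mem_map_of_mem (f := Fin.val) hp))
    (fun j hj => (allRange_join (allRange_spec CE1698qp.horb2_0) (allRange_spec CE1698qp.horb2_1)) j (Nat.zero_le _) hj) CE1698qp.hroot2 CE1698qp.hpcz2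
    (fun k hk => (allRange_spec CE1698qp.hpc2_0) k (Nat.zero_le _) hk) CE1698qp.hpcn2
  have l3 := level_step ρ e he hρ CE1698qp.OL3 CE1698qp.LW3 [⟨1177, by decide⟩, ⟨169, by decide⟩, ⟨0, by decide⟩] ⟨13, by decide⟩ 2
    (fun L hL p hp => fixK_spec CE1698q.D CE1698qp.hfix3 L hL p.val (List.mem_map_of_mem (f := Fin.val) hp))
    (fun j hj => (allRange_spec CE1698qp.horb3_0) j (Nat.zero_le _) hj) CE1698qp.hroot3 CE1698qp.hpcz3
    (fun k hk => (allRange_spec CE1698qp.hpc3_0) k (Nat.zero_le _) hk) CE1698qp.hpcn3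
  have hch := (chain_le (chain_le (chain_le l0 l1) l2) l3)
  have hbot := pstab_eq_bot_of_chain e [⟨13, by decide⟩, ⟨1177, by decide⟩, ⟨169, by decide⟩, ⟨0, by decide⟩] 9904359628800 (by norm_num)
    ((by norm_num : (28431 * 22400 * 7776 * 2 : ℕ) = 9904359628800) ▸ hch) hub
  exact wordG_eq_one_of_base ρ e he hρ [⟨13, by decide⟩, ⟨1177, by decide⟩, ⟨169, by decide⟩, ⟨0, by decide⟩] hbot CE1698qp.SPw
    (fun p hp => fixK_spec CE1698q.D CE1698qp.hfixSP CE1698qp.SPw (List.mem_singleton.mpr rfl) p.val (List.mem_map_of_mem (f := Fin.val) hp))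

/-- the generators of the sub-presentation -/
def T5 : List Gen := [Gen.l, Gen.k, Gen.a, Gen.b, Gen.c, Gen.d, Gen.e, Gen.f, Gen.h, Gen.i]

/-- the spider relation holds in the presented group -/
theorem spider : wordG CE1690.rels CE1698qp.SPw = 1 :=
  wordG_of_sub CE1690.rels CE1690.RW CE1690.hRW1 T5 CE1698q.RL (by decide +kernel) CE1698qp.SPw (by decide +kernel) spider_q

/-- the relators of the presentation and the spider relator -/
def RWs : List (Word Gen) := CE1690.RW ++ [CE1698qp.SPw]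

theorem hRWs : ∀ L ∈ RWs, wordG CE1690.rels L = 1 := by
  intro L hL
  rcases List.mem_append.mp hL with h | h
  · exact CE1690.hRW1 L h
  · rw [List.mem_singleton.mp h]
    exact spider

end Cfsg.Agent.Lib.helper9.CE1698m
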