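import Cfsg.Agent.Lib.helper9.CE1698pD

set_option autoImplicit false

namespace Cfsg.Agent.Lib.helper9.CE1698p
open Cfsg.Agent.Lib.helper9 Cfsg.Agent.Lib.helper9.CE
open Cfsg.Spor.Fi24 (Gen)

theorem horb3_22 : allRange 236440 243360 (OL3.orb2K CE1690.D LW3) = true := by decide +kernel
theorem horb3_21 : allRange 228890 236440 (OL3.orb2K CE1690.D LW3) = true := by decide +kernel
theorem horb3_2 : allRange 49717 67740 (OL3.orb2K CE1690.D LW3) = true := by decide +kernel
theorem horb3_12 : allRange 159607 167103 (OL3.orb2K CE1690.D LW3) = true := by decide +kernel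
theorem horb3_23 : allRange 243360 251919 (OL3.orb2K CE1690.D LW3) = true := by decide +kernel
theorem horb3_25 : allRange 259653 267475 (OL3.orb2K CE1690.D LW3) = true := by decide +kernel
theorem horb3_20 : allRange 220575 228890 (OL3.orb2K CE1690.D LW3) = true := by decide +kernel
theorem horb0_4 : allRange 171432 214290 (OL0.orb2K CE1690.D LW0) = true := by decide +kernel
theorem horb1_4 : allRange 191341 236281 (OL1.orb2K CE1690.D LW1) = true := by decide +kernel
theorem horb1_5 : allRange 236281 281172 (OL1.orb2K CE1690.D LW1) = true := by decide +kernel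
theorem horb2_2 : allRange 120000 172999 (OL2.orb2K CE1690.D LW2) = true := by decide +kernel
theorem horb3_0 : allRange 0 29857 (OL3.orb2K CE1690.D LW3) = true := by decide +kernel
theorem horbO_3 : allRange 120000 160000 (O.orbK CE1690.D CE1690.SW) = true := by decide +kernel
theorem horb4_1 : allRange 54581 114581 (OL4.orb2K CE1690.D LW4) = true := by decide +kernel
theorem horb2_5 : allRange 270246 306936 (OL2.orb2K CE1690.D LW2) = true := by decide +kernel
theorem hpc_0_3 : allRange 180000 240000 (O.pcK 0) = true := by decide +kernel
theorem hpc_1_2 : allRange 120000 180000 (O.pcK 1) = true := by decide +kernel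
theorem hpc_2_1 : allRange 60000 120000 (O.pcK 2) = true := by decide +kernel
theorem hpc0_0 : allRange 0 60000 (OL0.pcK 1) = true := by decide +kernel
theorem hpc0_4 : allRange 240000 300000 (OL0.pcK 1) = true := by decide +kernel
theorem hpc1_3 : allRange 180000 240000 (OL1.pcK 1) = true := by decide +kernel
theorem hpc2_2 : allRange 120000 180000 (OL2.pcK 1) = true := by decide +kernel
theorem hpc3_1 : allRange 60000 120000 (OL3.pcK 1) = true := by decide +kernel
theorem hpc4_0 : allRange 0 60000 (OL4.pcK 1) = true := by decide +kernel
theorem hpc4_4 : allRange 240000 300000 (OL4.pcK 1) = true := by decide +kernel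
theorem hinvO_0 : O.invsK CE1690.D CE1690.SW 0 9090 = true := by decide +kernel
theorem hinvO_2 : O.invsK CE1690.D CE1690.SW 18180 27270 = true := by decide +kernel
theorem hinvO_6 : O.invsK CE1690.D CE1690.SW 54540 63630 = true := by decide +kernel
theorem hinvO_10 : O.invsK CE1690.D CE1690.SW 90900 99990 = true := by decide +kernel
theorem hinvO_14 : O.invsK CE1690.D CE1690.SW 127260 136350 = true := by decide +kernel
theorem hinvO_18 : O.invsK CE1690.D CE1690.SW 163620 172710 = true := by decide +kernel
theorem hinvO_22 : O.invsK CE1690.D CE1690.SW 199980 209070 = true := by decide +kernel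
theorem hinvO_26 : O.invsK CE1690.D CE1690.SW 236340 245430 = true := by decide +kernel
theorem hinvO_30 : O.invsK CE1690.D CE1690.SW 272700 281790 = true := by decide +kernel
theorem hinvO_33 : O.invsK CE1690.D CE1690.SW 299970 306936 = true := by decide +kernel
theorem hlabk_4 : allRange 240000 300000 (O.labK 3) = true := by decide +kernel
theorem hpc_0_5 : allRange 300000 306936 (O.pcK 0) = true := by decide +kernel
theorem hpc_2_5 : allRange 300000 306936 (O.pcK 2) = true := by decide +kernel
theorem hpc3_5 : allRange 300000 306936 (OL3.pcK 1) = true := by decide +kernel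

end Cfsg.Agent.Lib.helper9.CE1698p
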