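import Cfsg.Agent.Lib.helper9.CE1698pD

set_option autoImplicit false

namespace Cfsg.Agent.Lib.helper9.CE1698p
open Cfsg.Agent.Lib.helper9 Cfsg.Agent.Lib.helper9.CE
open Cfsg.Spor.Fi24 (Gen)

theorem horb3_5 : allRange 93884 103523 (OL3.orb2K CE1690.D LW3) = true := by decide +kernel
theorem horb3_19 : allRange 213785 220575 (OL3.orb2K CE1690.D LW3) = true := by decide +kernel
theorem horb3_14 : allRange 175689 183744 (OL3.orb2K CE1690.D LW3) = true := by decide +kernel
theorem horb3_13 : allRange 167103 175689 (OL3.orb2K CE1690.D LW3) = true := by decide +kernel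
theorem horb3_8 : allRange 123161 133352 (OL3.orb2K CE1690.D LW3) = true := by decide +kernel
theorem horb3_1 : allRange 29857 49717 (OL3.orb2K CE1690.D LW3) = true := by decide +kernel
theorem horb3_28 : allRange 284553 293628 (OL3.orb2K CE1690.D LW3) = true := by decide +kernel
theorem horb0_2 : allRange 85716 128574 (OL0.orb2K CE1690.D LW0) = true := by decide +kernel
theorem horb0_6 : allRange 257148 300006 (OL0.orb2K CE1690.D LW0) = true := by decide +kernel
theorem horb3_16 : allRange 190942 198805 (OL3.orb2K CE1690.D LW3) = true := by decide +kernel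
theorem horb1_0 : allRange 0 51571 (OL1.orb2K CE1690.D LW1) = true := by decide +kernel
theorem horb3_10 : allRange 142164 151036 (OL3.orb2K CE1690.D LW3) = true := by decide +kernel
theorem horbO_1 : allRange 40000 80000 (O.orbK CE1690.D CE1690.SW) = true := by decide +kernel
theorem horbO_5 : allRange 200000 240000 (O.orbK CE1690.D CE1690.SW) = true := by decide +kernel
theorem horb3_30 : allRange 301437 306936 (OL3.orb2K CE1690.D LW3) = true := by decide +kernel
theorem hpc_0_2 : allRange 120000 180000 (O.pcK 0) = true := by decide +kernel
theorem hpc_1_1 : allRange 60000 120000 (O.pcK 1) = true := by decide +kernel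
theorem hpc_2_0 : allRange 0 60000 (O.pcK 2) = true := by decide +kernel
theorem hpc_2_4 : allRange 240000 300000 (O.pcK 2) = true := by decide +kernel
theorem hpc0_3 : allRange 180000 240000 (OL0.pcK 1) = true := by decide +kernel
theorem hpc1_2 : allRange 120000 180000 (OL1.pcK 1) = true := by decide +kernel
theorem hpc2_1 : allRange 60000 120000 (OL2.pcK 1) = true := by decide +kernel
theorem hpc3_0 : allRange 0 60000 (OL3.pcK 1) = true := by decide +kernel
theorem hpc3_4 : allRange 240000 300000 (OL3.pcK 1) = true := by decide +kernel
theorem hpc4_3 : allRange 180000 240000 (OL4.pcK 1) = true := by decide +kernel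
theorem horb4_3 : allRange 174581 234581 (OL4.orb2K CE1690.D LW4) = true := by decide +kernel
theorem hinvO_1 : O.invsK CE1690.D CE1690.SW 9090 18180 = true := by decide +kernel
theorem hinvO_5 : O.invsK CE1690.D CE1690.SW 45450 54540 = true := by decide +kernel
theorem hinvO_9 : O.invsK CE1690.D CE1690.SW 81810 90900 = true := by decide +kernel
theorem hinvO_13 : O.invsK CE1690.D CE1690.SW 118170 127260 = true := by decide +kernel
theorem hinvO_17 : O.invsK CE1690.D CE1690.SW 154530 163620 = true := by decide +kernel
theorem hinvO_21 : O.invsK CE1690.D CE1690.SW 190890 199980 = true := by decide +kernel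
theorem hinvO_25 : O.invsK CE1690.D CE1690.SW 227250 236340 = true := by decide +kernel
theorem hinvO_29 : O.invsK CE1690.D CE1690.SW 263610 272700 = true := by decide +kernel
theorem horb4_4 : allRange 234581 294581 (OL4.orb2K CE1690.D LW4) = true := by decide +kernel
theorem horb0_7 : allRange 300006 306936 (OL0.orb2K CE1690.D LW0) = true := by decide +kernel
theorem hpc_1_5 : allRange 300000 306936 (O.pcK 1) = true := by decide +kernel
theorem hpc0_5 : allRange 300000 306936 (OL0.pcK 1) = true := by decide +kernel
theorem hpc4_5 : allRange 300000 306936 (OL4.pcK 1) = true := by decide +kernel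

end Cfsg.Agent.Lib.helper9.CE1698p
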