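import Cfsg.Agent.Lib.helper9.CE1698qD

set_option autoImplicit false

namespace Cfsg.Agent.Lib.helper9.CE1698q
open Cfsg.Agent.Lib.helper9 Cfsg.Agent.Lib.helper9.CE
open Cfsg.Spor.Fi24 (Gen)

theorem hfact_0 : allRange 0 20000 (D.factK WT) = true := by decide +kernel
theorem hfact_7 : allRange 140000 160000 (D.factK WT) = true := by decide +kernel
theorem hfact_6 : allRange 120000 140000 (D.factK WT) = true := by decide +kernel
theorem hfact_14 : allRange 280000 300000 (D.factK WT) = true := by decide +kernel
theorem hfact_5 : allRange 100000 120000 (D.factK WT) = true := by decide +kernel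
theorem hfact_2 : allRange 40000 60000 (D.factK WT) = true := by decide +kernel
theorem hfact_11 : allRange 220000 240000 (D.factK WT) = true := by decide +kernel
theorem hfact_17 : allRange 340000 360000 (D.factK WT) = true := by decide +kernel
theorem hfact_22 : allRange 440000 460000 (D.factK WT) = true := by decide +kernel
theorem hfact_25 : allRange 500000 520000 (D.factK WT) = true := by decide +kernel
theorem hfact_24 : allRange 480000 500000 (D.factK WT) = true := by decide +kernel
theorem hfact_23 : allRange 460000 480000 (D.factK WT) = true := by decide +kernel
theorem hfact_18 : allRange 360000 380000 (D.factK WT) = true := by decide +kernel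
theorem hfact_12 : allRange 240000 260000 (D.factK WT) = true := by decide +kernel
theorem hrel_0 : D.relsK RL 0 1388 = true := by decide +kernel
theorem hrel_1 : D.relsK RL 1388 2776 = true := by decide +kernel
theorem hrel_3 : D.relsK RL 4164 5552 = true := by decide +kernel
theorem hrel_5 : D.relsK RL 6940 8328 = true := by decide +kernel
theorem hrel_7 : D.relsK RL 9716 11104 = true := by decide +kernel
theorem hrel_9 : D.relsK RL 12492 13880 = true := by decide +kernel
theorem hrel_11 : D.relsK RL 15268 16656 = true := by decide +kernel
theorem hrel_13 : D.relsK RL 18044 19432 = true := by decide +kernel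
theorem hrel_15 : D.relsK RL 20820 22208 = true := by decide +kernel
theorem hrel_17 : D.relsK RL 23596 24984 = true := by decide +kernel
theorem hrel_19 : D.relsK RL 26372 27760 = true := by decide +kernel
theorem htree_0 : allRange 1 40001 D.treeK = true := by decide +kernel
theorem htree_2 : allRange 80001 120001 D.treeK = true := by decide +kernel
theorem hperm_k : allRange 0 28431 (D.permK Gen.k) = true := by decide +kernel
theorem hperm_b : allRange 0 28431 (D.permK Gen.b) = true := by decide +kernel
theorem hperm_d : allRange 0 28431 (D.permK Gen.d) = true := by decide +kernel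
theorem hperm_f : allRange 0 28431 (D.permK Gen.f) = true := by decide +kernel
theorem hperm_j : allRange 0 28431 (D.permK Gen.j) = true := by decide +kernel
theorem hperm_i : allRange 0 28431 (D.permK Gen.i) = true := by decide +kernel
theorem hfin_k : allRange 0 28431 (D.finK Gen.k) = true := by decide +kernel
theorem hfin_b : allRange 0 28431 (D.finK Gen.b) = true := by decide +kernel
theorem hfin_d : allRange 0 28431 (D.finK Gen.d) = true := by decide +kernel
theorem hfin_f : allRange 0 28431 (D.finK Gen.f) = true := by decide +kernel
theorem hfin_j : allRange 0 28431 (D.finK Gen.j) = true := by decide +kernel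
theorem hfin_i : allRange 0 28431 (D.finK Gen.i) = true := by decide +kernel

end Cfsg.Agent.Lib.helper9.CE1698q
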