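import Cfsg.Agent.Lib.helper9.CE1698qD

set_option autoImplicit false

namespace Cfsg.Agent.Lib.helper9.CE1698q
open Cfsg.Agent.Lib.helper9 Cfsg.Agent.Lib.helper9.CE
open Cfsg.Spor.Fi24 (Gen)

theorem hfact_1 : allRange 20000 40000 (D.factK WT) = true := by decide +kernel
theorem hfact_3 : allRange 60000 80000 (D.factK WT) = true := by decide +kernel
theorem hfact_4 : allRange 80000 100000 (D.factK WT) = true := by decide +kernel
theorem hfact_10 : allRange 200000 220000 (D.factK WT) = true := by decide +kernel
theorem hfact_9 : allRange 180000 200000 (D.factK WT) = true := by decide +kernel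
theorem hfact_19 : allRange 380000 400000 (D.factK WT) = true := by decide +kernel
theorem hfact_8 : allRange 160000 180000 (D.factK WT) = true := by decide +kernel
theorem hfact_15 : allRange 300000 320000 (D.factK WT) = true := by decide +kernel
theorem hfact_16 : allRange 320000 340000 (D.factK WT) = true := by decide +kernel
theorem hfact_20 : allRange 400000 420000 (D.factK WT) = true := by decide +kernel
theorem hfact_27 : allRange 540000 560000 (D.factK WT) = true := by decide +kernel
theorem hfact_26 : allRange 520000 540000 (D.factK WT) = true := by decide +kernel
theorem hfact_21 : allRange 420000 440000 (D.factK WT) = true := by decide +kernel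
theorem hfact_13 : allRange 260000 280000 (D.factK WT) = true := by decide +kernel
theorem hfact_28 : allRange 560000 573887 (D.factK WT) = true := by decide +kernel
theorem hrel_2 : D.relsK RL 2776 4164 = true := by decide +kernel
theorem hrel_4 : D.relsK RL 5552 6940 = true := by decide +kernel
theorem hrel_6 : D.relsK RL 8328 9716 = true := by decide +kernel
theorem hrel_8 : D.relsK RL 11104 12492 = true := by decide +kernel
theorem hrel_10 : D.relsK RL 13880 15268 = true := by decide +kernel
theorem hrel_12 : D.relsK RL 16656 18044 = true := by decide +kernel
theorem hrel_14 : D.relsK RL 19432 20820 = true := by decide +kernel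
theorem hrel_16 : D.relsK RL 22208 23596 = true := by decide +kernel
theorem hrel_18 : D.relsK RL 24984 26372 = true := by decide +kernel
theorem hrel_20 : D.relsK RL 27760 28431 = true := by decide +kernel
theorem htree_1 : allRange 40001 80001 D.treeK = true := by decide +kernel
theorem hperm_l : allRange 0 28431 (D.permK Gen.l) = true := by decide +kernel
theorem hperm_a : allRange 0 28431 (D.permK Gen.a) = true := by decide +kernel
theorem hperm_c : allRange 0 28431 (D.permK Gen.c) = true := by decide +kernel
theorem hperm_e : allRange 0 28431 (D.permK Gen.e) = true := by decide +kernel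
theorem hperm_g : allRange 0 28431 (D.permK Gen.g) = true := by decide +kernel
theorem hperm_h : allRange 0 28431 (D.permK Gen.h) = true := by decide +kernel
theorem hfin_l : allRange 0 28431 (D.finK Gen.l) = true := by decide +kernel
theorem hfin_a : allRange 0 28431 (D.finK Gen.a) = true := by decide +kernel
theorem hfin_c : allRange 0 28431 (D.finK Gen.c) = true := by decide +kernel
theorem hfin_e : allRange 0 28431 (D.finK Gen.e) = true := by decide +kernel
theorem hfin_g : allRange 0 28431 (D.finK Gen.g) = true := by decide +kernel
theorem hfin_h : allRange 0 28431 (D.finK Gen.h) = true := by decide +kernel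
theorem hrnK : allRange 0 28431 D.rnK = true := by decide +kernel
theorem htree_3 : allRange 120001 124238 D.treeK = true := by decide +kernel
theorem hsubK : D.subK (genW TL) = true := by decide +kernel
theorem hpi0 : D.pi 0 = 0 := by decide +kernel
theorem hrn0 : D.rn 0 = 0 := by decide +kernel

end Cfsg.Agent.Lib.helper9.CE1698q
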