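import Cfsg.Agent.Lib.helper9.CE1698s1D

set_option autoImplicit false

namespace Cfsg.Agent.Lib.helper9.CE1698s1
open Cfsg.Agent.Lib.helper9 Cfsg.Agent.Lib.helper9.CE
open Cfsg.Spor.Fi24 (Gen)

theorem hfact_0 : allRange 0 20000 (D.factK WT) = true := by decide +kernel
theorem hfact_16 : allRange 320000 340000 (D.factK WT) = true := by decide +kernel
theorem hfact_9 : allRange 180000 200000 (D.factK WT) = true := by decide +kernel
theorem hfact_18 : allRange 360000 380000 (D.factK WT) = true := by decide +kernel
theorem hfact_14 : allRange 280000 300000 (D.factK WT) = true := by decide +kernel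
theorem hfact_24 : allRange 480000 500000 (D.factK WT) = true := by decide +kernel
theorem hfact_22 : allRange 440000 460000 (D.factK WT) = true := by decide +kernel
theorem hfact_23 : allRange 460000 480000 (D.factK WT) = true := by decide +kernel
theorem hfact_11 : allRange 220000 240000 (D.factK WT) = true := by decide +kernel
theorem hfact_27 : allRange 540000 547122 (D.factK WT) = true := by decide +kernel
theorem hrel_3 : D.relsK RL 2877 3836 = true := by decide +kernel
theorem hrel_6 : D.relsK RL 5754 6713 = true := by decide +kernel
theorem hrel_9 : D.relsK RL 8631 9590 = true := by decide +kernel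
theorem hrel_12 : D.relsK RL 11508 12467 = true := by decide +kernel
theorem hrel_15 : D.relsK RL 14385 15344 = true := by decide +kernel
theorem hrel_18 : D.relsK RL 17262 18221 = true := by decide +kernel
theorem hrel_21 : D.relsK RL 20139 21098 = true := by decide +kernel
theorem hrel_24 : D.relsK RL 23016 23975 = true := by decide +kernel
theorem hrel_27 : D.relsK RL 25893 26852 = true := by decide +kernel
theorem hrel_30 : D.relsK RL 28770 29729 = true := by decide +kernel
theorem hperm_l : allRange 0 31671 (D.permK Gen.l) = true := by decide +kernel
theorem hperm_k : allRange 0 31671 (D.permK Gen.k) = true := by decide +kernel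
theorem hperm_b : allRange 0 31671 (D.permK Gen.b) = true := by decide +kernel
theorem hperm_d : allRange 0 31671 (D.permK Gen.d) = true := by decide +kernel
theorem hperm_g : allRange 0 31671 (D.permK Gen.g) = true := by decide +kernel
theorem hperm_i : allRange 0 31671 (D.permK Gen.i) = true := by decide +kernel
theorem hfin_a : allRange 0 31671 (D.finK Gen.a) = true := by decide +kernel
theorem hfin_d : allRange 0 31671 (D.finK Gen.d) = true := by decide +kernel
theorem hfin_g : allRange 0 31671 (D.finK Gen.g) = true := by decide +kernel
theorem hfin_i : allRange 0 31671 (D.finK Gen.i) = true := by decide +kernel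
theorem htree_2 : allRange 80001 116493 D.treeK = true := by decide +kernel

end Cfsg.Agent.Lib.helper9.CE1698s1
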