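import Cfsg.Agent.Lib.helper9.CE1698s1D

set_option autoImplicit false

namespace Cfsg.Agent.Lib.helper9.CE1698s1
open Cfsg.Agent.Lib.helper9 Cfsg.Agent.Lib.helper9.CE
open Cfsg.Spor.Fi24 (Gen)

theorem hfact_1 : allRange 20000 40000 (D.factK WT) = true := by decide +kernel
theorem hfact_2 : allRange 40000 60000 (D.factK WT) = true := by decide +kernel
theorem hfact_5 : allRange 100000 120000 (D.factK WT) = true := by decide +kernel
theorem hfact_4 : allRange 80000 100000 (D.factK WT) = true := by decide +kernel
theorem hfact_6 : allRange 120000 140000 (D.factK WT) = true := by decide +kernel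
theorem hfact_8 : allRange 160000 180000 (D.factK WT) = true := by decide +kernel
theorem hfact_26 : allRange 520000 540000 (D.factK WT) = true := by decide +kernel
theorem hfact_17 : allRange 340000 360000 (D.factK WT) = true := by decide +kernel
theorem hfact_12 : allRange 240000 260000 (D.factK WT) = true := by decide +kernel
theorem hrel_0 : D.relsK RL 0 959 = true := by decide +kernel
theorem hrel_2 : D.relsK RL 1918 2877 = true := by decide +kernel
theorem hrel_5 : D.relsK RL 4795 5754 = true := by decide +kernel
theorem hrel_8 : D.relsK RL 7672 8631 = true := by decide +kernel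
theorem hrel_11 : D.relsK RL 10549 11508 = true := by decide +kernel
theorem hrel_14 : D.relsK RL 13426 14385 = true := by decide +kernel
theorem hrel_17 : D.relsK RL 16303 17262 = true := by decide +kernel
theorem hrel_20 : D.relsK RL 19180 20139 = true := by decide +kernel
theorem hrel_23 : D.relsK RL 22057 23016 = true := by decide +kernel
theorem hrel_26 : D.relsK RL 24934 25893 = true := by decide +kernel
theorem hrel_29 : D.relsK RL 27811 28770 = true := by decide +kernel
theorem hrel_32 : D.relsK RL 30688 31647 = true := by decide +kernel
theorem hperm_e : allRange 0 31671 (D.permK Gen.e) = true := by decide +kernel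
theorem hperm_j : allRange 0 31671 (D.permK Gen.j) = true := by decide +kernel
theorem hfin_l : allRange 0 31671 (D.finK Gen.l) = true := by decide +kernel
theorem hfin_b : allRange 0 31671 (D.finK Gen.b) = true := by decide +kernel
theorem hfin_e : allRange 0 31671 (D.finK Gen.e) = true := by decide +kernel
theorem hfin_j : allRange 0 31671 (D.finK Gen.j) = true := by decide +kernel
theorem htree_0 : allRange 1 40001 D.treeK = true := by decide +kernel
theorem hrnK : allRange 0 31671 D.rnK = true := by decide +kernel

end Cfsg.Agent.Lib.helper9.CE1698s1
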