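import Cfsg.Agent.Lib.helper9.CE1698s1D

set_option autoImplicit false

namespace Cfsg.Agent.Lib.helper9.CE1698s1
open Cfsg.Agent.Lib.helper9 Cfsg.Agent.Lib.helper9.CE
open Cfsg.Spor.Fi24 (Gen)

theorem hfact_13 : allRange 260000 280000 (D.factK WT) = true := by decide +kernel
theorem hfact_3 : allRange 60000 80000 (D.factK WT) = true := by decide +kernel
theorem hfact_15 : allRange 300000 320000 (D.factK WT) = true := by decide +kernel
theorem hfact_19 : allRange 380000 400000 (D.factK WT) = true := by decide +kernel
theorem hfact_20 : allRange 400000 420000 (D.factK WT) = true := by decide +kernel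
theorem hfact_25 : allRange 500000 520000 (D.factK WT) = true := by decide +kernel
theorem hfact_7 : allRange 140000 160000 (D.factK WT) = true := by decide +kernel
theorem hfact_21 : allRange 420000 440000 (D.factK WT) = true := by decide +kernel
theorem hfact_10 : allRange 200000 220000 (D.factK WT) = true := by decide +kernel
theorem hrel_1 : D.relsK RL 959 1918 = true := by decide +kernel
theorem hrel_4 : D.relsK RL 3836 4795 = true := by decide +kernel
theorem hrel_7 : D.relsK RL 6713 7672 = true := by decide +kernel
theorem hrel_10 : D.relsK RL 9590 10549 = true := by decide +kernel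
theorem hrel_13 : D.relsK RL 12467 13426 = true := by decide +kernel
theorem hrel_16 : D.relsK RL 15344 16303 = true := by decide +kernel
theorem hrel_19 : D.relsK RL 18221 19180 = true := by decide +kernel
theorem hrel_22 : D.relsK RL 21098 22057 = true := by decide +kernel
theorem hrel_25 : D.relsK RL 23975 24934 = true := by decide +kernel
theorem hrel_28 : D.relsK RL 26852 27811 = true := by decide +kernel
theorem hrel_31 : D.relsK RL 29729 30688 = true := by decide +kernel
theorem hperm_a : allRange 0 31671 (D.permK Gen.a) = true := by decide +kernel
theorem hperm_c : allRange 0 31671 (D.permK Gen.c) = true := by decide +kernel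
theorem hperm_f : allRange 0 31671 (D.permK Gen.f) = true := by decide +kernel
theorem hperm_h : allRange 0 31671 (D.permK Gen.h) = true := by decide +kernel
theorem hfin_k : allRange 0 31671 (D.finK Gen.k) = true := by decide +kernel
theorem hfin_c : allRange 0 31671 (D.finK Gen.c) = true := by decide +kernel
theorem hfin_f : allRange 0 31671 (D.finK Gen.f) = true := by decide +kernel
theorem hfin_h : allRange 0 31671 (D.finK Gen.h) = true := by decide +kernel
theorem htree_1 : allRange 40001 80001 D.treeK = true := by decide +kernel
theorem hrel_33 : D.relsK RL 31647 31671 = true := by decide +kernel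
theorem hsubK : D.subK (genW TL) = true := by decide +kernel
theorem hpi0 : D.pi 0 = 0 := by decide +kernel
theorem hrn0 : D.rn 0 = 0 := by decide +kernel

end Cfsg.Agent.Lib.helper9.CE1698s1
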