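import Cfsg.Agent.Lib.helper9.CE1698s2D

set_option autoImplicit false

namespace Cfsg.Agent.Lib.helper9.CE1698s2
open Cfsg.Agent.Lib.helper9 Cfsg.Agent.Lib.helper9.CE
open Cfsg.Spor.Fi24 (Gen)

theorem hfact_0 : allRange 0 20000 (D.factK WT) = true := by decide +kernel
theorem hfact_3 : allRange 60000 80000 (D.factK WT) = true := by decide +kernel
theorem hfact_4 : allRange 80000 100000 (D.factK WT) = true := by decide +kernel
theorem hfact_18 : allRange 360000 380000 (D.factK WT) = true := by decide +kernel
theorem hfact_26 : allRange 520000 540000 (D.factK WT) = true := by decide +kernel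
theorem hfact_24 : allRange 480000 500000 (D.factK WT) = true := by decide +kernel
theorem hfact_14 : allRange 280000 300000 (D.factK WT) = true := by decide +kernel
theorem hfact_20 : allRange 400000 420000 (D.factK WT) = true := by decide +kernel
theorem hfact_8 : allRange 160000 180000 (D.factK WT) = true := by decide +kernel
theorem hrel_0 : D.relsK RL 0 1063 = true := by decide +kernel
theorem hrel_3 : D.relsK RL 3189 4252 = true := by decide +kernel
theorem hrel_6 : D.relsK RL 6378 7441 = true := by decide +kernel
theorem hrel_9 : D.relsK RL 9567 10630 = true := by decide +kernel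
theorem hrel_12 : D.relsK RL 12756 13819 = true := by decide +kernel
theorem hrel_15 : D.relsK RL 15945 17008 = true := by decide +kernel
theorem hrel_18 : D.relsK RL 19134 20197 = true := by decide +kernel
theorem hrel_21 : D.relsK RL 22323 23386 = true := by decide +kernel
theorem hrel_24 : D.relsK RL 25512 26575 = true := by decide +kernel
theorem htree_1 : allRange 40001 80001 D.treeK = true := by decide +kernel
theorem hperm_l : allRange 0 28160 (D.permK Gen.l) = true := by decide +kernel
theorem hperm_b : allRange 0 28160 (D.permK Gen.b) = true := by decide +kernel
theorem hperm_e : allRange 0 28160 (D.permK Gen.e) = true := by decide +kernel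
theorem hperm_j : allRange 0 28160 (D.permK Gen.j) = true := by decide +kernel
theorem hfin_l : allRange 0 28160 (D.finK Gen.l) = true := by decide +kernel
theorem hfin_b : allRange 0 28160 (D.finK Gen.b) = true := by decide +kernel
theorem hfin_e : allRange 0 28160 (D.finK Gen.e) = true := by decide +kernel
theorem hfin_j : allRange 0 28160 (D.finK Gen.j) = true := by decide +kernel
theorem hfact_27 : allRange 540000 541794 (D.factK WT) = true := by decide +kernel

end Cfsg.Agent.Lib.helper9.CE1698s2
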