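import Cfsg.Agent.Lib.helper9.CE1698s2D

set_option autoImplicit false

namespace Cfsg.Agent.Lib.helper9.CE1698s2
open Cfsg.Agent.Lib.helper9 Cfsg.Agent.Lib.helper9.CE
open Cfsg.Spor.Fi24 (Gen)

theorem hfact_11 : allRange 220000 240000 (D.factK WT) = true := by decide +kernel
theorem hfact_2 : allRange 40000 60000 (D.factK WT) = true := by decide +kernel
theorem hfact_7 : allRange 140000 160000 (D.factK WT) = true := by decide +kernel
theorem hfact_5 : allRange 100000 120000 (D.factK WT) = true := by decide +kernel
theorem hfact_6 : allRange 120000 140000 (D.factK WT) = true := by decide +kernel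
theorem hfact_21 : allRange 420000 440000 (D.factK WT) = true := by decide +kernel
theorem hfact_19 : allRange 380000 400000 (D.factK WT) = true := by decide +kernel
theorem hfact_12 : allRange 240000 260000 (D.factK WT) = true := by decide +kernel
theorem hfact_23 : allRange 460000 480000 (D.factK WT) = true := by decide +kernel
theorem hrel_2 : D.relsK RL 2126 3189 = true := by decide +kernel
theorem hrel_5 : D.relsK RL 5315 6378 = true := by decide +kernel
theorem hrel_8 : D.relsK RL 8504 9567 = true := by decide +kernel
theorem hrel_11 : D.relsK RL 11693 12756 = true := by decide +kernel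
theorem hrel_14 : D.relsK RL 14882 15945 = true := by decide +kernel
theorem hrel_17 : D.relsK RL 18071 19134 = true := by decide +kernel
theorem hrel_20 : D.relsK RL 21260 22323 = true := by decide +kernel
theorem hrel_23 : D.relsK RL 24449 25512 = true := by decide +kernel
theorem hrel_26 : D.relsK RL 27638 28160 = true := by decide +kernel
theorem htree_0 : allRange 1 40001 D.treeK = true := by decide +kernel
theorem htree_2 : allRange 80001 120001 D.treeK = true := by decide +kernel
theorem hperm_a : allRange 0 28160 (D.permK Gen.a) = true := by decide +kernel
theorem hperm_d : allRange 0 28160 (D.permK Gen.d) = true := by decide +kernel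
theorem hperm_g : allRange 0 28160 (D.permK Gen.g) = true := by decide +kernel
theorem hperm_i : allRange 0 28160 (D.permK Gen.i) = true := by decide +kernel
theorem hfin_a : allRange 0 28160 (D.finK Gen.a) = true := by decide +kernel
theorem hfin_d : allRange 0 28160 (D.finK Gen.d) = true := by decide +kernel
theorem hfin_g : allRange 0 28160 (D.finK Gen.g) = true := by decide +kernel
theorem hfin_i : allRange 0 28160 (D.finK Gen.i) = true := by decide +kernel
theorem htree_3 : allRange 120001 121723 D.treeK = true := by decide +kernel
theorem hsubK : D.subK (genW TL) = true := by decide +kernel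
theorem hpi0 : D.pi 0 = 0 := by decide +kernel
theorem hrn0 : D.rn 0 = 0 := by decide +kernel

end Cfsg.Agent.Lib.helper9.CE1698s2
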