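import Cfsg.Agent.Lib.helper9.CE1698s2D

set_option autoImplicit false

namespace Cfsg.Agent.Lib.helper9.CE1698s2
open Cfsg.Agent.Lib.helper9 Cfsg.Agent.Lib.helper9.CE
open Cfsg.Spor.Fi24 (Gen)

theorem hfact_13 : allRange 260000 280000 (D.factK WT) = true := by decide +kernel
theorem hfact_1 : allRange 20000 40000 (D.factK WT) = true := by decide +kernel
theorem hfact_15 : allRange 300000 320000 (D.factK WT) = true := by decide +kernel
theorem hfact_9 : allRange 180000 200000 (D.factK WT) = true := by decide +kernel
theorem hfact_10 : allRange 200000 220000 (D.factK WT) = true := by decide +kernel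
theorem hfact_16 : allRange 320000 340000 (D.factK WT) = true := by decide +kernel
theorem hfact_22 : allRange 440000 460000 (D.factK WT) = true := by decide +kernel
theorem hfact_17 : allRange 340000 360000 (D.factK WT) = true := by decide +kernel
theorem hfact_25 : allRange 500000 520000 (D.factK WT) = true := by decide +kernel
theorem hrel_1 : D.relsK RL 1063 2126 = true := by decide +kernel
theorem hrel_4 : D.relsK RL 4252 5315 = true := by decide +kernel
theorem hrel_7 : D.relsK RL 7441 8504 = true := by decide +kernel
theorem hrel_10 : D.relsK RL 10630 11693 = true := by decide +kernel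
theorem hrel_13 : D.relsK RL 13819 14882 = true := by decide +kernel
theorem hrel_16 : D.relsK RL 17008 18071 = true := by decide +kernel
theorem hrel_19 : D.relsK RL 20197 21260 = true := by decide +kernel
theorem hrel_22 : D.relsK RL 23386 24449 = true := by decide +kernel
theorem hrel_25 : D.relsK RL 26575 27638 = true := by decide +kernel
theorem hperm_k : allRange 0 28160 (D.permK Gen.k) = true := by decide +kernel
theorem hperm_c : allRange 0 28160 (D.permK Gen.c) = true := by decide +kernel
theorem hperm_f : allRange 0 28160 (D.permK Gen.f) = true := by decide +kernel
theorem hperm_h : allRange 0 28160 (D.permK Gen.h) = true := by decide +kernel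
theorem hfin_k : allRange 0 28160 (D.finK Gen.k) = true := by decide +kernel
theorem hfin_c : allRange 0 28160 (D.finK Gen.c) = true := by decide +kernel
theorem hfin_f : allRange 0 28160 (D.finK Gen.f) = true := by decide +kernel
theorem hfin_h : allRange 0 28160 (D.finK Gen.h) = true := by decide +kernel
theorem hrnK : allRange 0 28160 D.rnK = true := by decide +kernel

end Cfsg.Agent.Lib.helper9.CE1698s2
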