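import Cfsg.Agent.Lib.helper9.CE1699pD

set_option autoImplicit false

namespace Cfsg.Agent.Lib.helper9.CE1699p
open Cfsg.Agent.Lib.helper9 Cfsg.Agent.Lib.helper9.CE
open Cfsg.Spor.ON (Gen)

theorem hpc_0 : allRange 0 122760 (O.pcK 0) = true := by decide +kernel
theorem hpc_3 : allRange 0 122760 (O.pcK 3) = true := by decide +kernel
theorem hpc1 : allRange 0 122760 (OL1.pcK 1) = true := by decide +kernel
theorem horb0_0 : allRange 0 42858 (OL0.orb2K CE1692.D LW0) = true := by decide +kernel
theorem horbO_2 : allRange 80000 120000 (O.orbK CE1692.D CE1692.SW) = true := by decide +kernel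
theorem hinvO_1 : O.invsK CE1692.D CE1692.SW 16666 33332 = true := by decide +kernel
theorem hinvO_4 : O.invsK CE1692.D CE1692.SW 66664 83330 = true := by decide +kernel
theorem horb2_0 : allRange 0 122760 (OL2.orb2K CE1692.D LW2) = true := by decide +kernel
theorem horbO_3 : allRange 120000 122760 (O.orbK CE1692.D CE1692.SW) = true := by decide +kernel
theorem hfix2 : fixK CE1692.D LW2 [1, 0] = true := by decide +kernel
theorem hfix1 : fixK CE1692.D LW1 [0] = true := by decide +kernel
theorem hnum : ∀ s ∈ (List.range 5).sublists, 0 ∈ s → (s.map (fun c => ([1, 58653, 52136, 5586, 6384] : List Nat).getD c 0)).sum ∣ CE1692.D.n → s = [0] ∨ s = List.range 5 := by decide +kernel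
theorem hYp : Yp = (List.replicate 5 Yw).flatten := by decide +kernel
theorem hYrel : Yp ∈ CE1692.RW := by decide +kernel
theorem hpcz_0 : O.pc 0 0 = 0 := by decide +kernel
theorem hpcn_0 : O.pc 0 122760 = 1 := by decide +kernel
theorem hpcz_1 : O.pc 1 0 = 0 := by decide +kernel
theorem hpcn_1 : O.pc 1 122760 = 58653 := by decide +kernel
theorem hpcz_2 : O.pc 2 0 = 0 := by decide +kernel
theorem hpcn_2 : O.pc 2 122760 = 52136 := by decide +kernel
theorem hpcz_3 : O.pc 3 0 = 0 := by decide +kernel
theorem hpcn_3 : O.pc 3 122760 = 5586 := by decide +kernel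
theorem hpcz_4 : O.pc 4 0 = 0 := by decide +kernel
theorem hpcn_4 : O.pc 4 122760 = 6384 := by decide +kernel
theorem hlab0 : O.lab 0 = 0 := by decide +kernel
theorem hrootO : O.root 0 = 0 := by decide +kernel
theorem hfix0 : fixK CE1692.D LW0 [] = true := by decide +kernel
theorem hpcz0 : OL0.pc 1 0 = 0 := by decide +kernel
theorem hpcn0 : OL0.pc 1 122760 = 122760 := by decide +kernel
theorem hroot0 : OL0.root 1 = 0 := by decide +kernel
theorem hpcz1 : OL1.pc 1 0 = 0 := by decide +kernel
theorem hpcn1 : OL1.pc 1 122760 = 58653 := by decide +kernel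
theorem hroot1 : OL1.root 1 = 1 := by decide +kernel
theorem hpcz2 : OL2.pc 1 0 = 0 := by decide +kernel
theorem hpcn2 : OL2.pc 1 122760 = 64 := by decide +kernel
theorem hroot2 : OL2.root 1 = 31 := by decide +kernel

end Cfsg.Agent.Lib.helper9.CE1699p
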