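import Cfsg.Agent.Lib.helper9.CE1699pD

set_option autoImplicit false

namespace Cfsg.Agent.Lib.helper9.CE1699p
open Cfsg.Agent.Lib.helper9 Cfsg.Agent.Lib.helper9.CE
open Cfsg.Spor.ON (Gen)

theorem hpc_1 : allRange 0 122760 (O.pcK 1) = true := by decide +kernel
theorem hpc_4 : allRange 0 122760 (O.pcK 4) = true := by decide +kernel
theorem hpc2 : allRange 0 122760 (OL2.pcK 1) = true := by decide +kernel
theorem horb0_2 : allRange 85716 122760 (OL0.orb2K CE1692.D LW0) = true := by decide +kernel
theorem horbO_1 : allRange 40000 80000 (O.orbK CE1692.D CE1692.SW) = true := by decide +kernel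
theorem hinvO_0 : O.invsK CE1692.D CE1692.SW 0 16666 = true := by decide +kernel
theorem hinvO_2 : O.invsK CE1692.D CE1692.SW 33332 49998 = true := by decide +kernel
theorem hinvO_5 : O.invsK CE1692.D CE1692.SW 83330 99996 = true := by decide +kernel
theorem hlabk : allRange 0 122760 (O.labK 5) = true := by decide +kernel

end Cfsg.Agent.Lib.helper9.CE1699p
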