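import Cfsg.Agent.Lib.helper9.CE1699pD

set_option autoImplicit false

namespace Cfsg.Agent.Lib.helper9.CE1699p
open Cfsg.Agent.Lib.helper9 Cfsg.Agent.Lib.helper9.CE
open Cfsg.Spor.ON (Gen)

theorem hpc_2 : allRange 0 122760 (O.pcK 2) = true := by decide +kernel
theorem hpc0 : allRange 0 122760 (OL0.pcK 1) = true := by decide +kernel
theorem horb0_1 : allRange 42858 85716 (OL0.orb2K CE1692.D LW0) = true := by decide +kernel
theorem horb1_0 : allRange 0 81263 (OL1.orb2K CE1692.D LW1) = true := by decide +kernel
theorem horbO_0 : allRange 0 40000 (O.orbK CE1692.D CE1692.SW) = true := by decide +kernel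
theorem horb1_1 : allRange 81263 122760 (OL1.orb2K CE1692.D LW1) = true := by decide +kernel
theorem hinvO_3 : O.invsK CE1692.D CE1692.SW 49998 66664 = true := by decide +kernel
theorem hinvO_6 : O.invsK CE1692.D CE1692.SW 99996 116662 = true := by decide +kernel
theorem hinvO_7 : O.invsK CE1692.D CE1692.SW 116662 122760 = true := by decide +kernel

end Cfsg.Agent.Lib.helper9.CE1699p
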