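import Cfsg.Agent.Lib.helper9.CE1699s1D

set_option autoImplicit false

namespace Cfsg.Agent.Lib.helper9.CE1699s1
open Cfsg.Agent.Lib.helper9 Cfsg.Agent.Lib.helper9.CE
open Cfsg.Spor.ON (Gen)

theorem hfact_2 : allRange 40000 55910 (D.factK WT) = true := by decide +kernel
theorem hrel_0 : D.relsK RL 0 3809 = true := by decide +kernel
theorem hfin_a : allRange 0 5586 (D.finK Gen.a) = true := by decide +kernel
theorem hfin_d : allRange 0 5586 (D.finK Gen.d) = true := by decide +kernel
theorem hrnK : allRange 0 5586 D.rnK = true := by decide +kernel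
theorem hsubK : D.subK (genW TL) = true := by decide +kernel
theorem hpi0 : D.pi 0 = 0 := by decide +kernel
theorem hrn0 : D.rn 0 = 0 := by decide +kernel

end Cfsg.Agent.Lib.helper9.CE1699s1
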