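import Mathlib
import Cfsg.Agent.Lib.helper9.CosetSimple

/-! A group generated by elements that satisfy the relators of a presented simple group up to the
powers of a central element of order three it contains: its centre is of order three, and the
quotient by the centre is the simple group. -/

set_option autoImplicit false

namespace Cfsg.Agent.Lib.helper9.CV

open Cfsg.Agent.Lib.helper9.CE

/-- a homomorphism from a simple group that does not kill an element is injective -/
theorem inj_of_simple_hom {P G : Type*} [Group P] [Group G] (hs : IsSimpleGroup P) (ψ : P →* G)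
    (x : P) (hx : ψ x ≠ 1) : Function.Injective ψ := by
  have hker : ψ.ker = ⊥ := by
    rcases hs.eq_bot_or_eq_top_of_normal ψ.ker (MonoidHom.normal_ker ψ) with h | h
    · exact h
    · exfalso
      apply hx
      have : x ∈ ψ.ker := by rw [h]; exact Subgroup.mem_top x
      exact MonoidHom.mem_ker.mp this
  exact (MonoidHom.ker_eq_bot_iff ψ).mp hker

/-- a finite simple group that is not of prime order is not commutative -/
theorem exists_not_commute {P : Type*} [Group P] [Finite P] (hs : IsSimpleGroup P)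
    (hNp : ¬ (Nat.card P).Prime) : ∃ a b : P, a * b ≠ b * a := by
  by_contra hcon
  push Not at hcon
  letI : CommGroup P := { (inferInstance : Group P) with mul_comm := hcon }
  exact hNp (IsSimpleGroup.prime_card (α := P))

theorem center_of_cover {G : Type*} [Group G] {α : Type} (R : List (Word α))
    (hs : IsSimpleGroup (PresentedGroup (relSet R))) [Finite (PresentedGroup (relSet R))]
    (N : ℕ) (hN : Nat.card (PresentedGroup (relSet R)) = N) (hNp : ¬ N.Prime)
    (s : α → G) (z : G) (hzc : ∀ g : G, g * z = z * g) (hz3 : orderOf z = 3)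
    (H : Subgroup G) (hH : H = Subgroup.closure (Set.range s)) (hzH : z ∈ H)
    (hrel : ∀ L ∈ R, FreeGroup.lift s (FreeGroup.mk L) ∈ Subgroup.zpowers z)
    (x0 : α) (hx0 : s x0 ∉ Subgroup.zpowers z) :
    Nat.card (Subgroup.center H) = 3 ∧ IsSimpleGroup (H ⧸ Subgroup.center H) ∧
      Nat.card (H ⧸ Subgroup.center H) = N := by
  have hsH : ∀ x, s x ∈ H := fun x => by
    rw [hH]
    exact Subgroup.subset_closure ⟨x, rfl⟩
  obtain ⟨Z, hZ⟩ : ∃ Z : Subgroup H, Z = (Subgroup.zpowers z).subgroupOf H := ⟨_, rfl⟩
  have hmemZ : ∀ h : H, h ∈ Z ↔ (h : G) ∈ Subgroup.zpowers z := fun h => by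
    rw [hZ]
    exact Subgroup.mem_subgroupOf
  have hZle : Z ≤ Subgroup.center H := by
    intro h hh
    obtain ⟨k, hk⟩ := Subgroup.mem_zpowers_iff.mp ((hmemZ h).mp hh)
    rw [Subgroup.mem_center_iff]
    intro g
    apply Subtype.ext
    show (g : G) * (h : G) = (h : G) * (g : G)
    rw [← hk]
    have hc : Commute (g : G) z := hzc g
    exact (hc.zpow_right k).eq
  haveI hZn : Z.Normal := by
    constructor
    intro h hh g
    have h1 := Subgroup.mem_center_iff.mp (hZle hh) g
    rw [h1, mul_inv_cancel_right]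
    exact hh
  have hlift : ∀ w : FreeGroup α,
      ((FreeGroup.lift (fun x => (⟨s x, hsH x⟩ : H)) w : H) : G) = FreeGroup.lift s w := by
    intro w
    have e : H.subtype.comp (FreeGroup.lift (fun x => (⟨s x, hsH x⟩ : H))) = FreeGroup.lift s := by
      ext x
      simp
    exact DFunLike.congr_fun e w
  have hf : ∀ r ∈ relSet R,
      FreeGroup.lift (fun x => (QuotientGroup.mk (⟨s x, hsH x⟩ : H) : H ⧸ Z)) r = 1 := by
    intro r hr
    obtain ⟨L, hL, rfl⟩ := hr
    have e : FreeGroup.lift (fun x => (QuotientGroup.mk (⟨s x, hsH x⟩ : H) : H ⧸ Z)) =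
        (QuotientGroup.mk' Z).comp (FreeGroup.lift (fun x => (⟨s x, hsH x⟩ : H))) := by
      ext x
      simp
    rw [e, MonoidHom.comp_apply, QuotientGroup.mk'_apply, QuotientGroup.eq_one_iff, hmemZ, hlift]
    exact hrel L hL
  obtain ⟨φ, hφ⟩ : ∃ φ : PresentedGroup (relSet R) →* H ⧸ Z,
      ∀ x, φ (PresentedGroup.of x) = QuotientGroup.mk (⟨s x, hsH x⟩ : H) :=
    ⟨PresentedGroup.toGroup hf, fun x => PresentedGroup.toGroup.of hf⟩
  have hne : φ (PresentedGroup.of x0) ≠ 1 := by
    rw [hφ]
    intro h
    rw [QuotientGroup.eq_one_iff, hmemZ] at h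
    exact hx0 h
  have hinj : Function.Injective φ := inj_of_simple_hom hs φ _ hne
  have key : ∀ g, g ∈ Subgroup.closure (Set.range s) → ∀ hg' : g ∈ H,
      (QuotientGroup.mk (⟨g, hg'⟩ : H) : H ⧸ Z) ∈ φ.range := by
    intro g hg
    induction hg using Subgroup.closure_induction with
    | mem y hy =>
      intro hg'
      obtain ⟨x, rfl⟩ := hy
      exact ⟨PresentedGroup.of x, hφ x⟩
    | one =>
      intro hg'
      exact φ.range.one_mem
    | mul a b ha hb iha ihb =>
      intro hg'
      have ha' : a ∈ H := by rw [hH]; exact ha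
      have hb' : b ∈ H := by rw [hH]; exact hb
      exact φ.range.mul_mem (iha ha') (ihb hb')
    | inv a ha iha =>
      intro hg'
      have ha' : a ∈ H := by rw [hH]; exact ha
      exact φ.range.inv_mem (iha ha')
  have hsurj : Function.Surjective φ := by
    intro q
    obtain ⟨h, rfl⟩ := QuotientGroup.mk_surjective q
    obtain ⟨g, hg⟩ := h
    exact key g (by rw [← hH]; exact hg) hg
  have hsQ : IsSimpleGroup (H ⧸ Z) :=
    (MulEquiv.isSimpleGroup_congr (MulEquiv.ofBijective φ ⟨hinj, hsurj⟩)).mp hs
  have hcardQ : Nat.card (H ⧸ Z) = N := by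
    rw [← hN]
    exact (Nat.card_congr (MulEquiv.ofBijective φ ⟨hinj, hsurj⟩).toEquiv).symm
  obtain ⟨a, b, hab⟩ := exists_not_commute hs (by rw [hN]; exact hNp)
  have hcen : Subgroup.center H = Z := by
    apply le_antisymm _ hZle
    intro h hh
    have hnorm : ((Subgroup.center H).map (QuotientGroup.mk' Z)).Normal :=
      Subgroup.Normal.map inferInstance _ (QuotientGroup.mk'_surjective Z)
    rcases hsQ.eq_bot_or_eq_top_of_normal _ hnorm with hb | ht
    · have h1 : (QuotientGroup.mk' Z) h ∈ (Subgroup.center H).map (QuotientGroup.mk' Z) :=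
        Subgroup.mem_map_of_mem _ hh
      rw [hb, Subgroup.mem_bot, QuotientGroup.mk'_apply, QuotientGroup.eq_one_iff] at h1
      exact h1
    · exfalso
      apply hab
      apply hinj
      rw [map_mul, map_mul]
      have ha : φ a ∈ (Subgroup.center H).map (QuotientGroup.mk' Z) := by
        rw [ht]
        exact Subgroup.mem_top _
      obtain ⟨ca, hca, hca'⟩ := Subgroup.mem_map.mp ha
      have hb' : φ b ∈ (Subgroup.center H).map (QuotientGroup.mk' Z) := by
        rw [ht]
        exact Subgroup.mem_top _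
      obtain ⟨cb, hcb, hcb'⟩ := Subgroup.mem_map.mp hb'
      rw [← hca', ← hcb', ← map_mul, ← map_mul, Subgroup.mem_center_iff.mp hca cb]
  have hcardZ : Nat.card Z = 3 := by
    have hle : Subgroup.zpowers z ≤ H := by
      rw [Subgroup.zpowers_le]
      exact hzH
    rw [hZ, Nat.card_congr (Subgroup.subgroupOfEquivOfLe hle).toEquiv, Nat.card_zpowers, hz3]
  refine ⟨by rw [hcen]; exact hcardZ, ?_, ?_⟩
  · exact (MulEquiv.isSimpleGroup_congr (QuotientGroup.quotientMulEquivOfEq hcen)).mpr hsQ
  · rw [Nat.card_congr (QuotientGroup.quotientMulEquivOfEq hcen).toEquiv]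
    exact hcardQ

end Cfsg.Agent.Lib.helper9.CV
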