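import Mathlib

/-!
# Simplicity of a subgroup of index 2

If every non-trivial normal subgroup of a finite group `G` has index at most 2, and `C` is a
subgroup of index 2 whose order is not a square, then `C` is simple.
-/

set_option autoImplicit false

namespace Cfsg.Agent.Lib.helper9.DerivedSimple

variable {G : Type*} [Group G]

/-- the conjugate of a subgroup -/
def cj (t : G) (K : Subgroup G) : Subgroup G := K.map (MulAut.conj t).toMonoidHom

theorem mem_cj {t : G} {K : Subgroup G} {x : G} : x ∈ cj t K ↔ ∃ h ∈ K, t * h * t⁻¹ = x := by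
  unfold cj
  rw [Subgroup.mem_map]
  rfl

theorem card_cj (t : G) (K : Subgroup G) : Nat.card (cj t K) = Nat.card K :=
  (Nat.card_congr ((MulAut.conj t).subgroupMap K).toEquiv).symm

/-- the product of two subgroups, the second normalizing the first -/
def prodSub (A B : Subgroup G) (hn : ∀ a ∈ A, ∀ b ∈ B, b * a * b⁻¹ ∈ A) : Subgroup G where
  carrier := {x | ∃ a ∈ A, ∃ b ∈ B, x = a * b}
  one_mem' := ⟨1, A.one_mem, 1, B.one_mem, (mul_one 1).symm⟩
  mul_mem' := by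
    rintro _ _ ⟨a, ha, b, hb, rfl⟩ ⟨a', ha', b', hb', rfl⟩
    refine ⟨a * (b * a' * b⁻¹), A.mul_mem ha (hn a' ha' b hb), b * b', B.mul_mem hb hb', ?_⟩
    group
  inv_mem' := by
    rintro _ ⟨a, ha, b, hb, rfl⟩
    refine ⟨b⁻¹ * a⁻¹ * b⁻¹⁻¹, hn a⁻¹ (A.inv_mem ha) b⁻¹ (B.inv_mem hb), b⁻¹, B.inv_mem hb, ?_⟩
    group

theorem card_sup_le [Finite G] (A B : Subgroup G) (hn : ∀ a ∈ A, ∀ b ∈ B, b * a * b⁻¹ ∈ A) :
    Nat.card (A ⊔ B : Subgroup G) ≤ Nat.card A * Nat.card B := by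
  have hle : A ⊔ B ≤ prodSub A B hn := by
    apply sup_le
    · intro a ha
      exact ⟨a, ha, 1, B.one_mem, (mul_one a).symm⟩
    · intro b hb
      exact ⟨1, A.one_mem, b, hb, (one_mul b).symm⟩
  rw [← Nat.card_prod]
  have hex : ∀ x : (A ⊔ B : Subgroup G), ∃ p : A × B, (p.1 : G) * (p.2 : G) = x := by
    intro x
    obtain ⟨a, ha, b, hb, hx⟩ := hle x.2
    exact ⟨(⟨a, ha⟩, ⟨b, hb⟩), hx.symm⟩
  choose f hf using hex
  apply Nat.card_le_card_of_injective f
  intro x y hxy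
  apply Subtype.ext
  rw [← hf x, ← hf y, hxy]

theorem card_sup_ge [Finite G] (A B : Subgroup G) (hd : A ⊓ B = ⊥) :
    Nat.card A * Nat.card B ≤ Nat.card (A ⊔ B : Subgroup G) := by
  rw [← Nat.card_prod]
  apply Nat.card_le_card_of_injective
    (fun p : A × B => (⟨(p.1 : G) * (p.2 : G),
      (A ⊔ B).mul_mem (Subgroup.mem_sup_left p.1.2) (Subgroup.mem_sup_right p.2.2)⟩ :
        (A ⊔ B : Subgroup G)))
  rintro ⟨⟨a, ha⟩, ⟨b, hb⟩⟩ ⟨⟨a', ha'⟩, ⟨b', hb'⟩⟩ h
  have h1 : a * b = a' * b' := congrArg Subtype.val h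
  have h2 : a'⁻¹ * a = b' * b⁻¹ := by
    calc a'⁻¹ * a = a'⁻¹ * (a * b) * b⁻¹ := by group
      _ = a'⁻¹ * (a' * b') * b⁻¹ := by rw [h1]
      _ = b' * b⁻¹ := by group
  have h3 : a'⁻¹ * a ∈ A ⊓ B :=
    ⟨A.mul_mem (A.inv_mem ha') ha, by rw [h2]; exact B.mul_mem hb' (B.inv_mem hb)⟩
  rw [hd, Subgroup.mem_bot] at h3
  have ha2 : a = a' := by
    calc a = a' * (a'⁻¹ * a) := by group
      _ = a' := by rw [h3, mul_one]
  have hb2 : b = b' := by
    have h4 : b' * b⁻¹ = 1 := by rw [← h2, h3]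
    calc b = (b' * b⁻¹)⁻¹ * b' := by group
      _ = b' := by rw [h4, inv_one, one_mul]
  subst ha2
  subst hb2
  rfl

/-- A subgroup `C` of index 2 in a finite group whose non-trivial normal subgroups have index at
most 2 is simple, provided that its order `N` is not a square. -/
theorem simple_of_index_two [Finite G] (C : Subgroup G) (N : ℕ) (hidx : C.index = 2)
    (hcard : Nat.card G = 2 * N) (hN : 1 < N) (hsq : ∀ m : ℕ, m * m ≠ N)
    (hnorm : ∀ K : Subgroup G, K.Normal → K ≠ ⊥ → K.index ≤ 2) :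
    IsSimpleGroup C ∧ Nat.card C = N := by
  have hCN : Nat.card C = N := by
    have h := Subgroup.card_mul_index C
    rw [hidx, hcard] at h
    omega
  have hCnorm : C.Normal := Subgroup.normal_of_index_eq_two hidx
  refine ⟨?_, hCN⟩
  haveI : Nontrivial C := Finite.one_lt_card_iff_nontrivial.mp (hCN ▸ hN)
  refine ⟨fun H hH => ?_⟩
  by_contra hcon
  obtain ⟨hbot, htop⟩ := not_or.mp hcon
  -- an element outside `C`
  have hex : ∃ t : G, t ∉ C := by
    by_contra h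
    have h' : ∀ t : G, t ∈ C := fun t => by
      by_contra ht
      exact h ⟨t, ht⟩
    have : C = ⊤ := (Subgroup.eq_top_iff' C).mpr h'
    rw [this, Subgroup.index_top] at hidx
    omega
  obtain ⟨t, ht⟩ := hex
  have htinv : t⁻¹ ∉ C := fun h => ht (by simpa using C.inv_mem h)
  have ht2 : t * t ∈ C := Subgroup.mul_self_mem_of_index_two hidx t
  let H1 : Subgroup G := H.map C.subtype
  let H2 : Subgroup G := cj t H1
  have hH1C : H1 ≤ C := by
    rintro _ ⟨h, _, rfl⟩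
    exact h.2
  have hcardH1 : Nat.card H1 = Nat.card H :=
    (Nat.card_congr (H.equivMapOfInjective C.subtype C.subtype_injective).toEquiv).symm
  have hcardH2 : Nat.card H2 = Nat.card H := by rw [card_cj, hcardH1]
  -- conjugation
  have e1 : ∀ x ∈ H1, ∀ c ∈ C, c * x * c⁻¹ ∈ H1 := by
    rintro _ ⟨h, hh, rfl⟩ c hc
    exact ⟨⟨c, hc⟩ * h * ⟨c, hc⟩⁻¹, hH.conj_mem h hh ⟨c, hc⟩, rfl⟩
  have hH2C : H2 ≤ C := by
    intro x hx
    obtain ⟨h, hh, rfl⟩ := mem_cj.mp hx
    exact hCnorm.conj_mem h (hH1C hh) t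
  have e2 : ∀ x ∈ H2, ∀ c ∈ C, c * x * c⁻¹ ∈ H2 := by
    intro x hx c hc
    obtain ⟨h, hh, rfl⟩ := mem_cj.mp hx
    refine mem_cj.mpr ⟨(t⁻¹ * c * t) * h * (t⁻¹ * c * t)⁻¹, e1 h hh _ ?_, by group⟩
    have := hCnorm.conj_mem c hc t⁻¹
    simpa using this
  have e3 : ∀ x ∈ H1, t * x * t⁻¹ ∈ H2 := fun x hx => mem_cj.mpr ⟨x, hx, rfl⟩
  have e4 : ∀ x ∈ H2, t * x * t⁻¹ ∈ H1 := by
    intro x hx
    obtain ⟨h, hh, rfl⟩ := mem_cj.mp hx
    have := e1 h hh (t * t) ht2
    have heq : t * (t * h * t⁻¹) * t⁻¹ = t * t * h * (t * t)⁻¹ := by group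
    rw [heq]
    exact this
  have hdec : ∀ g : G, g ∈ C ∨ g * t⁻¹ ∈ C := by
    intro g
    by_cases hg : g ∈ C
    · exact Or.inl hg
    · right
      rw [Subgroup.mul_mem_iff_of_index_two hidx]
      exact ⟨fun h => absurd h hg, fun h => absurd h htinv⟩
  have conj1 : ∀ g : G, ∀ x ∈ H1, g * x * g⁻¹ ∈ H1 ∨ g * x * g⁻¹ ∈ H2 := by
    intro g x hx
    rcases hdec g with hg | hg
    · exact Or.inl (e1 x hx g hg)
    · right
      have := e2 _ (e3 x hx) _ hg
      have heq : g * x * g⁻¹ = g * t⁻¹ * (t * x * t⁻¹) * (g * t⁻¹)⁻¹ := by group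
      rw [heq]
      exact this
  have conj2 : ∀ g : G, ∀ x ∈ H2, g * x * g⁻¹ ∈ H1 ∨ g * x * g⁻¹ ∈ H2 := by
    intro g x hx
    rcases hdec g with hg | hg
    · exact Or.inr (e2 x hx g hg)
    · left
      have := e1 _ (e4 x hx) _ hg
      have heq : g * x * g⁻¹ = g * t⁻¹ * (t * x * t⁻¹) * (g * t⁻¹)⁻¹ := by group
      rw [heq]
      exact this
  have conj12 : ∀ g : G, ∀ x, x ∈ H1 ⊓ H2 → g * x * g⁻¹ ∈ H1 ⊓ H2 := by
    intro g x hx
    rcases hdec g with hg | hg
    · exact ⟨e1 x hx.1 g hg, e2 x hx.2 g hg⟩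
    · have heq : g * x * g⁻¹ = g * t⁻¹ * (t * x * t⁻¹) * (g * t⁻¹)⁻¹ := by group
      rw [heq]
      exact ⟨e1 _ (e4 x hx.2) _ hg, e2 _ (e3 x hx.1) _ hg⟩
  have hMn : (H1 ⊓ H2).Normal := ⟨fun x hx g => conj12 g x hx⟩
  have hJn : (H1 ⊔ H2).Normal := by
    refine ⟨fun x hx g => ?_⟩
    have hle : H1 ⊔ H2 ≤ (H1 ⊔ H2).comap (MulAut.conj g).toMonoidHom := by
      apply sup_le
      · intro y hy
        rw [Subgroup.mem_comap]
        show g * y * g⁻¹ ∈ H1 ⊔ H2
        rcases conj1 g y hy with h | h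
        · exact Subgroup.mem_sup_left h
        · exact Subgroup.mem_sup_right h
      · intro y hy
        rw [Subgroup.mem_comap]
        show g * y * g⁻¹ ∈ H1 ⊔ H2
        rcases conj2 g y hy with h | h
        · exact Subgroup.mem_sup_left h
        · exact Subgroup.mem_sup_right h
    exact hle hx
  have hH1bot : H1 ≠ ⊥ := by
    intro h
    apply hbot
    rw [Subgroup.eq_bot_iff_forall]
    intro x hx
    have h1 : (x : G) ∈ H1 := ⟨x, hx, rfl⟩
    rw [h, Subgroup.mem_bot] at h1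
    exact Subtype.ext h1
  have hHlt : Nat.card H < N := by
    by_contra h
    exact htop (Subgroup.eq_top_of_le_card H (by rw [hCN]; exact Nat.le_of_not_lt h))
  -- a normal subgroup of index at most 2 inside `C` has `N` elements
  have hbig : ∀ K : Subgroup G, K.Normal → K ≠ ⊥ → K ≤ C → Nat.card K = N := by
    intro K hK hKb hKC
    have h1 := hnorm K hK hKb
    have h2 := Subgroup.card_mul_index K
    rw [hcard] at h2
    have h3 : Nat.card K ≤ Nat.card C := Subgroup.card_le_of_le hKC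
    have h4 : K.index ≠ 0 := Subgroup.index_ne_zero_of_finite
    rw [hCN] at h3
    rcases Nat.lt_or_ge K.index 2 with h5 | h5
    · have h6 : K.index = 1 := by omega
      rw [h6] at h2
      omega
    · have h6 : K.index = 2 := by omega
      rw [h6] at h2
      omega
  by_cases hM : H1 ⊓ H2 = ⊥
  · -- the product of `H1` and `H2` is everything: the order is a square
    have hJb : H1 ⊔ H2 ≠ ⊥ := fun h => hH1bot (le_bot_iff.mp (h ▸ le_sup_left))
    have hJ := hbig (H1 ⊔ H2) hJn hJb (sup_le hH1C hH2C)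
    have hle := card_sup_le H1 H2 (fun a ha b hb => e1 a ha b (hH2C hb))
    have hge := card_sup_ge H1 H2 hM
    rw [hcardH1, hcardH2] at hle hge
    exact hsq (Nat.card H) (by omega)
  · have hMc := hbig (H1 ⊓ H2) hMn hM (inf_le_left.trans hH1C)
    have h1 : Nat.card (H1 ⊓ H2 : Subgroup G) ≤ Nat.card H1 := Subgroup.card_le_of_le inf_le_left
    rw [hMc, hcardH1] at h1
    omega

end Cfsg.Agent.Lib.helper9.DerivedSimple
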