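import Cfsg.Agent.Lib.helper9.CosetBase

/-!
# The permutation group of a faithful coset action

A group with a faithful action on the cosets of a subgroup, given on `Fin m` through a bijection,
is isomorphic to its image in the symmetric group, which is transitive with point stabilizers of
the order of the subgroup.
-/

set_option autoImplicit false

namespace Cfsg.Agent.Lib.helper9.PR

theorem perm_rep_of_data {G : Type*} [Group G] [Finite G] (K : Subgroup G) {m : ℕ}
    (ρ : G →* Equiv.Perm (Fin m)) (e : Fin m ≃ G ⧸ K)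
    (he : ∀ g i, g • e i = e (ρ g i)) (hinj : Function.Injective ρ) :
    Nonempty (G ≃* ρ.range) ∧ MulAction.IsPretransitive ρ.range (Fin m) ∧
      ∀ i : Fin m, Nat.card (MulAction.stabilizer ρ.range i) * m = Nat.card G := by
  have hequiv : G ≃* ρ.range := MonoidHom.ofInjective hinj
  have htr : MulAction.IsPretransitive ρ.range (Fin m) := by
    refine ⟨fun i j => ?_⟩
    obtain ⟨g, hg⟩ := MulAction.exists_smul_eq G (e i) (e j)
    refine ⟨⟨ρ g, ⟨g, rfl⟩⟩, ?_⟩
    show ρ g i = j
    apply e.injective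
    rw [← he, hg]
  refine ⟨⟨hequiv⟩, htr, fun i => ?_⟩
  have h1 := Nat.card_congr (MulAction.orbitProdStabilizerEquivGroup ρ.range i)
  rw [Nat.card_prod] at h1
  have h2 : MulAction.orbit ρ.range i = Set.univ := MulAction.orbit_eq_univ ρ.range i
  have h3 : Nat.card (MulAction.orbit ρ.range i) = m := by
    rw [h2, Nat.card_congr (Equiv.Set.univ (Fin m)), Nat.card_eq_fintype_card, Fintype.card_fin]
  rw [h3, Nat.card_congr hequiv.symm.toEquiv] at h1
  rw [mul_comm]
  exact h1

/-- the same for simple groups of a given order -/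
theorem simple_perm_group {G : Type*} [Group G] [Finite G] (K : Subgroup G) {m : ℕ}
    (ρ : G →* Equiv.Perm (Fin m)) (e : Fin m ≃ G ⧸ K)
    (he : ∀ g i, g • e i = e (ρ g i)) (hinj : Function.Injective ρ)
    (N s : ℕ) (hs : IsSimpleGroup G) (hN : Nat.card G = N) (hm : s * m = N) (hm0 : 0 < m) :
    ∃ H : Subgroup (Equiv.Perm (Fin m)), (IsSimpleGroup H ∧ Nat.card H = N) ∧
      MulAction.IsPretransitive H (Fin m) ∧ ∀ i : Fin m, Nat.card (MulAction.stabilizer H i) = s := by
  obtain ⟨⟨φ⟩, htr, hst⟩ := perm_rep_of_data K ρ e he hinj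
  refine ⟨ρ.range, ⟨(MulEquiv.isSimpleGroup_congr φ).mp hs, ?_⟩, htr, fun i => ?_⟩
  · rw [← hN]
    exact Nat.card_congr φ.symm.toEquiv
  · have h1 := hst i
    rw [hN, ← hm] at h1
    exact Nat.eq_of_mul_eq_mul_right hm0 h1

end Cfsg.Agent.Lib.helper9.PR
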