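import Cfsg.Agent.Lib.helper9.Sp4F4
import Cfsg.Agent.Lib.helper9.CE0462BS

/-! The presented group of the custom presentation is isomorphic to the symplectic group of degree
four over the field with four elements. -/

set_option autoImplicit false

namespace Cfsg.Agent.Lib.helper9.SP

open Cfsg.Agent.Lib.helper9 Cfsg.Agent.Lib.helper9.CE
open Cfsg.Spor.Fi23 (Gen)

theorem hrelV : relsVK CE0462Bt.RL = true := by decide +kernel

/-- the homomorphism to the symplectic group -/
noncomputable def beta :
    PresentedGroup (relSet CE0462Bt.RL) →* Matrix.symplecticGroup (Fin 2) F4 :=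
  PresentedGroup.toGroup (f := sg) (by
    intro r hr
    obtain ⟨L, hL, rfl⟩ := hr
    apply Subtype.ext
    rw [lift_val]
    exact relsVK_spec hrelV L hL)

theorem beta_of (x : Gen) : beta (PresentedGroup.of x) = sg x :=
  PresentedGroup.toGroup.of _

theorem iso :
    Nonempty (PresentedGroup (relSet CE0462Bt.RL) ≃* Matrix.symplecticGroup (Fin 2) F4) := by
  obtain ⟨_, _, _, _, hfin, hs, hN⟩ := CE0462B.main
  have hne : beta (PresentedGroup.of Gen.a) ≠ 1 := by
    intro h
    rw [beta_of] at h
    have h1 : mat (gm Gen.a) = 1 := congrArg Subtype.val h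
    have h2 := congrFun (congrFun h1 (Sum.inl 1)) (Sum.inr 1)
    revert h2
    decide +kernel
  have hker : beta.ker = ⊥ := by
    rcases hs.eq_bot_or_eq_top_of_normal beta.ker (MonoidHom.normal_ker beta) with h | h
    · exact h
    · exfalso
      apply hne
      have : PresentedGroup.of Gen.a ∈ beta.ker := by rw [h]; exact Subgroup.mem_top _
      exact MonoidHom.mem_ker.mp this
  have hinj : Function.Injective beta := (MonoidHom.ker_eq_bot_iff beta).mp hker
  have hbij : Function.Bijective beta :=
    (Nat.bijective_iff_injective_and_card beta).mpr ⟨hinj, by rw [hN, card_sp4]⟩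
  exact ⟨MulEquiv.ofBijective beta hbij⟩

end Cfsg.Agent.Lib.helper9.SP
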