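import Cfsg.Agent.S1695
import Cfsg.Agent.Lib.helper9.CE0462BS
import Cfsg.Agent.Lib.helper9.CE0462x
import Cfsg.Agent.Lib.helper9.Sp4Iso
import Cfsg.Agent.Lib.helper9.PermRep
import Cfsg.Agent.Lib.helper9.CosetBase

/-! The symplectic group of degree four over the field with four elements inside the subgroup of
index 2058 of the presented Held group: a homomorphism from its custom presentation, by words in
the generators of the subgroup. -/

set_option autoImplicit false

namespace Cfsg.Agent.Lib.helper9.HeSp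

open Cfsg.Agent.Lib.helper9 Cfsg.Agent.Lib.helper9.CE
open Cfsg.Spor
open Cfsg.Spor.He (Gen)

/-- the relators of the Held group -/
abbrev R0 : Set (FreeGroup Gen) := CE1683.rels

/-- the generators of the subgroup -/
abbrev S0 : Set (FreeGroup Gen) := Cfsg.Agent.S1683.S0

/-- the relators of the symplectic group -/
abbrev RS : List (Word Cfsg.Spor.Fi23.Gen) := CE0462Bt.RL

/-- a homomorphism from a simple group that does not kill an element is injective -/
theorem inj_of_simple {P G : Type*} [Group P] [Group G] (hs : IsSimpleGroup P) (ψ : P →* G) (x : P)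
    (hx : ψ x ≠ 1) : Function.Injective ψ := by
  have hker : ψ.ker = ⊥ := by
    rcases hs.eq_bot_or_eq_top_of_normal ψ.ker (MonoidHom.normal_ker ψ) with h | h
    · exact h
    · exfalso
      apply hx
      have : x ∈ ψ.ker := by rw [h]; exact Subgroup.mem_top x
      exact MonoidHom.mem_ker.mp this
  exact (MonoidHom.ker_eq_bot_iff ψ).mp hker

theorem kgen_mem : ∀ y : Gen, CE0462x.kgen y ∈ CE1683.SW := by
  intro y
  cases y <;> decide

/-- the words in the generators of the subgroup give elements of the subgroup -/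
theorem subst_mem : ∀ L : Word Gen, wordG R0 (HI.substW CE0462x.kgen L) ∈ subH R0 S0
  | [] => by
    rw [HI.substW_nil, wordG_nil]
    exact Subgroup.one_mem _
  | (y, b) :: L => by
    have hy : wordG R0 (CE0462x.kgen y) ∈ subH R0 S0 :=
      Subgroup.mem_map_of_mem _ (Subgroup.subset_closure (Cfsg.Agent.S1683.hS2 _ (kgen_mem y)))
    cases b with
    | true =>
      rw [HI.substW_cons_true, wordG_append]
      exact Subgroup.mul_mem _ hy (subst_mem L)
    | false =>
      rw [HI.substW_cons_false, wordG_append, TT.wordG_invRev]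
      exact Subgroup.mul_mem _ (Subgroup.inv_mem _ hy) (subst_mem L)

/-- the permutation representation of the Held group on the cosets of the subgroup is faithful,
the subgroup fixes the first point and holds an injective image of the presented symplectic group -/
theorem core : ∃ (ρ : PresentedGroup R0 →* Equiv.Perm (Fin CE1683.D.n))
    (e : Fin CE1683.D.n ≃ PresentedGroup R0 ⧸ subH R0 S0),
    (∀ g i, g • e i = e (ρ g i)) ∧ Function.Injective ρ ∧
    (∀ h ∈ subH R0 S0, ∀ i : Fin CE1683.D.n, i.val = 0 → ρ h i = i) ∧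
    ∃ ψ : PresentedGroup (relSet RS) →* subH R0 S0, Function.Injective ψ := by
  obtain ⟨ρ, e, he, hρ, he0⟩ := Cfsg.Agent.S1683.cert.main
  have hfinG : Finite (PresentedGroup R0) := Cfsg.Agent.S1695.ub0.1
  have hub : Nat.card (PresentedGroup R0) ≤ 4030387200 := le_trans Cfsg.Agent.S1695.ub0.2 (by norm_num)
  have l0 := level_step ρ e he hρ CE1695p.OL0 CE1695p.LW0 [] ⟨0, by decide⟩ 2058
    (fun L hL p hp => fixK_spec CE1683.D CE1695p.hfix0 L hL p.val (List.mem_map_of_mem (f := Fin.val) hp))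
    (fun j hj => (allRange_spec CE1695p.horb0_0) j (Nat.zero_le _) hj) CE1695p.hroot0 CE1695p.hpcz0
    (fun k hk => allRange_spec CE1695p.hpc0 k (Nat.zero_le _) hk) CE1695p.hpcn0
  have l1 := level_step ρ e he hρ CE1695p.OL1 CE1695p.LW1 [⟨0, by decide⟩] ⟨1, by decide⟩ 1360
    (fun L hL p hp => fixK_spec CE1683.D CE1695p.hfix1 L hL p.val (List.mem_map_of_mem (f := Fin.val) hp))
    (fun j hj => (allRange_spec CE1695p.horb1_0) j (Nat.zero_le _) hj) CE1695p.hroot1 CE1695p.hpcz1
    (fun k hk => allRange_spec CE1695p.hpc1 k (Nat.zero_le _) hk) CE1695p.hpcn1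
  have l2 := level_step ρ e he hρ CE1695p.OL2 CE1695p.LW2 [⟨1, by decide⟩, ⟨0, by decide⟩] ⟨80, by decide⟩ 360
    (fun L hL p hp => fixK_spec CE1683.D CE1695p.hfix2 L hL p.val (List.mem_map_of_mem (f := Fin.val) hp))
    (fun j hj => (allRange_spec CE1695p.horb2_0) j (Nat.zero_le _) hj) CE1695p.hroot2 CE1695p.hpcz2
    (fun k hk => allRange_spec CE1695p.hpc2 k (Nat.zero_le _) hk) CE1695p.hpcn2
  have l3 := level_step ρ e he hρ CE1695p.OL3 CE1695p.LW3 [⟨80, by decide⟩, ⟨1, by decide⟩, ⟨0, by decide⟩] ⟨7, by decide⟩ 4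
    (fun L hL p hp => fixK_spec CE1683.D CE1695p.hfix3 L hL p.val (List.mem_map_of_mem (f := Fin.val) hp))
    (fun j hj => (allRange_spec CE1695p.horb3_0) j (Nat.zero_le _) hj) CE1695p.hroot3 CE1695p.hpcz3
    (fun k hk => allRange_spec CE1695p.hpc3 k (Nat.zero_le _) hk) CE1695p.hpcn3
  have hch := (chain_le (chain_le (chain_le l0 l1) l2) l3)
  obtain ⟨hinj, hcard⟩ := rho_injective_of_chain ρ e he [⟨7, by decide⟩, ⟨80, by decide⟩, ⟨1, by decide⟩, ⟨0, by decide⟩] 4030387200 (by norm_num)
    ((by norm_num : (2058 * 1360 * 360 * 4 : ℕ) = 4030387200) ▸ hch) hub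
  have hbot := pstab_eq_bot_of_chain e [⟨7, by decide⟩, ⟨80, by decide⟩, ⟨1, by decide⟩, ⟨0, by decide⟩] 4030387200 (by norm_num)
    ((by norm_num : (2058 * 1360 * 360 * 4 : ℕ) = 4030387200) ▸ hch) hub
  have hrel : ∀ L : Word Gen, (∀ b ∈ [7, 80, 1, 0], CE1683.D.walk L b = b) → wordG R0 L = 1 :=
    fun L h => wordG_eq_one_of_base ρ e he hρ [⟨7, by decide⟩, ⟨80, by decide⟩, ⟨1, by decide⟩, ⟨0, by decide⟩] hbot L
      (fun p hp => h p.val (List.mem_map_of_mem (f := Fin.val) hp))
  have h1 : ∀ L ∈ RS, wordG R0 (HI.substW CE0462x.sigS L) = 1 := fun L hL =>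
    hrel _ (HI.relsSubK_spec CE1683.D CE0462x.sigS (HI.wk2 CE1683.D CE0462x.kgen CE0462x.letS)
      (HI.wk2_spec CE1683.D CE0462x.kgen CE0462x.letS) CE0462x.hfixS L hL)
  have hof : ∀ x : Cfsg.Spor.Fi23.Gen, HI.substHom RS R0 CE0462x.sigS h1 (PresentedGroup.of x) =
      wordG R0 (CE0462x.sigS x) := by
    intro x
    have h := HI.substHom_wordG RS R0 CE0462x.sigS h1 [(x, true)]
    rw [HI.substW_cons_true, HI.substW_nil, List.append_nil] at h
    exact h
  have hmemK : ∀ x, HI.substHom RS R0 CE0462x.sigS h1 x ∈ subH R0 S0 := by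
    intro x
    have hx : x ∈ Subgroup.closure (Set.range (PresentedGroup.of (rels := relSet RS))) := by
      rw [PresentedGroup.closure_range_of]
      exact Subgroup.mem_top x
    induction hx using Subgroup.closure_induction with
    | mem y hy =>
      obtain ⟨a, rfl⟩ := hy
      rw [hof]
      exact subst_mem (CE0462x.letS a)
    | one => rw [map_one]; exact Subgroup.one_mem _
    | mul y z _ _ hy hz => rw [map_mul]; exact Subgroup.mul_mem _ hy hz
    | inv y _ hy => rw [map_inv]; exact Subgroup.inv_mem _ hy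
  obtain ⟨_, _, _, _, _, hsS, hNS⟩ := CE0462B.main
  refine ⟨ρ, e, he, hinj, ?_,
    (HI.substHom RS R0 CE0462x.sigS h1).codRestrict (subH R0 S0) hmemK, ?_⟩
  · intro h hh i hi
    have hi0 : i = ⟨0, by decide⟩ := Fin.ext hi
    subst hi0
    apply e.injective
    rw [← he, he0, MulAction.Quotient.smul_mk, QuotientGroup.eq]
    simpa using (subH R0 S0).inv_mem hh
  · have hne : ((HI.substHom RS R0 CE0462x.sigS h1).codRestrict (subH R0 S0) hmemK)
        (wordG (relSet RS) [(Cfsg.Spor.Fi23.Gen.a, true)]) ≠ 1 := by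
      intro h
      have h2 : wordG R0 (HI.substW CE0462x.sigS [(Cfsg.Spor.Fi23.Gen.a, true)]) = 1 := by
        rw [← HI.substHom_wordG RS R0 CE0462x.sigS h1]
        exact congrArg Subtype.val h
      have h3 := hρ (HI.substW CE0462x.sigS [(Cfsg.Spor.Fi23.Gen.a, true)]) ⟨5, by decide⟩
      rw [h2, map_one, HI.toSubK_spec CE1683.D CE0462x.sigS (HI.wk2 CE1683.D CE0462x.kgen CE0462x.letS)
        (HI.wk2_spec CE1683.D CE0462x.kgen CE0462x.letS) CE0462x.hmoveS] at h3
      exact absurd h3 (by decide)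
    exact inj_of_simple hsS _ (wordG (relSet RS) [(Cfsg.Spor.Fi23.Gen.a, true)]) hne

end Cfsg.Agent.Lib.helper9.HeSp
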