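import Cfsg.Agent.Lib.helper9.ThreeTransp

/-!
# Images of presented groups under substitutions

A substitution of words for the generators of a presentation, under which the relators hold in a
second presented group, gives a homomorphism; the image of a simple group under a nontrivial
homomorphism is a simple group of the same order.
-/

set_option autoImplicit false

namespace Cfsg.Agent.Lib.helper9.HI

open Cfsg.Agent.Lib.helper9.CE

variable {α β : Type}

/-- substitution of words for the letters of a word -/
def substW (σ : α → Word β) : Word α → Word β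
  | [] => []
  | l :: L => (Bool.rec (FreeGroup.invRev (σ l.1)) (σ l.1) l.2 : Word β) ++ substW σ L

theorem substW_nil (σ : α → Word β) : substW σ [] = [] := rfl

theorem substW_cons_true (σ : α → Word β) (x : α) (L : Word α) :
    substW σ ((x, true) :: L) = σ x ++ substW σ L := rfl

theorem substW_cons_false (σ : α → Word β) (x : α) (L : Word α) :
    substW σ ((x, false) :: L) = FreeGroup.invRev (σ x) ++ substW σ L := rfl

theorem lift_substW (R' : Set (FreeGroup β)) (σ : α → Word β) (L : Word α) :
    FreeGroup.lift (fun x => wordG R' (σ x)) (FreeGroup.mk L) = wordG R' (substW σ L) := by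
  induction L with
  | nil => rw [substW_nil, wordG_nil]; rfl
  | cons l rest ih =>
    have e1 : FreeGroup.mk (l :: rest) = FreeGroup.mk [l] * FreeGroup.mk rest := by
      rw [FreeGroup.mul_mk]; rfl
    rw [e1, map_mul, ih]
    obtain ⟨x, b⟩ := l
    cases b with
    | true =>
      rw [substW_cons_true, wordG_append]
      congr 1
      show FreeGroup.lift (fun x => wordG R' (σ x)) (FreeGroup.of x) = _
      rw [FreeGroup.lift_apply_of]
    | false =>
      rw [substW_cons_false, wordG_append, TT.wordG_invRev]
      congr 1
      have e2 : FreeGroup.mk [(x, false)] = (FreeGroup.of x)⁻¹ := rfl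
      rw [e2, map_inv, FreeGroup.lift_apply_of]

/-! ### Kernel-friendly walks along substituted words -/

theorem walk_append (D : Data β) (A B : Word β) (c : Nat) :
    D.walk (A ++ B) c = D.walk A (D.walk B c) := by
  induction A with
  | nil => rfl
  | cons l rest ih =>
    show D.step l (D.walk (rest ++ B) c) = D.step l (D.walk rest (D.walk B c))
    rw [ih]

/-- the word substituted for a letter -/
def piece (σ : α → Word β) (l : α × Bool) : Word β :=
  (Bool.rec (FreeGroup.invRev (σ l.1)) (σ l.1) l.2 : Word β)

theorem substW_cons (σ : α → Word β) (l : α × Bool) (L : Word α) :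
    substW σ (l :: L) = piece σ l ++ substW σ L := rfl

/-- the walk along a substituted word, piece by piece -/
noncomputable def substWalkK (wk : α × Bool → Nat → (Nat → Bool) → Bool) (L : Word α) :
    Nat → (Nat → Bool) → Bool :=
  List.rec (motive := fun _ => Nat → (Nat → Bool) → Bool) (fun c k => k c)
    (fun l _ ih c k => ih c (fun c' => wk l c' k)) L

theorem substWalkK_spec (D : Data β) (σ : α → Word β)
    (wk : α × Bool → Nat → (Nat → Bool) → Bool)
    (hwk : ∀ l c k, wk l c k = true → k (D.walk (piece σ l) c) = true) (L : Word α) :
    ∀ (c : Nat) (k : Nat → Bool), substWalkK wk L c k = true →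
      k (D.walk (substW σ L) c) = true := by
  induction L with
  | nil => intro c k h; exact h
  | cons l rest ih =>
    intro c k h
    have e : substWalkK wk (l :: rest) c k = substWalkK wk rest c (fun c' => wk l c' k) := rfl
    rw [e] at h
    have h1 := ih c _ h
    rw [substW_cons, walk_append]
    exact hwk l _ k h1

/-- the walk along the word of a letter (inverse letters are not supported) -/
noncomputable def wkD (D : Data β) (σ : α → Word β) (l : α × Bool) (c : Nat) (k : Nat → Bool) :
    Bool :=
  Bool.rec (motive := fun _ => Bool) (D.walkK (FreeGroup.invRev (σ l.1)) c k)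
    (D.walkK (σ l.1) c k) l.2

theorem wkD_spec (D : Data β) (σ : α → Word β) (l : α × Bool) (c : Nat) (k : Nat → Bool)
    (h : wkD D σ l c k = true) : k (D.walk (piece σ l) c) = true := by
  obtain ⟨x, b⟩ := l
  cases b with
  | true => exact D.walkK_spec (σ x) c k h
  | false => exact D.walkK_spec (FreeGroup.invRev (σ x)) c k h

variable {γ : Type}

/-- the walk along the word of a letter for a composite substitution (positive letters only) -/
noncomputable def wk2 (D : Data β) (σ2 : γ → Word β) (σ1 : α → Word γ) (l : α × Bool) (c : Nat)
    (k : Nat → Bool) : Bool :=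
  Bool.rec (motive := fun _ => Bool) false (substWalkK (wkD D σ2) (σ1 l.1) c k) l.2

theorem wk2_spec (D : Data β) (σ2 : γ → Word β) (σ1 : α → Word γ) (l : α × Bool) (c : Nat)
    (k : Nat → Bool) (h : wk2 D σ2 σ1 l c k = true) :
    k (D.walk (piece (fun x => substW σ2 (σ1 x)) l) c) = true := by
  obtain ⟨x, b⟩ := l
  cases b with
  | true => exact substWalkK_spec D σ2 (wkD D σ2) (wkD_spec D σ2) (σ1 x) c k h
  | false => exact absurd h (by simp [wk2])

/-- the substituted words of a list fix the points of a list -/
noncomputable def relsSubK (wk : α × Bool → Nat → (Nat → Bool) → Bool) (Ls : List (Word α))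
    (bs : List Nat) : Bool :=
  Ls.all (fun L => bs.all (fun b => substWalkK wk L b (fun c => Nat.beq c b)))

theorem relsSubK_spec (D : Data β) (σ : α → Word β)
    (wk : α × Bool → Nat → (Nat → Bool) → Bool)
    (hwk : ∀ l c k, wk l c k = true → k (D.walk (piece σ l) c) = true)
    {Ls : List (Word α)} {bs : List Nat} (h : relsSubK wk Ls bs = true) :
    ∀ L ∈ Ls, ∀ b ∈ bs, D.walk (substW σ L) b = b := by
  intro L hL b hb
  unfold relsSubK at h
  have h1 := List.all_eq_true.mp h L hL
  have h2 := List.all_eq_true.mp h1 b hb
  exact Nat.eq_of_beq_eq_true (substWalkK_spec D σ wk hwk L b _ h2)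

/-- a substituted word maps a point to a given point -/
noncomputable def toSubK (wk : α × Bool → Nat → (Nat → Bool) → Bool) (L : Word α) (p q : Nat) :
    Bool :=
  substWalkK wk L p (fun c => Nat.beq c q)

theorem toSubK_spec (D : Data β) (σ : α → Word β)
    (wk : α × Bool → Nat → (Nat → Bool) → Bool)
    (hwk : ∀ l c k, wk l c k = true → k (D.walk (piece σ l) c) = true)
    {L : Word α} {p q : Nat} (h : toSubK wk L p q = true) : D.walk (substW σ L) p = q :=
  Nat.eq_of_beq_eq_true (substWalkK_spec D σ wk hwk L p _ h)

/-- the homomorphism of presented groups given by a substitution under which the relators hold -/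
noncomputable def substHom (RL : List (Word α)) (R' : Set (FreeGroup β)) (σ : α → Word β)
    (h : ∀ L ∈ RL, wordG R' (substW σ L) = 1) :
    PresentedGroup (relSet RL) →* PresentedGroup R' :=
  PresentedGroup.toGroup (f := fun x => wordG R' (σ x)) (by
    intro r hr
    obtain ⟨L, hL, rfl⟩ := hr
    rw [lift_substW]
    exact h L hL)

theorem substHom_wordG (RL : List (Word α)) (R' : Set (FreeGroup β)) (σ : α → Word β)
    (h : ∀ L ∈ RL, wordG R' (substW σ L) = 1) (L : Word α) :
    substHom RL R' σ h (wordG (relSet RL) L) = wordG R' (substW σ L) := by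
  rw [← lift_substW]
  rfl

/-- the image of a simple group under a nontrivial homomorphism is simple of the same order -/
theorem simple_image {P G : Type*} [Group P] [Group G] (hs : IsSimpleGroup P) (N : ℕ)
    (hN : Nat.card P = N) (ψ : P →* G) (x : P) (hx : ψ x ≠ 1) :
    IsSimpleGroup ψ.range ∧ Nat.card ψ.range = N := by
  have hker : ψ.ker = ⊥ := by
    rcases hs.eq_bot_or_eq_top_of_normal ψ.ker (MonoidHom.normal_ker ψ) with h | h
    · exact h
    · exfalso
      apply hx
      have : x ∈ ψ.ker := by rw [h]; exact Subgroup.mem_top x
      exact MonoidHom.mem_ker.mp this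
  have hinj : Function.Injective ψ := (MonoidHom.ker_eq_bot_iff ψ).mp hker
  have φ : P ≃* ψ.range := MonoidHom.ofInjective hinj
  refine ⟨(MulEquiv.isSimpleGroup_congr φ).mp hs, ?_⟩
  rw [← hN]
  exact Nat.card_congr φ.symm.toEquiv

end Cfsg.Agent.Lib.helper9.HI
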