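import Cfsg.Agent.Lib.helper9.J3Mat
import Cfsg.Agent.Lib.helper9.CoverLemma
import Cfsg.Agent.Lib.helper9.CE0458S

/-! The group generated by seven unitary matrices of degree nine over the field with four elements
that satisfy the relators of the presented Janko group of order 50232960 up to scalars: its centre
is of order three and the quotient is that simple group. -/

set_option autoImplicit false

namespace Cfsg.Agent.Lib.helper9.J3M

open Cfsg.Agent.Lib.helper9 Cfsg.Agent.Lib.helper9.CE
open Cfsg.Agent.Lib.helper9.SP (F4 f4)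
open Cfsg.Spor.Fi23 (Gen)

/-- the relators with their scalars -/
def RLS : List (Word Gen × Nat) := CE0458t.RL.zip SC

theorem hRLS : RLS.map Prod.fst = CE0458t.RL := by decide +kernel

theorem hSC : ∀ p ∈ RLS, p.2 ∈ [1, 2, 3] := by decide +kernel

theorem hrelV : relsVK RLS = true := by decide +kernel

theorem hrel : ∀ L ∈ CE0458t.RL, FreeGroup.lift s (FreeGroup.mk L) ∈ Subgroup.zpowers z := by
  intro L hL
  rw [← hRLS] at hL
  obtain ⟨p, hp, rfl⟩ := List.mem_map.mp hL
  apply mem_zpowers_of_scalar _ p.2 (hSC p hp)
  rw [lift_val]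
  exact relsVK_spec hrelV hSC p hp

/-- a subgroup of the special unitary group with centre of order three and simple quotient of the
order of the Janko group -/
theorem main : ∃ H : Subgroup (Cfsg.SU 9 F4 2), Nat.card (Subgroup.center H) = 3 ∧
    IsSimpleGroup (H ⧸ Subgroup.center H) ∧ Nat.card (H ⧸ Subgroup.center H) = 50232960 := by
  obtain ⟨_, _, _, _, hfin, hs, hN⟩ := CE0458.main
  haveI := hfin
  have hz : z ∈ Subgroup.closure (Set.range s) := by
    have h : z ∈ (FreeGroup.lift s).range := ⟨_, rfl⟩
    rwa [FreeGroup.range_lift_eq_closure] at h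
  exact ⟨Subgroup.closure (Set.range s),
    CV.center_of_cover CE0458t.RL hs 50232960 hN (by norm_num) s z z_central z_order _ rfl hz
      hrel Gen.a s_not_mem⟩

end Cfsg.Agent.Lib.helper9.J3M
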