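import Cfsg.Agent.Lib.helper9.J3OrbT

/-! The first table: the ways back to the first code, and the number of its codes. -/

set_option autoImplicit false

namespace Cfsg.Agent.Lib.helper9.J3O

open Cfsg.Agent.Lib.helper9 Cfsg.Agent.Lib.helper9.CE Cfsg.Agent.Lib.helper9.J3M
open Cfsg.Agent.Lib.helper9.SP (F4 f4)
open Cfsg.Spor.Fi23 (Gen)

theorem hR1_0 : allBelow 32768 (fun k => back ent1 1 (k + 32768 * 0)) = true := by
  decide +kernel

theorem hR1_1 : allBelow 32768 (fun k => back ent1 1 (k + 32768 * 1)) = true := by
  decide +kernel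

theorem hR1_2 : allBelow 32768 (fun k => back ent1 1 (k + 32768 * 2)) = true := by
  decide +kernel

theorem hR1_3 : allBelow 32768 (fun k => back ent1 1 (k + 32768 * 3)) = true := by
  decide +kernel

theorem hR1_4 : allBelow 32768 (fun k => back ent1 1 (k + 32768 * 4)) = true := by
  decide +kernel

theorem hR1_5 : allBelow 32768 (fun k => back ent1 1 (k + 32768 * 5)) = true := by
  decide +kernel

theorem hR1_6 : allBelow 32768 (fun k => back ent1 1 (k + 32768 * 6)) = true := by
  decide +kernel

theorem hR1_7 : allBelow 32768 (fun k => back ent1 1 (k + 32768 * 7)) = true := by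
  decide +kernel

theorem hcnt : cntBelow 262144 (mem ent1) 0 = 69768 := by
  decide +kernel

theorem hm0 : mem ent1 0 = false := by
  decide +kernel

theorem hm1 : mem ent1 1 = true := by
  decide +kernel

end Cfsg.Agent.Lib.helper9.J3O
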