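import Cfsg.Agent.Lib.helper9.J3OrbT

/-! The second table: the ways back to the first code. -/

set_option autoImplicit false

namespace Cfsg.Agent.Lib.helper9.J3O

open Cfsg.Agent.Lib.helper9 Cfsg.Agent.Lib.helper9.CE Cfsg.Agent.Lib.helper9.J3M
open Cfsg.Agent.Lib.helper9.SP (F4 f4)
open Cfsg.Spor.Fi23 (Gen)

theorem hR2_0 : allBelow 32768 (fun k => back ent2 20 (k + 32768 * 0)) = true := by
  decide +kernel

theorem hR2_1 : allBelow 32768 (fun k => back ent2 20 (k + 32768 * 1)) = true := by
  decide +kernel

theorem hR2_2 : allBelow 32768 (fun k => back ent2 20 (k + 32768 * 2)) = true := by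
  decide +kernel

theorem hR2_3 : allBelow 32768 (fun k => back ent2 20 (k + 32768 * 3)) = true := by
  decide +kernel

theorem hR2_4 : allBelow 32768 (fun k => back ent2 20 (k + 32768 * 4)) = true := by
  decide +kernel

theorem hR2_5 : allBelow 32768 (fun k => back ent2 20 (k + 32768 * 5)) = true := by
  decide +kernel

theorem hR2_6 : allBelow 32768 (fun k => back ent2 20 (k + 32768 * 6)) = true := by
  decide +kernel

theorem hR2_7 : allBelow 32768 (fun k => back ent2 20 (k + 32768 * 7)) = true := by
  decide +kernel

end Cfsg.Agent.Lib.helper9.J3O
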