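import Cfsg.Agent.Lib.helper9.J3OrbT

/-! The set of the first table is closed under the seven generators. -/

set_option autoImplicit false

namespace Cfsg.Agent.Lib.helper9.J3O

open Cfsg.Agent.Lib.helper9 Cfsg.Agent.Lib.helper9.CE Cfsg.Agent.Lib.helper9.J3M
open Cfsg.Agent.Lib.helper9.SP (F4 f4)
open Cfsg.Spor.Fi23 (Gen)

/-- the images of a code of the first set under the generators are in the set -/
def clo (c : Nat) : Bool := !(mem ent1 c) || gl.all (fun x => mem ent1 (vstep2 x c))

theorem hcl_0 : allBelow 32768 (fun k => clo (k + 32768 * 0)) = true := by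
  decide +kernel

theorem hcl_1 : allBelow 32768 (fun k => clo (k + 32768 * 1)) = true := by
  decide +kernel

theorem hcl_2 : allBelow 32768 (fun k => clo (k + 32768 * 2)) = true := by
  decide +kernel

theorem hcl_3 : allBelow 32768 (fun k => clo (k + 32768 * 3)) = true := by
  decide +kernel

theorem hcl_4 : allBelow 32768 (fun k => clo (k + 32768 * 4)) = true := by
  decide +kernel

theorem hcl_5 : allBelow 32768 (fun k => clo (k + 32768 * 5)) = true := by
  decide +kernel

theorem hcl_6 : allBelow 32768 (fun k => clo (k + 32768 * 6)) = true := by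
  decide +kernel

theorem hcl_7 : allBelow 32768 (fun k => clo (k + 32768 * 7)) = true := by
  decide +kernel

end Cfsg.Agent.Lib.helper9.J3O
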