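import Mathlib
import Cfsg.Prelude.Def_Spor_J3
import Cfsg.Agent.Lib.helper9.J3OrbA
import Cfsg.Agent.Lib.helper9.J3OrbB
import Cfsg.Agent.Lib.helper9.J3OrbC
import Cfsg.Agent.Lib.helper9.J3OrbD

/-! The lines of the space of dimension nine over a field with four elements under the group of the
definitions: the images of the first basis line, and the isotropic lines. -/

set_option autoImplicit false

namespace Cfsg.Agent.Lib.helper9.J3O

open Cfsg.Agent.Lib.helper9 Cfsg.Agent.Lib.helper9.CE Cfsg.Agent.Lib.helper9.J3M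
open Cfsg.Agent.Lib.helper9.J3P
open Cfsg.Agent.Lib.helper9.SP (F4 f4)
open Cfsg.Spor.Fi23 (Gen)
open Cfsg.Spor (F9 threeJ3)

theorem allBelow_spec (p : Nat → Bool) : ∀ n, allBelow n p = true → ∀ k < n, p k = true
  | 0, _, k, hk => absurd hk (Nat.not_lt_zero k)
  | n + 1, h, k, hk => by
    rw [allBelow, Bool.and_eq_true] at h
    rcases Nat.lt_succ_iff_lt_or_eq.mp hk with hk' | rfl
    · exact allBelow_spec p n h.2 k hk'
    · exact h.1

/-- a property checked on eight ranges holds for the codes -/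
theorem all8 (P : Nat → Bool)
    (h : ∀ j < 8, allBelow 32768 (fun k => P (k + 32768 * j)) = true) :
    ∀ c < 262144, P c = true := by
  intro c hc
  have h1 := allBelow_spec _ _ (h (c / 32768) (by omega)) (c % 32768)
    (Nat.mod_lt _ (by norm_num))
  have e : c % 32768 + 32768 * (c / 32768) = c := Nat.mod_add_div c 32768
  simp only [e] at h1
  exact h1

theorem cntBelow_spec (p : Nat → Bool) : ∀ (n acc : Nat),
    cntBelow n p acc = acc + ((Finset.range n).filter (fun c => p c = true)).card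
  | 0, acc => by simp [cntBelow]
  | n + 1, acc => by
    have h : cntBelow (n + 1) p acc = cntBelow n p (cond (p n) (acc + 1) acc) := by
      cases acc <;> rfl
    rw [h, cntBelow_spec p n, Finset.range_add_one, Finset.filter_insert]
    cases hp : p n
    · simp
    · have hn : n ∉ (Finset.range n).filter (fun c => p c = true) := by
        simp
      simp only [cond_true, if_true, Finset.card_insert_of_notMem hn]
      omega

theorem hR1 : ∀ c < 262144, back ent1 1 c = true := by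
  apply all8
  intro j hj
  interval_cases j
  · exact hR1_0
  · exact hR1_1
  · exact hR1_2
  · exact hR1_3
  · exact hR1_4
  · exact hR1_5
  · exact hR1_6
  · exact hR1_7

theorem hR2 : ∀ c < 262144, back ent2 20 c = true := by
  apply all8
  intro j hj
  interval_cases j
  · exact hR2_0
  · exact hR2_1
  · exact hR2_2
  · exact hR2_3
  · exact hR2_4
  · exact hR2_5
  · exact hR2_6
  · exact hR2_7

theorem hcl : ∀ c < 262144, clo c = true := by
  apply all8
  intro j hj
  interval_cases j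
  · exact hcl_0
  · exact hcl_1
  · exact hcl_2
  · exact hcl_3
  · exact hcl_4
  · exact hcl_5
  · exact hcl_6
  · exact hcl_7

theorem hiso : ∀ c < 262144, isoc c = true := by
  apply all8
  intro j hj
  interval_cases j
  · exact hiso_0
  · exact hiso_1
  · exact hiso_2
  · exact hiso_3
  · exact hiso_4
  · exact hiso_5
  · exact hiso_6
  · exact hiso_7

theorem split9 (c : Nat) : (c % 2 ^ 9) ^^^ ((c >>> 9) <<< 9) = c := by
  apply Nat.eq_of_testBit_eq
  intro j
  rw [Nat.testBit_xor, Nat.testBit_mod_two_pow, Nat.testBit_shiftLeft, Nat.testBit_shiftRight]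
  by_cases h : j < 9
  · have h' : ¬ j ≥ 9 := by omega
    simp [h, h']
  · have h' : j ≥ 9 := by omega
    have e : 9 + (j - 9) = j := by omega
    simp [h, h', e]

theorem vstep2_spec (x : Gen) (hx : x ∈ gl) (c : Nat) (hc : c < 262144) :
    vdec (vstep2 x c) = (mat (gm x)).mulVec (vdec c) := by
  have h := allBelow_spec _ _ (htab2 x hx)
  have ha := h (c % 512) (Nat.mod_lt _ (by norm_num))
  have e9 : c >>> 9 = c / 512 := by
    rw [Nat.shiftRight_eq_div_pow]
  have hb := h (c >>> 9) (by rw [e9]; omega)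
  rw [Bool.and_eq_true] at ha hb
  have e1 := Nat.eq_of_beq_eq_true ha.1
  have e2 := Nat.eq_of_beq_eq_true hb.2
  have e3 : vstep2 x c = vstep x (c % 512) ^^^ vstep x ((c >>> 9) <<< 9) := by
    unfold vstep2
    rw [e1, e2]
  rw [e3, vdec_xor, tab_spec, tab_spec, ← Matrix.mulVec_add, ← vdec_xor]
  have e4 : (c % 512) ^^^ ((c >>> 9) <<< 9) = c := split9 c
  rw [e4]

theorem gen_mem (i : Nat) : gen i ∈ gl := by
  unfold gen
  split <;> decide

theorem mem_lt {E : Nat → Nat} {c : Nat} (h : mem E c = true) : c < 262144 := by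
  unfold mem at h
  rw [Bool.and_eq_true] at h
  exact Nat.blt_eq.mp h.1

/-- the vector of a code is the image of the vector of the first code under the group -/
def Reach (c0 c : Nat) : Prop :=
  ∃ g : ↥(Cfsg.SU 9 F4 2), g ∈ Subgroup.closure (Set.range s) ∧
    vdec c = (g.1).1.mulVec (vdec c0)

theorem reach_self (c0 : Nat) : Reach c0 c0 :=
  ⟨1, Subgroup.one_mem _, (Matrix.one_mulVec _).symm⟩

theorem reach_back {c0 c p : Nat} (x : Gen) (hp : Reach c0 p)
    (h : vdec p = (mat (gm x)).mulVec (vdec c)) : Reach c0 c := by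
  obtain ⟨g, hg, e⟩ := hp
  refine ⟨s x * g, Subgroup.mul_mem _ (Subgroup.subset_closure ⟨x, rfl⟩) hg, ?_⟩
  show vdec c = (mat (gm x) * (g.1).1).mulVec (vdec c0)
  rw [← Matrix.mulVec_mulVec, ← e, h, Matrix.mulVec_mulVec, hsqM, Matrix.one_mulVec]

theorem reach_of_back (E : Nat → Nat) (c0 : Nat) (h : ∀ c < 262144, back E c0 c = true) :
    ∀ d c, mem E c = true → E c % 16 = d → Reach c0 c := by
  intro d
  induction d using Nat.strong_induction_on with
  | _ d ih =>
    intro c hm hd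
    have hb := h c (mem_lt hm)
    unfold back at hb
    rw [hm] at hb
    simp only [Bool.not_true, Bool.false_or, Bool.or_eq_true, Bool.and_eq_true] at hb
    rcases hb with hb | ⟨hpm, hpd⟩
    · rw [Nat.eq_of_beq_eq_true hb]
      exact reach_self c0
    · have hlt := Nat.blt_eq.mp hpd
      have hrp := ih _ (by rw [← hd]; exact hlt) _ hpm rfl
      exact reach_back (gen ((E c / 16) % 8)) hrp (vstep2_spec _ (gen_mem _) c (mem_lt hm))

theorem reach1 (c : Nat) (hc : mem ent1 c = true) : Reach 1 c :=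
  reach_of_back ent1 1 hR1 _ c hc rfl

theorem reach2 (c : Nat) (hc : mem ent2 c = true) : Reach 20 c :=
  reach_of_back ent2 20 hR2 _ c hc rfl

/-- the digit of a code at a position -/
def dg (c k : Nat) : F4 := f4 (c >>> (2 * k))

theorem dg_eq (c k : Nat) : dg c k = ⟨c.testBit (2 * k), c.testBit (2 * k + 1)⟩ := by
  unfold dg f4
  rw [Nat.testBit_shiftRight, Nat.testBit_shiftRight, Nat.add_zero]

theorem vdec_apply (c : Nat) (i : Fin 9) : vdec c i = dg c i.val := by
  unfold vdec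
  rw [Finset.sum_apply, Finset.sum_eq_add (2 * i.val) (2 * i.val + 1) (by omega)]
  · have e1 : (2 * i.val) / 2 = i.val := by omega
    have e2 : (2 * i.val + 1) / 2 = i.val := by omega
    have e3 : (2 * i.val) % 2 = 0 := by omega
    have e4 : (2 * i.val + 1) % 2 = 1 := by omega
    rw [dg_eq]
    simp only [ite_apply, Pi.zero_apply, bvec, e1, e2, e3, e4, if_true]
    cases c.testBit (2 * i.val) <;> cases c.testBit (2 * i.val + 1) <;> decide
  · intro j _ hj
    have hne : i.val ≠ j / 2 := by omega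
    by_cases hb : c.testBit j = true
    · rw [if_pos hb]
      show (if i.val = j / 2 then f4 (1 + j % 2) else 0) = 0
      rw [if_neg hne]
    · rw [if_neg hb]
      rfl
  · intro h
    exact absurd (Finset.mem_range.mpr (by omega)) h
  · intro h
    exact absurd (Finset.mem_range.mpr (by omega)) h

theorem vdec_inj {c c' : Nat} (hc : c < 2 ^ 18) (hc' : c' < 2 ^ 18) (h : vdec c = vdec c') :
    c = c' := by
  apply Nat.eq_of_testBit_eq
  intro j
  by_cases hj : j < 18
  · have h1 := congrFun h ⟨j / 2, by omega⟩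
    rw [vdec_apply, vdec_apply, dg_eq, dg_eq] at h1
    injection h1 with ha hb
    rcases Nat.mod_two_eq_zero_or_one j with hm | hm
    · have e : 2 * (j / 2) = j := by omega
      rw [e] at ha
      exact ha
    · have e : 2 * (j / 2) + 1 = j := by omega
      rw [e] at hb
      exact hb
  · have h18 : 2 ^ 18 ≤ 2 ^ j := Nat.pow_le_pow_right (by norm_num) (by omega)
    rw [Nat.testBit_lt_two_pow (lt_of_lt_of_le hc h18),
      Nat.testBit_lt_two_pow (lt_of_lt_of_le hc' h18)]

theorem vdec_surj (u : V9) : ∃ c, c < 2 ^ 18 ∧ vdec c = u := by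
  have hinj : Function.Injective (fun c : Fin (2 ^ 18) => vdec c.val) := by
    intro a b hab
    exact Fin.ext (vdec_inj a.2 b.2 hab)
  have hcard : Fintype.card (Fin (2 ^ 18)) = Fintype.card V9 := by
    rw [Fintype.card_fin, Fintype.card_fun, SP.F4.card, Fintype.card_fin]
    norm_num
  obtain ⟨c, hc⟩ := ((Fintype.bijective_iff_injective_and_card _).mpr ⟨hinj, hcard⟩).2 u
  exact ⟨c.val, c.2, hc⟩

theorem f4_mod (n : Nat) : f4 n = f4 (n % 2 ^ 2) := by
  unfold f4
  rw [Nat.testBit_mod_two_pow, Nat.testBit_mod_two_pow]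
  simp

theorem hcube : ∀ m : Fin 4, f4 m.val ^ 3 = if Nat.blt 0 m.val then 1 else 0 := by decide

theorem dg_cube (c k : Nat) : dg c k ^ 3 = if nzd c k then 1 else 0 := by
  unfold dg nzd
  rw [f4_mod]
  exact hcube ⟨(c >>> (2 * k)) % 4, Nat.mod_lt _ (by norm_num)⟩

theorem hxor : ∀ a b : Bool, (if a then (1 : F4) else 0) + (if b then 1 else 0) =
    if xor a b then 1 else 0 := by decide

theorem hzero : ∀ p : Bool, ((if p then (1 : F4) else 0) = 0 ↔ p = false) := by decide

theorem iso_iff (c : Nat) : ∑ i : Fin 9, vdec c i ^ 3 = 0 ↔ wodd c = false := by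
  have e : ∑ i : Fin 9, vdec c i ^ 3 = dg c 0 ^ 3 + dg c 1 ^ 3 + dg c 2 ^ 3 + dg c 3 ^ 3 +
      dg c 4 ^ 3 + dg c 5 ^ 3 + dg c 6 ^ 3 + dg c 7 ^ 3 + dg c 8 ^ 3 := by
    rw [Fin.sum_univ_castSucc, Fin.sum_univ_eight]
    simp only [vdec_apply]
    rfl
  rw [e]
  simp only [dg_cube]
  rw [hxor, hxor, hxor, hxor, hxor, hxor, hxor, hxor]
  exact hzero _

theorem hone : ∀ x : Gen, x ∈ gl ∨ mat (gm x) = 1 := by
  intro x
  cases x
  all_goals first
    | exact Or.inl (by decide)
    | exact Or.inr (by decide +kernel)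

/-- the group maps the vectors of the codes of the first set to such vectors -/
def Pcl (g : ↥(Cfsg.SU 9 F4 2)) : Prop :=
  ∀ c, mem ent1 c = true → ∃ c', mem ent1 c' = true ∧ vdec c' = (g.1).1.mulVec (vdec c)

theorem pcl_one : Pcl 1 := fun c hc => ⟨c, hc, (Matrix.one_mulVec _).symm⟩

theorem pcl_mul {g h : ↥(Cfsg.SU 9 F4 2)} (hg : Pcl g) (hh : Pcl h) : Pcl (g * h) := by
  intro c hc
  obtain ⟨c1, h1, e1⟩ := hh c hc
  obtain ⟨c2, h2, e2⟩ := hg c1 h1
  refine ⟨c2, h2, ?_⟩
  show vdec c2 = ((g.1).1 * (h.1).1).mulVec (vdec c)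
  rw [e2, e1, Matrix.mulVec_mulVec]

theorem pcl_gen (x : Gen) : Pcl (s x) := by
  intro c hc
  rcases hone x with hx | hx
  · have h1 := hcl c (mem_lt hc)
    unfold clo at h1
    simp only [hc, Bool.not_true, Bool.false_or] at h1
    exact ⟨vstep2 x c, List.all_eq_true.mp h1 x hx, vstep2_spec x hx c (mem_lt hc)⟩
  · refine ⟨c, hc, ?_⟩
    show vdec c = (mat (gm x)).mulVec (vdec c)
    rw [hx, Matrix.one_mulVec]

theorem pcl_closure (g : ↥(Cfsg.SU 9 F4 2)) (hg : g ∈ Subgroup.closure (Set.range s)) :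
    Pcl g := by
  have key : Pcl g ∧ Pcl g⁻¹ := by
    induction hg using Subgroup.closure_induction with
    | mem y hy =>
      obtain ⟨x, rfl⟩ := hy
      have e : (s x)⁻¹ = s x := inv_eq_of_mul_eq_one_right (s_sq x)
      rw [e]
      exact ⟨pcl_gen x, pcl_gen x⟩
    | one =>
      rw [inv_one]
      exact ⟨pcl_one, pcl_one⟩
    | mul a b _ _ iha ihb =>
      rw [mul_inv_rev]
      exact ⟨pcl_mul iha.1 ihb.1, pcl_mul ihb.2 iha.2⟩
    | inv a _ iha =>
      rw [inv_inv]
      exact ⟨iha.2, iha.1⟩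
  exact key.1

theorem hcount : ((Finset.range 262144).filter (fun c => mem ent1 c = true)).card = 69768 := by
  have h := cntBelow_spec (mem ent1) 262144 0
  rw [hcnt, Nat.zero_add] at h
  exact h.symm

theorem hnz : ∀ x : F4, x ≠ 0 → ∃ t ∈ [1, 2, 3], x = f4 t := by decide

/-- a finite set of nonzero vectors closed under the nonzero scalars: the number of its lines -/
theorem ncard_lines {K V : Type*} [Field K] [Fintype K] [AddCommGroup V] [Module K V]
    (X : Set V) (hfin : X.Finite) (h0 : ∀ v ∈ X, v ≠ 0)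
    (hs : ∀ v ∈ X, ∀ a : K, a ≠ 0 → a • v ∈ X) :
    X.ncard = (Fintype.card K - 1) * ((fun v => Submodule.span K {v}) '' X).ncard := by
  classical
  obtain ⟨Xf, rfl⟩ := hfin.exists_finset_coe
  rw [Set.ncard_coe_finset, ← Finset.coe_image, Set.ncard_coe_finset,
    Finset.card_eq_sum_card_image (fun v => Submodule.span K {v}) Xf,
    Finset.sum_const_nat (m := Fintype.card K - 1), mul_comm]
  intro L hL
  obtain ⟨v0, hv0, rfl⟩ := Finset.mem_image.mp hL
  have hfib : Xf.filter (fun v => Submodule.span K {v} = Submodule.span K {v0}) =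
      (Finset.univ : Finset Kˣ).image (fun a : Kˣ => (a : K) • v0) := by
    ext v
    simp only [Finset.mem_filter, Finset.mem_image, Finset.mem_univ, true_and]
    constructor
    · rintro ⟨_, hspan⟩
      obtain ⟨a, ha⟩ := Submodule.span_singleton_eq_span_singleton.mp hspan.symm
      exact ⟨a, ha⟩
    · rintro ⟨a, rfl⟩
      exact ⟨hs v0 (Finset.mem_coe.mp hv0) a a.ne_zero,
        Submodule.span_singleton_smul_eq a.isUnit v0⟩
  rw [hfib, Finset.card_image_of_injective _ (fun a b hab =>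
    Units.ext (smul_left_injective K (h0 v0 (Finset.mem_coe.mp hv0)) hab)), Finset.card_univ,
    ← Nat.card_eq_fintype_card, Nat.card_units, Nat.card_eq_fintype_card]

section field

variable (F : Type) [Field F]

/-- the map of the vectors -/
def tau (ψ : F4 →+* F) (u : V9) : F9 → F := fun a => ψ (u (e9 a))

theorem Theta_mulVec (ψ : F4 →+* F) (g : ↥(Cfsg.SU 9 F4 2)) (u : V9) :
    ((Theta F ψ g : Matrix.GeneralLinearGroup F9 F) : Matrix F9 F9 F).mulVec (tau F ψ u) =
      tau F ψ ((g.1).1.mulVec u) := by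
  funext a
  show ∑ b : F9, ((Theta F ψ g : Matrix.GeneralLinearGroup F9 F) : Matrix F9 F9 F) a b *
    tau F ψ u b = ψ (∑ j : Fin 9, (g.1).1 (e9 a) j * u j)
  rw [map_sum]
  simp only [Theta_val, tau, map_mul]
  exact Fintype.sum_equiv e9 _ _ (fun _ => rfl)

theorem tau_inj (ψ : F4 →+* F) : Function.Injective (tau F ψ) := by
  intro u u' h
  funext i
  have h1 := congrFun h (e9.symm i)
  simp only [tau, Equiv.apply_symm_apply] at h1
  exact ψ.injective h1

theorem tau_zero (ψ : F4 →+* F) : tau F ψ 0 = 0 := by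
  funext a
  exact map_zero ψ

theorem tau_smul (ψ : F4 →+* F) (x : F4) (u : V9) : tau F ψ (x • u) = ψ x • tau F ψ u := by
  funext a
  exact map_mul ψ x (u (e9 a))

theorem tau_e0 (ψ : F4 →+* F) : tau F ψ (vdec 1) = Pi.single (0 : F9) (1 : F) := by
  have h : vdec 1 = (Pi.single (0 : Fin 9) 1 : V9) := vdec_e 0
  rw [h]
  funext a
  show ψ ((Pi.single (0 : Fin 9) (1 : F4) : V9) (e9 a)) = (Pi.single (0 : F9) (1 : F) : F9 → F) a
  rw [Pi.single_apply, Pi.single_apply]
  have h0 : e9 (0 : F9) = 0 := by decide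
  by_cases ha : a = 0
  · subst ha
    simp [h0]
  · have h1 : e9 a ≠ 0 := fun hh => ha (e9.injective (hh.trans h0.symm))
    simp [ha, h1]

theorem psi_surj [Fintype F] (hF : Fintype.card F = 4) (ψ : F4 →+* F) : Function.Surjective ψ :=
  ((Fintype.bijective_iff_injective_and_card ψ).mpr ⟨ψ.injective, by rw [SP.F4.card, hF]⟩).2

theorem orbit_lines [Fintype F] (hF : Fintype.card F = 4) (ω : F) (ψ : F4 →+* F)
    (hψ : ψ (f4 2) = ω) :
    {L : Submodule F (F9 → F) | ∃ g ∈ threeJ3 F ω, L = Submodule.span F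
      {(g : Matrix F9 F9 F).mulVec (Pi.single (0 : F9) (1 : F) : F9 → F)}}.ncard = 23256 := by
  have hT := closure_eq F ω ψ hψ
  have hsurj := psi_surj F hF ψ
  obtain ⟨C, hC⟩ : ∃ C : Set ℕ, C = {c | mem ent1 c = true} := ⟨_, rfl⟩
  obtain ⟨VO, hVO⟩ : ∃ VO : Set (F9 → F), VO = (fun c => tau F ψ (vdec c)) '' C := ⟨_, rfl⟩
  have hmem : ∀ c, c ∈ C ↔ mem ent1 c = true := fun c => by rw [hC]; rfl
  have hlt : ∀ c ∈ C, c < 2 ^ 18 := fun c hc => by have := mem_lt ((hmem c).mp hc); norm_num; exact this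
  have hS : {L : Submodule F (F9 → F) | ∃ g ∈ threeJ3 F ω, L = Submodule.span F
      {(g : Matrix F9 F9 F).mulVec (Pi.single (0 : F9) (1 : F) : F9 → F)}} =
      (fun v => Submodule.span F {v}) '' VO := by
    ext L
    constructor
    · rintro ⟨g', hg', rfl⟩
      rw [hT] at hg'
      obtain ⟨g, hg, rfl⟩ := Subgroup.mem_map.mp hg'
      obtain ⟨c', hc', e⟩ := pcl_closure g hg 1 hm1
      refine ⟨tau F ψ (vdec c'), ?_, ?_⟩
      · rw [hVO]
        exact ⟨c', (hmem c').mpr hc', rfl⟩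
      · show Submodule.span F {tau F ψ (vdec c')} = _
        rw [e, ← Theta_mulVec, tau_e0]
    · rintro ⟨v, hv, rfl⟩
      rw [hVO] at hv
      obtain ⟨c, hc, rfl⟩ := hv
      obtain ⟨g, hg, e⟩ := reach1 c ((hmem c).mp hc)
      refine ⟨Theta F ψ g, ?_, ?_⟩
      · rw [hT]
        exact Subgroup.mem_map_of_mem _ hg
      · show Submodule.span F {tau F ψ (vdec c)} = _
        rw [e, ← Theta_mulVec, tau_e0]
  rw [hS]
  have hinj : Set.InjOn (fun c => tau F ψ (vdec c)) C := by
    intro c hc c' hc' h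
    exact vdec_inj (hlt c hc) (hlt c' hc') (tau_inj F ψ h)
  have hCf : C = ↑((Finset.range 262144).filter (fun c => mem ent1 c = true)) := by
    ext c
    rw [hmem, Finset.coe_filter, Set.mem_setOf_eq, Finset.mem_range]
    exact ⟨fun h => ⟨mem_lt h, h⟩, fun h => h.2⟩
  have hcard : VO.ncard = 69768 := by
    rw [hVO, hinj.ncard_image, hCf, Set.ncard_coe_finset, hcount]
  have hfin : VO.Finite := by
    rw [hVO, hCf]
    exact (Finset.finite_toSet _).image _
  have h0 : ∀ v ∈ VO, v ≠ 0 := by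
    intro v hv h
    rw [hVO] at hv
    obtain ⟨c, hc, rfl⟩ := hv
    have h1 : vdec c = vdec 0 := by
      rw [vdec_zero]
      apply tau_inj F ψ
      rw [tau_zero]
      exact h
    have h2 := vdec_inj (hlt c hc) (by norm_num) h1
    rw [h2, hmem, hm0] at hc
    exact Bool.false_ne_true hc
  have hs : ∀ v ∈ VO, ∀ a : F, a ≠ 0 → a • v ∈ VO := by
    intro v hv a ha
    rw [hVO] at hv
    obtain ⟨c, hc, rfl⟩ := hv
    obtain ⟨x, rfl⟩ := hsurj a
    have hx : x ≠ 0 := fun h => ha (by rw [h, map_zero])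
    obtain ⟨t, ht, rfl⟩ := hnz x hx
    obtain ⟨c', hc', e⟩ := pcl_closure (zp t)
      ((Subgroup.zpowers_le.mpr z_mem_closure) (zp_mem t)) c ((hmem c).mp hc)
    rw [hVO]
    refine ⟨c', (hmem c').mpr hc', ?_⟩
    show tau F ψ (vdec c') = ψ (f4 t) • tau F ψ (vdec c)
    rw [e, zp_val t ht, Matrix.smul_mulVec, Matrix.one_mulVec, tau_smul]
  have hl := ncard_lines (K := F) VO hfin h0 hs
  rw [hcard, hF] at hl
  omega

theorem iso_trans [Fintype F] (hF : Fintype.card F = 4) (ω : F) (ψ : F4 →+* F)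
    (hψ : ψ (f4 2) = ω) :
    ∀ v w : F9 → F, v ≠ 0 → w ≠ 0 → ∑ z, (v z) ^ 3 = 0 → ∑ z, (w z) ^ 3 = 0 →
      ∃ g ∈ threeJ3 F ω, ∃ c : F, c ≠ 0 ∧ (g : Matrix F9 F9 F).mulVec v = c • w := by
  have hT := closure_eq F ω ψ hψ
  have hsurj := psi_surj F hF ψ
  have hts : Function.Surjective (tau F ψ) := by
    intro v
    refine ⟨fun i => (hsurj (v (e9.symm i))).choose, ?_⟩
    funext a
    show ψ ((hsurj (v (e9.symm (e9 a)))).choose) = v a
    rw [(hsurj _).choose_spec, Equiv.symm_apply_apply]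
  have key : ∀ v : F9 → F, v ≠ 0 → ∑ z, (v z) ^ 3 = 0 →
      ∃ g : ↥(Cfsg.SU 9 F4 2), g ∈ Subgroup.closure (Set.range s) ∧
        v = tau F ψ ((g.1).1.mulVec (vdec 20)) := by
    intro v hv hvi
    obtain ⟨u, rfl⟩ := hts v
    obtain ⟨c, hc, rfl⟩ := vdec_surj u
    have hc0 : Nat.beq c 0 = false := by
      cases c with
      | zero =>
        exfalso
        apply hv
        rw [vdec_zero, tau_zero]
      | succ n => rfl
    have hi : ∑ i : Fin 9, vdec c i ^ 3 = 0 := by
      apply ψ.injective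
      rw [map_zero, map_sum, ← hvi]
      simp only [tau, map_pow]
      exact (Fintype.sum_equiv e9 _ _ (fun _ => rfl)).symm
    have hb := hiso c (by norm_num at hc; exact hc)
    unfold isoc at hb
    simp only [(iso_iff c).mp hi, hc0, Bool.or_false, Bool.false_or] at hb
    obtain ⟨g, hg, e⟩ := reach2 c hb
    exact ⟨g, hg, by rw [e]⟩
  intro v w hv hw hiv hiw
  obtain ⟨gv, hgv, rfl⟩ := key v hv hiv
  obtain ⟨gw, hgw, rfl⟩ := key w hw hiw
  refine ⟨Theta F ψ (gw * gv⁻¹), ?_, 1, one_ne_zero, ?_⟩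
  · rw [hT]
    exact Subgroup.mem_map_of_mem _ (Subgroup.mul_mem _ hgw (Subgroup.inv_mem _ hgv))
  · rw [one_smul, Theta_mulVec]
    congr 1
    show ((gw.1).1 * ((gv⁻¹).1).1).mulVec ((gv.1).1.mulVec (vdec 20)) =
      (gw.1).1.mulVec (vdec 20)
    have h1 : ((gv⁻¹).1).1 * (gv.1).1 = 1 :=
      congrArg (fun g : ↥(Cfsg.SU 9 F4 2) => (g.1).1) (inv_mul_cancel gv)
    rw [← Matrix.mulVec_mulVec, Matrix.mulVec_mulVec (vdec 20) ((gv⁻¹).1).1 (gv.1).1, h1,
      Matrix.one_mulVec]

/-- the images of the first basis line, and the isotropic lines -/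
theorem main [Fintype F] (hF : Fintype.card F = 4) (ω : F)
    (hω : ω ^ 2 + ω + 1 = 0) :
    {L : Submodule F (F9 → F) | ∃ g ∈ threeJ3 F ω, L = Submodule.span F
      {(g : Matrix F9 F9 F).mulVec (Pi.single (0 : F9) (1 : F) : F9 → F)}}.ncard = 23256 ∧
    ∀ v w : F9 → F, v ≠ 0 → w ≠ 0 → ∑ z, (v z) ^ 3 = 0 → ∑ z, (w z) ^ 3 = 0 →
      ∃ g ∈ threeJ3 F ω, ∃ c : F, c ≠ 0 ∧ (g : Matrix F9 F9 F).mulVec v = c • w := by
  have h2 : (2 : F) = 0 := by
    have h4 : ((Fintype.card F : ℕ) : F) = 0 := Nat.cast_card_eq_zero F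
    rw [hF] at h4
    have h5 : (2 : F) * 2 = 0 := by
      rw [← h4]
      norm_num
    exact mul_self_eq_zero.mp h5
  exact ⟨orbit_lines F hF ω (psi F ω h2 hω) (psi_w F ω h2 hω),
    iso_trans F hF ω (psi F ω h2 hω) (psi_w F ω h2 hω)⟩

end field

end Cfsg.Agent.Lib.helper9.J3O
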