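import Mathlib
import Cfsg.Prelude.Def_Spor_J3
import Cfsg.Agent.Lib.helper9.J3Cover

/-! The group generated by the matrices of degree nine of the definitions over a field with four
elements: the generating matrices are words in the seven unitary involutions that satisfy the
relators of the presented Janko group up to scalars, and the involutions are words in the
generating matrices. -/

set_option autoImplicit false

namespace Cfsg.Agent.Lib.helper9.J3P

open Cfsg.Agent.Lib.helper9 Cfsg.Agent.Lib.helper9.CE Cfsg.Agent.Lib.helper9.J3M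
open Cfsg.Agent.Lib.helper9.SP (F4 f4)
open Cfsg.Spor.Fi23 (Gen)
open Cfsg.Spor (F9 j3A j3E j3D j3B j3C j3Gens threeJ3 omegaPow j3Lam)

/-- the numbering of the index set -/
def e9 : F9 ≃ Fin 9 where
  toFun a := ⟨3 * a.1.val + a.2.val, by
    have h1 := ZMod.val_lt a.1
    have h2 := ZMod.val_lt a.2
    omega⟩
  invFun i := (((i.val / 3 : ℕ) : ZMod 3), ((i.val % 3 : ℕ) : ZMod 3))
  left_inv := by decide
  right_inv := by decide

/-- the generating matrices as words in the seven involutions, with their scalars -/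
def DAT : List (Word Gen × Nat) := [([], 1),
  ([(Gen.b, true), (Gen.f, true), (Gen.c, true), (Gen.b, true), (Gen.f, true), (Gen.a, true), (Gen.b, true), (Gen.f, true), (Gen.g, true), (Gen.d, true)], 1),
  ([(Gen.d, true), (Gen.g, true), (Gen.f, true), (Gen.b, true), (Gen.a, true), (Gen.f, true), (Gen.b, true), (Gen.c, true), (Gen.f, true), (Gen.b, true)], 1),
  ([(Gen.b, true), (Gen.e, true), (Gen.f, true), (Gen.g, true), (Gen.f, true), (Gen.d, true), (Gen.e, true), (Gen.c, true), (Gen.a, true)], 3),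
  ([(Gen.b, true), (Gen.a, true), (Gen.e, true), (Gen.f, true), (Gen.e, true), (Gen.d, true), (Gen.e, true), (Gen.c, true), (Gen.f, true), (Gen.e, true), (Gen.b, true)], 1),
  ([(Gen.f, true), (Gen.d, true), (Gen.f, true), (Gen.g, true), (Gen.e, true), (Gen.a, true), (Gen.f, true), (Gen.c, true), (Gen.f, true), (Gen.c, true)], 2),
  ([(Gen.a, true), (Gen.c, true), (Gen.e, true), (Gen.d, true), (Gen.f, true), (Gen.g, true), (Gen.f, true), (Gen.e, true), (Gen.b, true)], 2),
  ([(Gen.c, true), (Gen.f, true), (Gen.c, true), (Gen.f, true), (Gen.a, true), (Gen.e, true), (Gen.g, true), (Gen.f, true), (Gen.d, true), (Gen.f, true)], 3),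
  ([(Gen.b, true), (Gen.e, true), (Gen.f, true), (Gen.c, true), (Gen.e, true), (Gen.d, true), (Gen.e, true), (Gen.f, true), (Gen.e, true), (Gen.a, true), (Gen.b, true)], 1),
  ([(Gen.f, true), (Gen.d, true), (Gen.f, true), (Gen.d, true), (Gen.e, true), (Gen.b, true), (Gen.c, true), (Gen.a, true), (Gen.e, true), (Gen.f, true), (Gen.a, true)], 2),
  ([(Gen.c, true), (Gen.b, true), (Gen.d, true), (Gen.g, true), (Gen.c, true), (Gen.g, true), (Gen.d, true), (Gen.a, true), (Gen.e, true), (Gen.b, true), (Gen.a, true)], 1),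
  ([(Gen.g, true), (Gen.b, true), (Gen.g, true), (Gen.c, true), (Gen.a, true), (Gen.e, true), (Gen.c, true), (Gen.g, true), (Gen.a, true), (Gen.f, true)], 3),
  ([(Gen.c, true), (Gen.d, true), (Gen.g, true), (Gen.f, true), (Gen.d, true), (Gen.e, true), (Gen.a, true), (Gen.e, true), (Gen.b, true), (Gen.f, true), (Gen.c, true)], 2),
  ([(Gen.g, true), (Gen.a, true), (Gen.d, true), (Gen.f, true), (Gen.a, true), (Gen.f, true), (Gen.e, true), (Gen.f, true), (Gen.d, true), (Gen.c, true)], 1),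
  ([(Gen.a, true), (Gen.e, true), (Gen.g, true), (Gen.b, true), (Gen.e, true), (Gen.d, true), (Gen.c, true), (Gen.a, true), (Gen.f, true), (Gen.d, true)], 2),
  ([(Gen.e, true), (Gen.f, true), (Gen.a, true), (Gen.f, true), (Gen.c, true), (Gen.e, true), (Gen.g, true), (Gen.a, true), (Gen.c, true), (Gen.f, true)], 3),
  ([(Gen.c, true), (Gen.e, true), (Gen.d, true), (Gen.f, true), (Gen.d, true), (Gen.a, true), (Gen.f, true), (Gen.c, true), (Gen.a, true)], 1),
  ([(Gen.c, true), (Gen.d, true), (Gen.g, true), (Gen.a, true), (Gen.g, true), (Gen.e, true), (Gen.d, true), (Gen.b, true), (Gen.a, true), (Gen.e, true)], 3),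
  ([], 1),
  ([(Gen.f, true), (Gen.e, true), (Gen.d, true), (Gen.c, true), (Gen.d, true), (Gen.f, true), (Gen.b, true), (Gen.c, true), (Gen.a, true), (Gen.d, true)], 3),
  ([(Gen.g, true), (Gen.f, true), (Gen.e, true), (Gen.d, true), (Gen.f, true), (Gen.c, true), (Gen.e, true), (Gen.f, true), (Gen.a, true), (Gen.b, true)], 2),
  ([(Gen.b, true), (Gen.f, true), (Gen.g, true), (Gen.a, true), (Gen.c, true), (Gen.d, true), (Gen.a, true), (Gen.f, true), (Gen.b, true), (Gen.e, true), (Gen.a, true)], 3),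
  ([(Gen.a, true), (Gen.c, true), (Gen.e, true), (Gen.d, true), (Gen.f, true), (Gen.c, true), (Gen.g, true), (Gen.c, true)], 2),
  ([(Gen.a, true), (Gen.d, true), (Gen.b, true), (Gen.f, true), (Gen.e, true), (Gen.a, true), (Gen.e, true), (Gen.c, true), (Gen.f, true), (Gen.e, true)], 2),
  ([(Gen.b, true), (Gen.e, true), (Gen.g, true), (Gen.f, true), (Gen.e, true), (Gen.d, true), (Gen.e, true), (Gen.a, true), (Gen.d, true), (Gen.b, true), (Gen.a, true)], 1),
  ([(Gen.e, true), (Gen.f, true), (Gen.c, true), (Gen.e, true), (Gen.a, true), (Gen.e, true), (Gen.f, true), (Gen.b, true), (Gen.d, true), (Gen.a, true)], 3),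
  ([(Gen.c, true), (Gen.g, true), (Gen.c, true), (Gen.f, true), (Gen.d, true), (Gen.e, true), (Gen.c, true), (Gen.a, true)], 3),
  ([], 1),
  ([(Gen.g, true), (Gen.a, true), (Gen.b, true), (Gen.f, true), (Gen.b, true), (Gen.f, true), (Gen.g, true), (Gen.a, true), (Gen.d, true), (Gen.f, true), (Gen.b, true)], 3),
  ([(Gen.f, true), (Gen.a, true), (Gen.b, true), (Gen.a, true), (Gen.b, true), (Gen.f, true), (Gen.d, true), (Gen.e, true), (Gen.f, true), (Gen.b, true), (Gen.a, true)], 3),
  ([], 1),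
  ([(Gen.c, true), (Gen.f, true), (Gen.e, true), (Gen.c, true), (Gen.d, true), (Gen.e, true), (Gen.a, true), (Gen.d, true), (Gen.g, true), (Gen.c, true)], 3),
  ([(Gen.e, true), (Gen.b, true), (Gen.f, true), (Gen.d, true), (Gen.f, true), (Gen.e, true), (Gen.g, true), (Gen.a, true), (Gen.e, true)], 2),
  ([(Gen.f, true), (Gen.b, true), (Gen.c, true), (Gen.f, true), (Gen.c, true), (Gen.f, true), (Gen.c, true), (Gen.b, true), (Gen.f, true)], 1),
  ([(Gen.c, true), (Gen.g, true), (Gen.d, true), (Gen.a, true), (Gen.e, true), (Gen.d, true), (Gen.c, true), (Gen.e, true), (Gen.f, true), (Gen.c, true)], 2),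
  ([(Gen.e, true), (Gen.a, true), (Gen.g, true), (Gen.e, true), (Gen.f, true), (Gen.d, true), (Gen.f, true), (Gen.b, true), (Gen.e, true)], 3),
  ([], 1),
  ([(Gen.g, true), (Gen.c, true), (Gen.b, true), (Gen.f, true), (Gen.g, true), (Gen.a, true), (Gen.b, true), (Gen.a, true), (Gen.b, true)], 3),
  ([(Gen.g, true), (Gen.e, true), (Gen.d, true), (Gen.g, true), (Gen.c, true), (Gen.e, true), (Gen.d, true), (Gen.c, true), (Gen.d, true), (Gen.e, true)], 3),
  ([(Gen.g, true), (Gen.d, true), (Gen.f, true), (Gen.d, true), (Gen.e, true), (Gen.c, true), (Gen.g, true), (Gen.f, true), (Gen.e, true), (Gen.d, true)], 1),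
  ([(Gen.b, true), (Gen.g, true), (Gen.f, true), (Gen.g, true), (Gen.b, true), (Gen.d, true), (Gen.f, true), (Gen.g, true), (Gen.c, true), (Gen.b, true)], 2),
  ([(Gen.a, true), (Gen.e, true), (Gen.b, true), (Gen.g, true), (Gen.e, true), (Gen.g, true), (Gen.e, true), (Gen.g, true), (Gen.b, true), (Gen.a, true)], 1),
  ([(Gen.c, true), (Gen.d, true), (Gen.f, true), (Gen.c, true), (Gen.a, true), (Gen.c, true), (Gen.e, true), (Gen.c, true), (Gen.a, true), (Gen.c, true)], 1),
  ([(Gen.f, true), (Gen.a, true), (Gen.d, true), (Gen.a, true), (Gen.f, true), (Gen.d, true), (Gen.f, true), (Gen.g, true), (Gen.e, true)], 1),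
  ([(Gen.f, true), (Gen.g, true), (Gen.e, true), (Gen.a, true), (Gen.c, true), (Gen.a, true), (Gen.b, true), (Gen.e, true), (Gen.g, true), (Gen.f, true)], 1)]

/-- the seven involutions as words in the generating matrices -/
def wx : Gen → List Nat
  | .a => [37, 21, 37, 21, 43, 19, 37, 20, 42]
  | .b => [12, 24, 37, 19, 41, 1, 37, 25, 42, 10]
  | .c => [37, 23, 22, 39, 26, 1, 41]
  | .d => [9, 13, 37, 23, 39, 19, 44, 17]
  | .e => [37, 4, 22, 44, 26, 9, 37]
  | .f => [37, 11, 20, 41, 19, 37]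
  | .g => [11, 37, 19, 37, 23, 10, 44, 22, 22]
  | _ => []

/-- the scalars of the words of the involutions -/
def tx : Gen → Nat
  | .a => 3
  | .b => 3
  | .c => 2
  | .d => 3
  | .e => 3
  | .f => 1
  | .g => 1
  | _ => 1

/-- the entry of the table at a number -/
def dat (n : Nat) : Word Gen × Nat := DAT.getD n ([], 1)

/-- the generating matrices over the field with four elements -/
def pmat : Nat → F9 → Matrix F9 F9 F4
  | 0 => j3A F4 (f4 2)
  | 1 => j3E F4 (f4 2)
  | 2 => j3D F4 (f4 2)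
  | 3 => j3B F4
  | _ => j3C F4

/-- the entries of the generating matrices -/
def pent (k : Nat) (Z a b : F9) : F4 := pmat k Z a b

/-- the entries of the words of the table, with their scalars -/
noncomputable def went (n : Nat) (a b : F9) : F4 :=
  f4 (dat n).2 * vdec (vwalk (dat n).1 (4 ^ (e9 b).val)) (e9 a)

theorem chk : ∀ k : Fin 5, ∀ Z : F9, (k.val < 3 ∨ Z ≠ 0) → ∀ a b : F9,
    pent k.val Z a b = went (9 * k.val + (e9 Z).val) a b := by
  decide +kernel

theorem hdat2 : ∀ n : Fin 45, (dat n.val).2 ∈ [1, 2, 3] := by decide +kernel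

/-- the words of the table along a list of numbers -/
def catW : List Nat → Word Gen
  | [] => []
  | n :: ns => (dat n).1 ++ catW ns

theorem hwx : ∀ x : Gen, ∀ j : Fin 9,
    vwalk (catW (wx x) ++ [(x, true)]) (4 ^ j.val) = tx x * 4 ^ j.val := by
  intro x
  cases x <;> decide +kernel

theorem htx : ∀ x : Gen, tx x ∈ [1, 2, 3] := by
  intro x
  cases x <;> decide

theorem hwxv : ∀ x : Gen, ∀ n ∈ wx x, n < 45 ∧ (n < 27 ∨ n % 9 ≠ 0) := by
  intro x
  cases x <;> decide

theorem hzwalk : ∀ j : Fin 9,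
    vwalk ((dat 12).1 ++ (dat 9).1 ++ (dat 9).1 ++ (dat 6).1) (4 ^ j.val) = 1 * 4 ^ j.val := by
  decide +kernel

theorem hzsc : f4 (dat 12).2 * f4 (dat 9).2 * f4 (dat 9).2 * f4 (dat 6).2 * f4 1 = f4 2 := by
  decide +kernel

theorem evalM_entry (L : Word Gen) (i j : Fin 9) : evalM L i j = vdec (vwalk L (4 ^ j.val)) i := by
  have h1 := vwalk_spec L (4 ^ j.val)
  rw [vdec_e j, Matrix.mulVec_single_one] at h1
  have h3 := congrFun h1 i
  simp only [Matrix.col_apply] at h3
  exact h3.symm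

theorem evalM_append : ∀ L1 L2 : Word Gen, evalM (L1 ++ L2) = evalM L1 * evalM L2
  | [], L2 => by rw [List.nil_append, evalM, one_mul]
  | l :: L1, L2 => by
    show mat (gm l.1) * evalM (L1 ++ L2) = mat (gm l.1) * evalM L1 * evalM L2
    rw [evalM_append L1 L2, Matrix.mul_assoc]

/-- the scalar elements -/
noncomputable def zp : Nat → ↥(Cfsg.SU 9 F4 2)
  | 2 => z
  | 3 => z * z
  | _ => 1

theorem zp_val (t : Nat) (ht : t ∈ [1, 2, 3]) :
    ((zp t).1).1 = f4 t • (1 : Matrix (Fin 9) (Fin 9) F4) := by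
  simp only [List.mem_cons, List.mem_nil_iff, or_false] at ht
  rcases ht with rfl | rfl | rfl
  · show (1 : Matrix (Fin 9) (Fin 9) F4) = f4 1 • (1 : Matrix (Fin 9) (Fin 9) F4)
    have h1 : f4 1 = (1 : F4) := by decide
    rw [h1, one_smul]
  · exact z_val
  · show (z.1).1 * (z.1).1 = f4 3 • (1 : Matrix (Fin 9) (Fin 9) F4)
    rw [z_val, Matrix.smul_mul, Matrix.mul_smul, one_mul, smul_smul]
    have h1 : f4 2 * f4 2 = f4 3 := by decide
    rw [h1]

theorem zp_mem (t : Nat) : zp t ∈ Subgroup.zpowers z := by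
  unfold zp
  split
  · exact Subgroup.mem_zpowers z
  · exact Subgroup.mul_mem _ (Subgroup.mem_zpowers z) (Subgroup.mem_zpowers z)
  · exact Subgroup.one_mem _

/-- the elements of the words with their scalars -/
noncomputable def gS (p : Word Gen × Nat) : ↥(Cfsg.SU 9 F4 2) :=
  zp p.2 * FreeGroup.lift s (FreeGroup.mk p.1)

theorem gS_val (p : Word Gen × Nat) (ht : p.2 ∈ [1, 2, 3]) :
    ((gS p).1).1 = f4 p.2 • evalM p.1 := by
  show ((zp p.2).1).1 * ((FreeGroup.lift s (FreeGroup.mk p.1)).1).1 = f4 p.2 • evalM p.1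
  rw [zp_val _ ht, lift_val, Matrix.smul_mul, one_mul]

theorem z_mem_closure : z ∈ Subgroup.closure (Set.range s) := by
  have h : z ∈ (FreeGroup.lift s).range := ⟨_, rfl⟩
  rwa [FreeGroup.range_lift_eq_closure] at h

theorem gS_mem (p : Word Gen × Nat) : gS p ∈ Subgroup.closure (Set.range s) := by
  have hl : FreeGroup.lift s (FreeGroup.mk p.1) ∈ Subgroup.closure (Set.range s) := by
    have h : FreeGroup.lift s (FreeGroup.mk p.1) ∈ (FreeGroup.lift s).range := ⟨_, rfl⟩
    rwa [FreeGroup.range_lift_eq_closure] at h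
  exact Subgroup.mul_mem _ ((Subgroup.zpowers_le.mpr z_mem_closure) (zp_mem p.2)) hl

theorem z_eq : z = gS (dat 12) * gS (dat 9) * gS (dat 9) * gS (dat 6) := by
  apply Subtype.ext
  apply Subtype.ext
  show (z.1).1 =
    ((gS (dat 12)).1).1 * ((gS (dat 9)).1).1 * ((gS (dat 9)).1).1 * ((gS (dat 6)).1).1
  rw [z_val, gS_val _ (hdat2 ⟨12, by norm_num⟩), gS_val _ (hdat2 ⟨9, by norm_num⟩),
    gS_val _ (hdat2 ⟨6, by norm_num⟩), smul_mul_smul_comm, smul_mul_smul_comm,
    smul_mul_smul_comm, ← evalM_append, ← evalM_append, ← evalM_append,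
    eq_smul_of_walk _ 1 (by decide) hzwalk, smul_smul, hzsc]

section field

variable (F : Type) [Field F] (ω : F)

/-- zero or one -/
def bF (b : Bool) : F := if b then 1 else 0

theorem bF_xor (h2 : (2 : F) = 0) (a b : Bool) : bF F (xor a b) = bF F a + bF F b := by
  have h11 : (1 : F) + 1 = 0 := by rw [one_add_one_eq_two]; exact h2
  cases a <;> cases b <;> simp [bF, h11]

theorem bF_and (a b : Bool) : bF F (a && b) = bF F a * bF F b := by
  cases a <;> cases b <;> simp [bF]

/-- the map of the fields -/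
def psi (h2 : (2 : F) = 0) (hω : ω ^ 2 + ω + 1 = 0) : F4 →+* F where
  toFun x := bF F x.re + bF F x.im * ω
  map_one' := by
    show bF F true + bF F false * ω = 1
    simp [bF]
  map_mul' := by
    rintro ⟨a, b⟩ ⟨c, d⟩
    show bF F (xor (a && c) (b && d)) + bF F (xor (xor (a && d) (b && c)) (b && d)) * ω =
      (bF F a + bF F b * ω) * (bF F c + bF F d * ω)
    simp only [bF_xor F h2, bF_and]
    linear_combination (-(bF F b * bF F d)) * hω + (bF F b * bF F d * (1 + ω)) * h2
  map_zero' := by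
    show bF F false + bF F false * ω = 0
    simp [bF]
  map_add' := by
    rintro ⟨a, b⟩ ⟨c, d⟩
    show bF F (xor a c) + bF F (xor b d) * ω = bF F a + bF F b * ω + (bF F c + bF F d * ω)
    simp only [bF_xor F h2]
    ring

theorem psi_w (h2 : (2 : F) = 0) (hω : ω ^ 2 + ω + 1 = 0) : psi F ω h2 hω (f4 2) = ω := by
  have e : f4 2 = ⟨false, true⟩ := by decide
  rw [e]
  show bF F false + bF F true * ω = ω
  simp [bF]

/-- the map of the matrices -/
def Phi (ψ : F4 →+* F) : Matrix (Fin 9) (Fin 9) F4 →* Matrix F9 F9 F where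
  toFun M := Matrix.of fun a b => ψ (M (e9 a) (e9 b))
  map_one' := by
    ext a b
    show ψ ((1 : Matrix (Fin 9) (Fin 9) F4) (e9 a) (e9 b)) = (1 : Matrix F9 F9 F) a b
    rw [Matrix.one_apply, Matrix.one_apply]
    by_cases h : a = b
    · subst h
      simp
    · have h' : e9 a ≠ e9 b := fun hh => h (e9.injective hh)
      simp [h, h']
  map_mul' M N := by
    ext a b
    show ψ ((M * N) (e9 a) (e9 b)) = (Matrix.of (fun a b => ψ (M (e9 a) (e9 b))) *
      Matrix.of (fun a b => ψ (N (e9 a) (e9 b)))) a b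
    rw [Matrix.mul_apply, Matrix.mul_apply, map_sum]
    simp only [map_mul, Matrix.of_apply]
    exact (Fintype.sum_equiv e9 _ _ (fun _ => rfl)).symm

/-- the map of the unitary matrices to the general linear group -/
noncomputable def Theta (ψ : F4 →+* F) : ↥(Cfsg.SU 9 F4 2) →* Matrix.GeneralLinearGroup F9 F :=
  (Units.map (Phi F ψ)).comp (Matrix.SpecialLinearGroup.toGL.comp (Cfsg.SU 9 F4 2).subtype)

theorem Theta_val (ψ : F4 →+* F) (g : ↥(Cfsg.SU 9 F4 2)) (a b : F9) :
    ((Theta F ψ g : Matrix.GeneralLinearGroup F9 F) : Matrix F9 F9 F) a b =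
      ψ ((g.1).1 (e9 a) (e9 b)) := rfl

theorem Theta_inj (ψ : F4 →+* F) : Function.Injective (Theta F ψ) := by
  intro g g' h
  apply Subtype.ext
  apply Subtype.ext
  ext i j
  have h1 := congrFun (congrFun (congrArg
    (fun u : Matrix.GeneralLinearGroup F9 F => (u : Matrix F9 F9 F)) h) (e9.symm i)) (e9.symm j)
  simp only [Theta_val, Equiv.apply_symm_apply] at h1
  exact ψ.injective h1

theorem pmat_map (ψ : F4 →+* F) (hψ : ψ (f4 2) = ω) (Z : F9) :
    (pmat 0 Z).map ψ = j3A F ω Z ∧ (pmat 1 Z).map ψ = j3E F ω Z ∧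
      (pmat 2 Z).map ψ = j3D F ω Z ∧ (pmat 3 Z).map ψ = j3B F Z ∧
      (pmat 4 Z).map ψ = j3C F Z := by
  refine ⟨?_, ?_, ?_, ?_, ?_⟩
  · show (j3A F4 (f4 2) Z).map ψ = j3A F ω Z
    unfold j3A
    rw [Matrix.diagonal_map (map_zero ψ)]
    congr 1
    funext z
    simp only [omegaPow, map_pow, hψ]
  · show (j3E F4 (f4 2) Z).map ψ = j3E F ω Z
    unfold j3E
    rw [Matrix.diagonal_map (map_zero ψ)]
    congr 1
    funext z
    simp only [omegaPow, map_pow, hψ]
  · show (j3D F4 (f4 2) Z).map ψ = j3D F ω Z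
    ext a b
    simp only [j3D, Matrix.map_apply, Matrix.of_apply]
    split_ifs
    · unfold j3Lam
      split_ifs <;> simp [hψ]
    · exact map_zero ψ
  · show (j3B F4 Z).map ψ = j3B F Z
    ext a b
    simp only [j3B, Matrix.map_apply, Matrix.of_apply]
    split_ifs <;> simp
  · show (j3C F4 Z).map ψ = j3C F Z
    ext a b
    simp only [j3C, Matrix.map_apply, Matrix.of_apply]
    split_ifs <;> simp

theorem Theta_gS (ψ : F4 →+* F) (k : Fin 5) (Z : F9) (hv : k.val < 3 ∨ Z ≠ 0) :
    ((Theta F ψ (gS (dat (9 * k.val + (e9 Z).val))) : Matrix.GeneralLinearGroup F9 F) :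
      Matrix F9 F9 F) = (pmat k.val Z).map ψ := by
  ext a b
  have hn : 9 * k.val + (e9 Z).val < 45 := by
    have h1 := k.2
    have h2 := (e9 Z).2
    omega
  rw [Theta_val, gS_val _ (hdat2 ⟨_, hn⟩), Matrix.smul_apply, smul_eq_mul, evalM_entry]
  exact congrArg ψ (chk k Z hv a b).symm

theorem closure_eq (ψ : F4 →+* F) (hψ : ψ (f4 2) = ω) :
    threeJ3 F ω = (Subgroup.closure (Set.range s)).map (Theta F ψ) := by
  apply le_antisymm
  · unfold threeJ3
    rw [Subgroup.closure_le]
    intro g hg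
    have key : ∀ (k : Fin 5) (Z : F9), (k.val < 3 ∨ Z ≠ 0) →
        (g : Matrix F9 F9 F) = (pmat k.val Z).map ψ →
        g ∈ (Subgroup.closure (Set.range s)).map (Theta F ψ) := by
      intro k Z hv hgk
      have e : g = Theta F ψ (gS (dat (9 * k.val + (e9 Z).val))) := by
        apply Units.ext
        rw [Theta_gS F ψ k Z hv, hgk]
      rw [e]
      exact Subgroup.mem_map_of_mem _ (gS_mem _)
    have hg' : (g : Matrix F9 F9 F) ∈ j3Gens F ω := hg
    unfold j3Gens at hg'
    obtain ⟨h0, h1, h2, h3, h4⟩ : (∀ Z, (pmat 0 Z).map ψ = j3A F ω Z) ∧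
        (∀ Z, (pmat 1 Z).map ψ = j3E F ω Z) ∧ (∀ Z, (pmat 2 Z).map ψ = j3D F ω Z) ∧
        (∀ Z, (pmat 3 Z).map ψ = j3B F Z) ∧ (∀ Z, (pmat 4 Z).map ψ = j3C F Z) :=
      ⟨fun Z => (pmat_map F ω ψ hψ Z).1, fun Z => (pmat_map F ω ψ hψ Z).2.1,
        fun Z => (pmat_map F ω ψ hψ Z).2.2.1, fun Z => (pmat_map F ω ψ hψ Z).2.2.2.1,
        fun Z => (pmat_map F ω ψ hψ Z).2.2.2.2⟩
    rcases hg' with (((⟨Z, hZ⟩ | ⟨Z, hZ⟩) | ⟨Z, hZ⟩) | ⟨Z, hZ0, hZ⟩) | ⟨Z, hZ0, hZ⟩
    · exact key 0 Z (Or.inl (by decide)) (hZ.symm.trans (h0 Z).symm)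
    · exact key 1 Z (Or.inl (by decide)) (hZ.symm.trans (h1 Z).symm)
    · exact key 2 Z (Or.inl (by decide)) (hZ.symm.trans (h2 Z).symm)
    · exact key 3 Z (Or.inr hZ0) (hZ.trans (h3 Z).symm)
    · exact key 4 Z (Or.inr hZ0) (hZ.trans (h4 Z).symm)
  · rw [Subgroup.map_le_iff_le_comap, Subgroup.closure_le]
    have hA : ∀ (k : Fin 5) (Z : F9), (k.val < 3 ∨ Z ≠ 0) →
        gS (dat (9 * k.val + (e9 Z).val)) ∈ (threeJ3 F ω).comap (Theta F ψ) := by
      intro k Z hv
      rw [Subgroup.mem_comap]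
      apply Subgroup.subset_closure
      show ((Theta F ψ (gS (dat (9 * k.val + (e9 Z).val))) : Matrix.GeneralLinearGroup F9 F) :
        Matrix F9 F9 F) ∈ j3Gens F ω
      rw [Theta_gS F ψ k Z hv]
      obtain ⟨h0, h1, h2, h3, h4⟩ := pmat_map F ω ψ hψ Z
      unfold j3Gens
      have hk : k.val = 0 ∨ k.val = 1 ∨ k.val = 2 ∨ k.val = 3 ∨ k.val = 4 := by
        have := k.2
        omega
      rcases hk with hk | hk | hk | hk | hk
      · rw [hk, h0]
        exact Or.inl (Or.inl (Or.inl (Or.inl ⟨Z, rfl⟩)))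
      · rw [hk, h1]
        exact Or.inl (Or.inl (Or.inl (Or.inr ⟨Z, rfl⟩)))
      · rw [hk, h2]
        exact Or.inl (Or.inl (Or.inr ⟨Z, rfl⟩))
      · rw [hk, h3]
        refine Or.inl (Or.inr ⟨Z, ?_, rfl⟩)
        rcases hv with hv | hv
        · omega
        · exact hv
      · rw [hk, h4]
        refine Or.inr ⟨Z, ?_, rfl⟩
        rcases hv with hv | hv
        · omega
        · exact hv
    have hN : ∀ n : Nat, n < 45 ∧ (n < 27 ∨ n % 9 ≠ 0) →
        gS (dat n) ∈ (threeJ3 F ω).comap (Theta F ψ) := by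
      intro n hn
      have h1 := hA ⟨n / 9, by omega⟩ (e9.symm ⟨n % 9, by omega⟩) (by
        rcases hn.2 with h | h
        · left
          show n / 9 < 3
          omega
        · right
          intro h0
          apply h
          have h2 := congrArg (fun Z => (e9 Z).val) h0
          simp only [Equiv.apply_symm_apply] at h2
          exact h2)
      simp only [Equiv.apply_symm_apply] at h1
      rw [Nat.div_add_mod] at h1
      exact h1
    have hz : z ∈ (threeJ3 F ω).comap (Theta F ψ) := by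
      rw [z_eq]
      exact mul_mem (mul_mem (mul_mem (hN 12 (by decide)) (hN 9 (by decide))) (hN 9 (by decide)))
        (hN 6 (by decide))
    have hzp : ∀ t, zp t ∈ (threeJ3 F ω).comap (Theta F ψ) := fun t =>
      (Subgroup.zpowers_le.mpr hz) (zp_mem t)
    have hl : ∀ n : Nat, n < 45 ∧ (n < 27 ∨ n % 9 ≠ 0) →
        FreeGroup.lift s (FreeGroup.mk (dat n).1) ∈ (threeJ3 F ω).comap (Theta F ψ) := by
      intro n hn
      have e : FreeGroup.lift s (FreeGroup.mk (dat n).1) = (zp (dat n).2)⁻¹ * gS (dat n) := by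
        unfold gS
        group
      rw [e]
      exact mul_mem (inv_mem (hzp _)) (hN n hn)
    have hcat : ∀ ns : List Nat, (∀ n ∈ ns, n < 45 ∧ (n < 27 ∨ n % 9 ≠ 0)) →
        FreeGroup.lift s (FreeGroup.mk (catW ns)) ∈ (threeJ3 F ω).comap (Theta F ψ) := by
      intro ns
      induction ns with
      | nil =>
        intro _
        exact one_mem _
      | cons n ns ih =>
        intro h
        have e : FreeGroup.mk (catW (n :: ns)) =
            FreeGroup.mk (dat n).1 * FreeGroup.mk (catW ns) := by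
          rw [FreeGroup.mul_mk]
          rfl
        rw [e, map_mul]
        exact mul_mem (hl n (h n List.mem_cons_self))
          (ih (fun m hm => h m (List.mem_cons_of_mem _ hm)))
    rintro _ ⟨x, rfl⟩
    show s x ∈ (threeJ3 F ω).comap (Theta F ψ)
    have hu : FreeGroup.lift s (FreeGroup.mk (catW (wx x) ++ [(x, true)])) ∈
        Subgroup.zpowers z := by
      apply mem_zpowers_of_scalar _ (tx x) (htx x)
      rw [lift_val]
      exact eq_smul_of_walk _ (tx x) (htx x) (hwx x)
    have e : FreeGroup.mk (catW (wx x) ++ [(x, true)]) =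
        FreeGroup.mk (catW (wx x)) * FreeGroup.of x := by
      rw [FreeGroup.of, FreeGroup.mul_mk]
    rw [e, map_mul, FreeGroup.lift_apply_of] at hu
    have hc := hcat (wx x) (hwxv x)
    have e2 : s x = (FreeGroup.lift s (FreeGroup.mk (catW (wx x))))⁻¹ *
        (FreeGroup.lift s (FreeGroup.mk (catW (wx x))) * s x) := by
      group
    rw [e2]
    exact mul_mem (inv_mem hc) ((Subgroup.zpowers_le.mpr hz) hu)

end field

theorem transfer {A B : Type*} [Group A] [Group B] (e : A ≃* B) (N : ℕ)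
    (h : Nat.card (Subgroup.center A) = 3 ∧ IsSimpleGroup (A ⧸ Subgroup.center A) ∧
      Nat.card (A ⧸ Subgroup.center A) = N) :
    Nat.card (Subgroup.center B) = 3 ∧ Nat.card B = N * 3 ∧
      Nat.card (B ⧸ Subgroup.center B) = N ∧ IsSimpleGroup (B ⧸ Subgroup.center B) := by
  obtain ⟨h1, h2, h3⟩ := h
  have hmap : (Subgroup.center A).map (e : A →* B) = Subgroup.center B := by
    ext b
    rw [Subgroup.mem_map]
    constructor
    · rintro ⟨a, ha, rfl⟩
      rw [Subgroup.mem_center_iff]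
      intro g
      obtain ⟨g', rfl⟩ := e.surjective g
      show e g' * e a = e a * e g'
      rw [← map_mul, ← map_mul, Subgroup.mem_center_iff.mp ha g']
    · intro hb
      refine ⟨e.symm b, ?_, e.apply_symm_apply b⟩
      rw [Subgroup.mem_center_iff]
      intro g
      apply e.injective
      rw [map_mul, map_mul, e.apply_symm_apply]
      exact Subgroup.mem_center_iff.mp hb (e g)
  have q : A ⧸ Subgroup.center A ≃* B ⧸ Subgroup.center B := QuotientGroup.congr _ _ e hmap
  have c1 : Nat.card (Subgroup.center B) = 3 := by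
    rw [← h1]
    exact (Nat.card_congr (Subgroup.centerCongr e).toEquiv).symm
  have c3 : Nat.card (B ⧸ Subgroup.center B) = N := by
    rw [← h3]
    exact (Nat.card_congr q.toEquiv).symm
  refine ⟨c1, ?_, c3, (MulEquiv.isSimpleGroup_congr q).mp h2⟩
  rw [Subgroup.card_eq_card_quotient_mul_card_subgroup (Subgroup.center B), c1, c3]

/-- the group of the definitions: its centre, its order and its quotient -/
theorem main (F : Type) [Field F] [Fintype F] (hF : Fintype.card F = 4) (ω : F)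
    (hω : ω ^ 2 + ω + 1 = 0) :
    Nat.card ↥(Subgroup.center ↥(threeJ3 F ω)) = 3 ∧ Nat.card ↥(threeJ3 F ω) = 150698880 ∧
      Nat.card (Cfsg.Spor.J3 F ω) = 50232960 ∧ IsSimpleGroup (Cfsg.Spor.J3 F ω) := by
  have h2 : (2 : F) = 0 := by
    have h4 : ((Fintype.card F : ℕ) : F) = 0 := Nat.cast_card_eq_zero F
    rw [hF] at h4
    have h5 : (2 : F) * 2 = 0 := by
      rw [← h4]
      norm_num
    exact mul_self_eq_zero.mp h5
  obtain ⟨_, _, _, _, hfin, hs, hN⟩ := CE0458.main
  haveI := hfin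
  have hc := CV.center_of_cover CE0458t.RL hs 50232960 hN (by norm_num) s z z_central z_order _
    rfl z_mem_closure hrel Gen.a s_not_mem
  have hT := closure_eq F ω (psi F ω h2 hω) (psi_w F ω h2 hω)
  have e : ↥(Subgroup.closure (Set.range s)) ≃* ↥(threeJ3 F ω) :=
    ((Subgroup.closure (Set.range s)).equivMapOfInjective _ (Theta_inj F _)).trans
      (MulEquiv.subgroupCongr hT.symm)
  obtain ⟨r1, r2, r3, r4⟩ := transfer e 50232960 hc
  exact ⟨r1, by rw [r2], r3, r4⟩

end Cfsg.Agent.Lib.helper9.J3P
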