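import Mathlib
import Cfsg.Agent.Lib.helper2.SLGen
import Cfsg.Agent.Lib.helper2.SLCard

/-!
# Tools for recognising `PSL(3, 7)`, extended by a graph automorphism, as a presented group

* `M9`: 3 × 3 matrices with natural number entries, multiplied mod 7 (for kernel computation);
* `sg`: the inverse-transpose automorphism of `SL(3, 7)`;
* the inner automorphisms of `SL(3, 7)` form a copy of `PSL(3, 7)`.
-/

set_option autoImplicit false

namespace Cfsg.Agent.Lib.helper9.L37

open Matrix

/-- 7 is a prime number -/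
instance fact7 : Fact (Nat.Prime 7) := ⟨by norm_num⟩

/-- the special linear group SL(3, 7) -/
abbrev S : Type := Matrix.SpecialLinearGroup (Fin 3) (ZMod 7)

/-- the projective special linear group PSL(3, 7) -/
abbrev P : Type := Matrix.ProjectiveSpecialLinearGroup (Fin 3) (ZMod 7)

/-- a 3 × 3 matrix with natural number entries -/
structure M9 where
  /-- entry (0, 0) -/ a : Nat
  /-- entry (0, 1) -/ b : Nat
  /-- entry (0, 2) -/ c : Nat
  /-- entry (1, 0) -/ d : Nat
  /-- entry (1, 1) -/ e : Nat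
  /-- entry (1, 2) -/ f : Nat
  /-- entry (2, 0) -/ g : Nat
  /-- entry (2, 1) -/ h : Nat
  /-- entry (2, 2) -/ i : Nat
  deriving DecidableEq

namespace M9

/-- the product, entries reduced mod 7 -/
def mul (m n : M9) : M9 :=
  ⟨(m.a * n.a + m.b * n.d + m.c * n.g) % 7, (m.a * n.b + m.b * n.e + m.c * n.h) % 7,
   (m.a * n.c + m.b * n.f + m.c * n.i) % 7,
   (m.d * n.a + m.e * n.d + m.f * n.g) % 7, (m.d * n.b + m.e * n.e + m.f * n.h) % 7,
   (m.d * n.c + m.e * n.f + m.f * n.i) % 7,
   (m.g * n.a + m.h * n.d + m.i * n.g) % 7, (m.g * n.b + m.h * n.e + m.i * n.h) % 7,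
   (m.g * n.c + m.h * n.f + m.i * n.i) % 7⟩

/-- the identity -/
def one : M9 := ⟨1, 0, 0, 0, 1, 0, 0, 0, 1⟩

/-- the scalar matrix -/
def sc (k : Nat) : M9 := ⟨k, 0, 0, 0, k, 0, 0, 0, k⟩

/-- the transpose -/
def tr (m : M9) : M9 := ⟨m.a, m.d, m.g, m.b, m.e, m.h, m.c, m.f, m.i⟩

/-- the determinant mod 7 -/
def det9 (m : M9) : Nat :=
  (m.a * (m.e * m.i + 6 * (m.f * m.h)) + 6 * (m.b * (m.d * m.i + 6 * (m.f * m.g)))
    + m.c * (m.d * m.h + 6 * (m.e * m.g))) % 7

/-- the matrix over the field with 7 elements -/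
def toMat (m : M9) : Matrix (Fin 3) (Fin 3) (ZMod 7) :=
  !![(m.a : ZMod 7), m.b, m.c; m.d, m.e, m.f; m.g, m.h, m.i]

theorem toMat_mul (m n : M9) : toMat (m.mul n) = toMat m * toMat n := by
  ext i j
  fin_cases i <;> fin_cases j <;>
    simp [toMat, mul, Matrix.mul_apply, Fin.sum_univ_three, ZMod.natCast_mod]

theorem toMat_one : toMat one = 1 := by
  ext i j
  fin_cases i <;> fin_cases j <;> simp [toMat, one]

theorem toMat_tr (m : M9) : (toMat m)ᵀ = toMat m.tr := by
  ext i j
  fin_cases i <;> fin_cases j <;> simp [toMat, tr]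

theorem det_toMat (m : M9) : (toMat m).det = ((det9 m : ℕ) : ZMod 7) := by
  have h6 : (6 : ZMod 7) = -1 := by decide
  rw [Matrix.det_fin_three]
  simp only [toMat, det9, ZMod.natCast_mod]
  push_cast
  simp [h6]
  ring

theorem toMat_sc (k : Nat) : toMat (sc k) = Matrix.scalar (Fin 3) (k : ZMod 7) := by
  rw [Matrix.scalar_apply]
  ext i j
  fin_cases i <;> fin_cases j <;> simp [toMat, sc, Matrix.diagonal_apply]

end M9

/-! ### the inverse-transpose automorphism -/

/-- the transpose, in `SL(3, 7)` -/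
def tp (A : S) : S := Matrix.SpecialLinearGroup.transpose A

theorem tp_mul (A B : S) : tp (A * B) = tp B * tp A :=
  Subtype.ext (by simp [tp, Matrix.SpecialLinearGroup.coe_transpose, Matrix.transpose_mul])

theorem tp_one : tp (1 : S) = 1 :=
  Subtype.ext (by simp [tp, Matrix.SpecialLinearGroup.coe_transpose])

theorem tp_tp (A : S) : tp (tp A) = A :=
  Subtype.ext (by simp [tp, Matrix.SpecialLinearGroup.coe_transpose])

theorem tp_inv (A : S) : tp A⁻¹ = (tp A)⁻¹ :=
  eq_inv_of_mul_eq_one_left (by rw [← tp_mul, mul_inv_cancel, tp_one])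

/-- the inverse-transpose automorphism of `SL(3, 7)` -/
def sg : MulAut S where
  toFun A := (tp A)⁻¹
  invFun A := (tp A)⁻¹
  left_inv A := by simp [tp_inv, tp_tp]
  right_inv A := by simp [tp_inv, tp_tp]
  map_mul' A B := by rw [tp_mul, _root_.mul_inv_rev]

theorem sg_apply (A : S) : sg A = (tp A)⁻¹ := rfl

theorem sg_sg (A : S) : sg (sg A) = A := by simp [sg_apply, tp_inv, tp_tp]

theorem sg_mul_sg : sg * sg = 1 := by
  ext A : 1
  rw [MulAut.mul_apply, sg_sg, MulAut.one_apply]

/-- a power of the automorphism -/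
def sp (b : Bool) : MulAut S := cond b sg 1

theorem sp_mul (a b : Bool) : sp a * sp b = sp (xor a b) := by
  cases a <;> cases b <;> simp [sp, sg_mul_sg]

theorem aut_mul_conj (α : MulAut S) (M : S) : α * MulAut.conj M = MulAut.conj (α M) * α := by
  ext A : 1
  simp [MulAut.mul_apply, MulAut.conj_apply]

theorem conj_center (Z : S) (hZ : Z ∈ Subgroup.center S) : MulAut.conj Z = 1 := by
  ext A : 1
  rw [MulAut.conj_apply, MulAut.one_apply, ← Subgroup.mem_center_iff.mp hZ A, mul_inv_cancel_right]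

theorem ker_conj : (MulAut.conj : S →* MulAut S).ker = Subgroup.center S := by
  ext g
  rw [MonoidHom.mem_ker]
  constructor
  · intro h
    rw [Subgroup.mem_center_iff]
    intro x
    have h1 := DFunLike.congr_fun h x
    rw [MulAut.conj_apply, MulAut.one_apply] at h1
    calc x * g = (g * x * g⁻¹) * g := by rw [h1]
      _ = g * x := by group
  · exact conj_center g

/-- scalar matrices are central -/
theorem sc_center (k : Nat) (hk : k ^ 3 % 7 = 1) (A : S) (hA : A.1 = M9.toMat (M9.sc k)) :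
    A ∈ Subgroup.center S := by
  rw [Matrix.SpecialLinearGroup.mem_center_iff]
  refine ⟨(k : ZMod 7), ?_, ?_⟩
  · have h1 : ((k ^ 3 % 7 : ℕ) : ZMod 7) = ((1 : ℕ) : ZMod 7) := by rw [hk]
    rw [ZMod.natCast_mod] at h1
    simpa using h1
  · rw [hA, M9.toMat_sc]

/-- an element of `SL(3, 7)` from an `M9` of determinant 1 -/
def ofM9 (m : M9) (h : M9.det9 m = 1) : S :=
  ⟨M9.toMat m, by rw [M9.det_toMat, h]; simp⟩

theorem ofM9_coe (m : M9) (h : M9.det9 m = 1) : (ofM9 m h).1 = M9.toMat m := rfl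

theorem ofM9_mul (m n : M9) (hm : M9.det9 m = 1) (hn : M9.det9 n = 1) (hmn : M9.det9 (m.mul n) = 1) :
    ofM9 m hm * ofM9 n hn = ofM9 (m.mul n) hmn :=
  Subtype.ext (by rw [Matrix.SpecialLinearGroup.coe_mul, ofM9_coe, ofM9_coe, ofM9_coe, M9.toMat_mul])

theorem ofM9_one (h : M9.det9 M9.one = 1) : ofM9 M9.one h = 1 :=
  Subtype.ext (by rw [ofM9_coe, M9.toMat_one]; rfl)

theorem eq_one_of_coe (A : S) (h : A.1 = M9.toMat M9.one) : A = 1 :=
  Subtype.ext (by rw [h, M9.toMat_one]; rfl)

/-- conjugation by a matrix that is a scalar is trivial -/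
theorem conj_eq_one_of_sc (A : S) (k : Nat) (hk : k ^ 3 % 7 = 1) (hA : A.1 = M9.toMat (M9.sc k)) :
    MulAut.conj A = 1 :=
  conj_center A (sc_center k hk A hA)

/-- conjugation by a scalar multiple -/
theorem conj_eq_of_sc (A T : S) (k : Nat) (hk : k ^ 3 % 7 = 1) (t : M9)
    (hA : A.1 = M9.toMat ((M9.sc k).mul t)) (hT : T.1 = M9.toMat t) :
    MulAut.conj A = MulAut.conj T := by
  have hZ : (A * T⁻¹).1 = M9.toMat (M9.sc k) := by
    rw [Matrix.SpecialLinearGroup.coe_mul, hA, M9.toMat_mul, ← hT, Matrix.mul_assoc,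
      ← Matrix.SpecialLinearGroup.coe_mul, mul_inv_cancel, Matrix.SpecialLinearGroup.coe_one,
      Matrix.mul_one]
  have h4 : MulAut.conj (A * T⁻¹) = 1 := conj_eq_one_of_sc _ k hk hZ
  rw [map_mul, map_inv, mul_inv_eq_one] at h4
  exact h4

/-! ### the order of `PSL(3, 7)` -/

theorem card_P : Nat.card P = 1876896 := by
  have h := Cfsg.Agent.Lib.helper2.SLCard.card_PSL (ZMod 7) 3 (by norm_num)
  rw [ZMod.card, Fin.prod_univ_three] at h
  show Nat.card (Matrix.ProjectiveSpecialLinearGroup (Fin 3) (ZMod 7)) = 1876896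
  generalize Nat.card (Matrix.ProjectiveSpecialLinearGroup (Fin 3) (ZMod 7)) = x at h ⊢
  norm_num at h
  omega

/-- the inner automorphisms of `SL(3, 7)` form a copy of `PSL(3, 7)` -/
noncomputable def innEquiv : P ≃* (MulAut.conj : S →* MulAut S).range :=
  (QuotientGroup.quotientMulEquivOfEq ker_conj.symm).trans
    (QuotientGroup.quotientKerEquivRange (MulAut.conj : S →* MulAut S))

theorem transvection_natCast {i j : Fin 3} (hij : i ≠ j) (n : ℕ) :
    Matrix.SpecialLinearGroup.transvection hij ((n : ℕ) : ZMod 7)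
      = (Matrix.SpecialLinearGroup.transvection hij (1 : ZMod 7)) ^ n := by
  induction n with
  | zero =>
    apply Subtype.ext
    simp [Matrix.SpecialLinearGroup.transvection_coe]
  | succ n ih =>
    rw [pow_succ, ← ih]
    apply Subtype.ext
    rw [Matrix.SpecialLinearGroup.coe_mul]
    show Matrix.transvection i j ((n + 1 : ℕ) : ZMod 7)
      = Matrix.transvection i j ((n : ℕ) : ZMod 7) * Matrix.transvection i j 1
    rw [Matrix.transvection_mul_transvection_same i j hij]
    push_cast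
    rfl

end Cfsg.Agent.Lib.helper9.L37
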