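import Cfsg.Agent.Lib.helper9.L37
import Cfsg.Agent.Lib.helper9.CosetSimple
import Cfsg.Prelude.Def_Spor_ON

/-!
# The sub-presentation of the O'Nan group on `a, …, f` maps onto `PSL(3, 7)` extended by a
graph automorphism

The generators are sent to the polarities `A ↦ G (Aᵀ)⁻¹ G⁻¹` of `SL(3, 7)`, with `G` symmetric.
-/

set_option autoImplicit false

namespace Cfsg.Agent.Lib.helper9.L37ON

open Cfsg.Agent.Lib.helper9 Cfsg.Agent.Lib.helper9.L37 Cfsg.Agent.Lib.helper9.CE
open Cfsg.Spor.ON (Gen)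

/-- the generators that are sent to outer automorphisms (`g` is sent to 1) -/
def par : Gen → Bool
  | .g => false
  | _ => true

/-- the symmetric matrices of the polarities -/
def GC : Gen → M9
  | .g => M9.one
  | .a => ⟨1, 0, 0, 0, 1, 0, 0, 0, 1⟩
  | .b => ⟨1, 0, 0, 0, 2, 0, 0, 0, 4⟩
  | .c => ⟨1, 2, 2, 2, 1, 5, 2, 5, 1⟩
  | .d => ⟨0, 0, 6, 0, 6, 0, 6, 0, 0⟩
  | .e => ⟨0, 1, 0, 1, 0, 0, 0, 0, 6⟩
  | .f => ⟨0, 0, 1, 0, 6, 0, 1, 0, 0⟩

/-- their inverses -/
def GiC : Gen → M9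
  | .g => M9.one
  | .a => ⟨1, 0, 0, 0, 1, 0, 0, 0, 1⟩
  | .b => ⟨1, 0, 0, 0, 4, 0, 0, 0, 2⟩
  | .c => ⟨4, 1, 1, 1, 4, 6, 1, 6, 4⟩
  | .d => ⟨0, 0, 6, 0, 6, 0, 6, 0, 0⟩
  | .e => ⟨0, 1, 0, 1, 0, 0, 0, 0, 6⟩
  | .f => ⟨0, 0, 1, 0, 6, 0, 1, 0, 0⟩

theorem hdetG : ∀ x, M9.det9 (GC x) = 1 := by
  intro x
  cases x <;> decide

theorem hdetGi : ∀ x, M9.det9 (GiC x) = 1 := by
  intro x
  cases x <;> decide

theorem hGGi : ∀ x, (GC x).mul (GiC x) = M9.one := by
  intro x
  cases x <;> decide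

theorem hGsym : ∀ x, (GC x).tr = GC x := by
  intro x
  cases x <;> decide

/-- the matrices in `SL(3, 7)` -/
def G (x : Gen) : S := ofM9 (GC x) (hdetG x)

/-- the inverse matrices in `SL(3, 7)` -/
def Gi (x : Gen) : S := ofM9 (GiC x) (hdetGi x)

theorem G_mul_Gi (x : Gen) : G x * Gi x = 1 := by
  apply eq_one_of_coe
  rw [Matrix.SpecialLinearGroup.coe_mul]
  show M9.toMat (GC x) * M9.toMat (GiC x) = _
  rw [← M9.toMat_mul, hGGi]

theorem G_g : G Gen.g = 1 := eq_one_of_coe _ rfl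

theorem sg_G (x : Gen) : sg (G x) = Gi x := by
  have h1 : tp (G x) = G x := Subtype.ext (by
    show (M9.toMat (GC x)).transpose = M9.toMat (GC x)
    rw [M9.toMat_tr, hGsym])
  rw [sg_apply, h1]
  exact inv_eq_of_mul_eq_one_right (G_mul_Gi x)

theorem sg_Gi (x : Gen) : sg (Gi x) = G x := by rw [← sg_G, sg_sg]

/-- the matrix of a letter, twisted or not -/
def tw (b : Bool) (x : Gen) : S := cond b (Gi x) (G x)

/-- the matrix of a letter, twisted or not -/
def twC (b : Bool) (x : Gen) : M9 := cond b (GiC x) (GC x)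

theorem sg_tw (b : Bool) (x : Gen) : sg (tw b x) = tw (!b) x := by
  cases b
  · exact sg_G x
  · exact sg_Gi x

/-- the matrix of a word -/
def altW : Bool → List (Gen × Bool) → S
  | _, [] => 1
  | b, ℓ :: L => tw b ℓ.1 * altW (xor b (par ℓ.1)) L

/-- the matrix of a word, computed -/
def evalC : Bool → List (Gen × Bool) → M9
  | _, [] => M9.one
  | b, ℓ :: L => (twC b ℓ.1).mul (evalC (xor b (par ℓ.1)) L)

/-- the parity of a word -/
def parW : List (Gen × Bool) → Bool
  | [] => false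
  | ℓ :: L => xor (par ℓ.1) (parW L)

theorem altW_coe (b : Bool) (L : List (Gen × Bool)) : (altW b L).1 = M9.toMat (evalC b L) := by
  induction L generalizing b with
  | nil =>
    show (1 : S).1 = M9.toMat M9.one
    rw [M9.toMat_one]
    rfl
  | cons ℓ L ih =>
    rw [altW, evalC, Matrix.SpecialLinearGroup.coe_mul, M9.toMat_mul, ih]
    congr 1
    cases b <;> rfl

theorem sg_altW (b : Bool) (L : List (Gen × Bool)) : sg (altW b L) = altW (!b) L := by
  induction L generalizing b with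
  | nil =>
    show sg 1 = 1
    exact map_one sg
  | cons ℓ L ih =>
    rw [altW, altW, map_mul, sg_tw, ih]
    congr 2
    cases b <;> cases par ℓ.1 <;> rfl

/-- the images of the generators: polarities -/
def Θgen (x : Gen) : MulAut S := MulAut.conj (G x) * sp (par x)

theorem Θgen_sq (x : Gen) : Θgen x * Θgen x = 1 := by
  unfold Θgen
  rw [mul_assoc, ← mul_assoc (sp (par x)), aut_mul_conj, mul_assoc, sp_mul, Bool.xor_self,
    ← mul_assoc, ← map_mul]
  have h : G x * (sp (par x)) (G x) = 1 := by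
    cases x
    · show G Gen.g * G Gen.g = 1
      rw [G_g, mul_one]
    all_goals
      show G _ * sg (G _) = 1
      rw [sg_G, G_mul_Gi]
  rw [h, map_one]
  rfl

theorem prod_eq (L : List (Gen × Bool)) :
    (L.map fun ℓ => cond ℓ.2 (Θgen ℓ.1) (Θgen ℓ.1)⁻¹).prod
      = MulAut.conj (altW false L) * sp (parW L) := by
  induction L with
  | nil =>
    show (1 : MulAut S) = MulAut.conj 1 * 1
    rw [map_one, mul_one]
  | cons ℓ L ih =>
    have hinv : (Θgen ℓ.1)⁻¹ = Θgen ℓ.1 := inv_eq_of_mul_eq_one_left (Θgen_sq ℓ.1)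
    have h1 : cond ℓ.2 (Θgen ℓ.1) (Θgen ℓ.1)⁻¹ = Θgen ℓ.1 := by
      rw [hinv]
      cases ℓ.2 <;> rfl
    rw [List.map_cons, List.prod_cons, ih, h1]
    unfold Θgen
    rw [mul_assoc, ← mul_assoc (sp (par ℓ.1)), aut_mul_conj, mul_assoc, sp_mul, ← mul_assoc,
      ← map_mul]
    have h2 : (sp (par ℓ.1)) (altW false L) = altW (par ℓ.1) L := by
      cases h : par ℓ.1
      · rfl
      · exact sg_altW false L
    have h3 : altW false (ℓ :: L) = G ℓ.1 * altW (par ℓ.1) L := by
      rw [altW, Bool.false_xor]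
      rfl
    rw [h2, h3, parW]

/-- the images of the generators under the sign -/
def εgen (x : Gen) : Multiplicative (ZMod 2) := cond (par x) (Multiplicative.ofAdd 1) 1

theorem εprod_eq (L : List (Gen × Bool)) :
    (L.map fun ℓ => cond ℓ.2 (εgen ℓ.1) (εgen ℓ.1)⁻¹).prod
      = cond (parW L) (Multiplicative.ofAdd (1 : ZMod 2)) 1 := by
  induction L with
  | nil => rfl
  | cons ℓ L ih =>
    have hinv : ∀ u : Multiplicative (ZMod 2), u⁻¹ = u := by decide
    have h1 : cond ℓ.2 (εgen ℓ.1) (εgen ℓ.1)⁻¹ = εgen ℓ.1 := by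
      rw [hinv]
      cases ℓ.2 <;> rfl
    rw [List.map_cons, List.prod_cons, ih, h1]
    unfold εgen
    rw [parW]
    have h2 : (Multiplicative.ofAdd (1 : ZMod 2)) * Multiplicative.ofAdd (1 : ZMod 2) = 1 := by
      decide
    cases par ℓ.1 <;> cases parW L <;> simp [h2]

section main

variable (RL : List (List (Gen × Bool))) (hpar : ∀ L ∈ RL, parW L = false)
  (hsc : ∀ L ∈ RL, evalC false L = M9.sc 1 ∨ evalC false L = M9.sc 2 ∨ evalC false L = M9.sc 4)

include hpar hsc in
theorem hΘ : ∀ r ∈ relSet RL, FreeGroup.lift Θgen r = 1 := by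
  rintro r ⟨L, hL, rfl⟩
  rw [FreeGroup.lift_mk, prod_eq, hpar L hL]
  have h1 : MulAut.conj (altW false L) = 1 := by
    rcases hsc L hL with h | h | h
    · exact conj_eq_one_of_sc _ 1 (by decide) (by rw [altW_coe, h])
    · exact conj_eq_one_of_sc _ 2 (by decide) (by rw [altW_coe, h])
    · exact conj_eq_one_of_sc _ 4 (by decide) (by rw [altW_coe, h])
  rw [h1]
  rfl

include hpar in
theorem hε : ∀ r ∈ relSet RL, FreeGroup.lift εgen r = 1 := by
  rintro r ⟨L, hL, rfl⟩
  rw [FreeGroup.lift_mk, εprod_eq, hpar L hL]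
  rfl

end main

/-- the words for the transvections -/
def W01 : List (Gen × Bool) := [(Gen.a, true), (Gen.b, true), (Gen.c, true), (Gen.d, true), (Gen.c, true), (Gen.b, true), (Gen.d, true), (Gen.e, true), (Gen.d, true), (Gen.c, true), (Gen.b, true), (Gen.d, true), (Gen.c, true), (Gen.b, true), (Gen.e, true), (Gen.d, true), (Gen.c, true), (Gen.b, true), (Gen.a, true), (Gen.d, true), (Gen.c, true), (Gen.e, true), (Gen.d, true), (Gen.c, true), (Gen.b, true), (Gen.a, true)]
/-- the words for the transvections -/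
def W02 : List (Gen × Bool) := [(Gen.b, true), (Gen.a, true), (Gen.c, true), (Gen.e, true), (Gen.d, true), (Gen.c, true), (Gen.b, true), (Gen.f, true), (Gen.e, true), (Gen.d, true), (Gen.c, true), (Gen.b, true), (Gen.d, true), (Gen.c, true), (Gen.b, true), (Gen.d, true), (Gen.e, true), (Gen.d, true), (Gen.c, true), (Gen.b, true), (Gen.d, true), (Gen.c, true), (Gen.e, true), (Gen.d, true), (Gen.c, true), (Gen.b, true), (Gen.f, true), (Gen.e, true)]
/-- the words for the transvections -/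
def W10 : List (Gen × Bool) := [(Gen.b, true), (Gen.a, true), (Gen.c, true), (Gen.d, true), (Gen.c, true), (Gen.b, true), (Gen.e, true), (Gen.d, true), (Gen.c, true), (Gen.b, true), (Gen.d, true), (Gen.c, true), (Gen.b, true), (Gen.d, true), (Gen.e, true), (Gen.d, true), (Gen.c, true), (Gen.b, true), (Gen.d, true), (Gen.c, true), (Gen.e, true), (Gen.d, true), (Gen.c, true), (Gen.b, true)]
/-- the words for the transvections -/
def W12 : List (Gen × Bool) := [(Gen.a, true), (Gen.b, true), (Gen.a, true), (Gen.d, true), (Gen.c, true), (Gen.d, true), (Gen.c, true), (Gen.b, true), (Gen.e, true), (Gen.d, true), (Gen.c, true), (Gen.b, true), (Gen.d, true), (Gen.c, true), (Gen.b, true), (Gen.d, true), (Gen.e, true), (Gen.d, true), (Gen.c, true), (Gen.b, true), (Gen.d, true), (Gen.c, true), (Gen.e, true), (Gen.d, true), (Gen.c, true), (Gen.b, true), (Gen.a, true), (Gen.d, true)]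
/-- the words for the transvections -/
def W20 : List (Gen × Bool) := [(Gen.a, true), (Gen.b, true), (Gen.a, true), (Gen.e, true), (Gen.d, true), (Gen.c, true), (Gen.d, true), (Gen.c, true), (Gen.b, true), (Gen.e, true), (Gen.d, true), (Gen.c, true), (Gen.b, true), (Gen.d, true), (Gen.c, true), (Gen.b, true), (Gen.d, true), (Gen.e, true), (Gen.d, true), (Gen.c, true), (Gen.b, true), (Gen.d, true), (Gen.c, true), (Gen.e, true), (Gen.d, true), (Gen.c, true), (Gen.b, true), (Gen.a, true), (Gen.d, true), (Gen.e, true)]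
/-- the words for the transvections -/
def W21 : List (Gen × Bool) := [(Gen.b, true), (Gen.a, true), (Gen.c, true), (Gen.d, true), (Gen.c, true), (Gen.b, true), (Gen.f, true), (Gen.e, true), (Gen.d, true), (Gen.c, true), (Gen.b, true), (Gen.d, true), (Gen.c, true), (Gen.b, true), (Gen.d, true), (Gen.e, true), (Gen.d, true), (Gen.c, true), (Gen.b, true), (Gen.d, true), (Gen.c, true), (Gen.e, true), (Gen.d, true), (Gen.c, true), (Gen.b, true), (Gen.f, true)]

/-- a word gives an element of the kernel of the sign with a prescribed image -/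
theorem pr_of_word {Q : Type} [Group Q] (mkQ : List (Gen × Bool) → Q) (Θ : Q →* MulAut S)
    (ε : Q →* Multiplicative (ZMod 2))
    (hΘw : ∀ L : List (Gen × Bool), Θ (mkQ L) = MulAut.conj (altW false L) * sp (parW L))
    (hεw : ∀ L : List (Gen × Bool), ε (mkQ L) = cond (parW L) (Multiplicative.ofAdd (1 : ZMod 2)) 1)
    (W : List (Gen × Bool)) (k : ℕ) (hk : k ^ 3 % 7 = 1) (t : M9) (T : S) (hT : T.1 = M9.toMat t)
    (hp : parW W = false) (hW : evalC false W = (M9.sc k).mul t) :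
    ∃ q : Q, ε q = 1 ∧ Θ q = MulAut.conj T := by
  refine ⟨mkQ W, ?_, ?_⟩
  · rw [hεw, hp]
    rfl
  · rw [hΘw, hp, conj_eq_of_sc (altW false W) T k hk t (by rw [altW_coe, hW]) hT]
    exact mul_one _

theorem pr01 {Q : Type} [Group Q] (mkQ : List (Gen × Bool) → Q) (Θ : Q →* MulAut S)
    (ε : Q →* Multiplicative (ZMod 2))
    (hΘw : ∀ L : List (Gen × Bool), Θ (mkQ L) = MulAut.conj (altW false L) * sp (parW L))
    (hεw : ∀ L : List (Gen × Bool), ε (mkQ L) = cond (parW L) (Multiplicative.ofAdd (1 : ZMod 2)) 1)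
    (hij : (0 : Fin 3) ≠ 1) :
    ∃ q : Q, ε q = 1 ∧ Θ q = MulAut.conj (Matrix.SpecialLinearGroup.transvection hij (1 : ZMod 7)) :=
  pr_of_word mkQ Θ ε hΘw hεw W01 2 (by decide) ⟨1, 1, 0, 0, 1, 0, 0, 0, 1⟩ _
    (by ext a b; fin_cases a <;> fin_cases b <;>
      simp [Matrix.SpecialLinearGroup.transvection_coe, M9.toMat])
    (by decide) (by decide)

theorem pr02 {Q : Type} [Group Q] (mkQ : List (Gen × Bool) → Q) (Θ : Q →* MulAut S)
    (ε : Q →* Multiplicative (ZMod 2))
    (hΘw : ∀ L : List (Gen × Bool), Θ (mkQ L) = MulAut.conj (altW false L) * sp (parW L))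
    (hεw : ∀ L : List (Gen × Bool), ε (mkQ L) = cond (parW L) (Multiplicative.ofAdd (1 : ZMod 2)) 1)
    (hij : (0 : Fin 3) ≠ 2) :
    ∃ q : Q, ε q = 1 ∧ Θ q = MulAut.conj (Matrix.SpecialLinearGroup.transvection hij (1 : ZMod 7)) :=
  pr_of_word mkQ Θ ε hΘw hεw W02 4 (by decide) ⟨1, 0, 1, 0, 1, 0, 0, 0, 1⟩ _
    (by ext a b; fin_cases a <;> fin_cases b <;>
      simp [Matrix.SpecialLinearGroup.transvection_coe, M9.toMat])
    (by decide) (by decide)

theorem pr10 {Q : Type} [Group Q] (mkQ : List (Gen × Bool) → Q) (Θ : Q →* MulAut S)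
    (ε : Q →* Multiplicative (ZMod 2))
    (hΘw : ∀ L : List (Gen × Bool), Θ (mkQ L) = MulAut.conj (altW false L) * sp (parW L))
    (hεw : ∀ L : List (Gen × Bool), ε (mkQ L) = cond (parW L) (Multiplicative.ofAdd (1 : ZMod 2)) 1)
    (hij : (1 : Fin 3) ≠ 0) :
    ∃ q : Q, ε q = 1 ∧ Θ q = MulAut.conj (Matrix.SpecialLinearGroup.transvection hij (1 : ZMod 7)) :=
  pr_of_word mkQ Θ ε hΘw hεw W10 4 (by decide) ⟨1, 0, 0, 1, 1, 0, 0, 0, 1⟩ _
    (by ext a b; fin_cases a <;> fin_cases b <;>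
      simp [Matrix.SpecialLinearGroup.transvection_coe, M9.toMat])
    (by decide) (by decide)

theorem pr12 {Q : Type} [Group Q] (mkQ : List (Gen × Bool) → Q) (Θ : Q →* MulAut S)
    (ε : Q →* Multiplicative (ZMod 2))
    (hΘw : ∀ L : List (Gen × Bool), Θ (mkQ L) = MulAut.conj (altW false L) * sp (parW L))
    (hεw : ∀ L : List (Gen × Bool), ε (mkQ L) = cond (parW L) (Multiplicative.ofAdd (1 : ZMod 2)) 1)
    (hij : (1 : Fin 3) ≠ 2) :
    ∃ q : Q, ε q = 1 ∧ Θ q = MulAut.conj (Matrix.SpecialLinearGroup.transvection hij (1 : ZMod 7)) :=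
  pr_of_word mkQ Θ ε hΘw hεw W12 1 (by decide) ⟨1, 0, 0, 0, 1, 1, 0, 0, 1⟩ _
    (by ext a b; fin_cases a <;> fin_cases b <;>
      simp [Matrix.SpecialLinearGroup.transvection_coe, M9.toMat])
    (by decide) (by decide)

theorem pr20 {Q : Type} [Group Q] (mkQ : List (Gen × Bool) → Q) (Θ : Q →* MulAut S)
    (ε : Q →* Multiplicative (ZMod 2))
    (hΘw : ∀ L : List (Gen × Bool), Θ (mkQ L) = MulAut.conj (altW false L) * sp (parW L))
    (hεw : ∀ L : List (Gen × Bool), ε (mkQ L) = cond (parW L) (Multiplicative.ofAdd (1 : ZMod 2)) 1)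
    (hij : (2 : Fin 3) ≠ 0) :
    ∃ q : Q, ε q = 1 ∧ Θ q = MulAut.conj (Matrix.SpecialLinearGroup.transvection hij (1 : ZMod 7)) :=
  pr_of_word mkQ Θ ε hΘw hεw W20 4 (by decide) ⟨1, 0, 0, 0, 1, 0, 1, 0, 1⟩ _
    (by ext a b; fin_cases a <;> fin_cases b <;>
      simp [Matrix.SpecialLinearGroup.transvection_coe, M9.toMat])
    (by decide) (by decide)

theorem pr21 {Q : Type} [Group Q] (mkQ : List (Gen × Bool) → Q) (Θ : Q →* MulAut S)
    (ε : Q →* Multiplicative (ZMod 2))
    (hΘw : ∀ L : List (Gen × Bool), Θ (mkQ L) = MulAut.conj (altW false L) * sp (parW L))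
    (hεw : ∀ L : List (Gen × Bool), ε (mkQ L) = cond (parW L) (Multiplicative.ofAdd (1 : ZMod 2)) 1)
    (hij : (2 : Fin 3) ≠ 1) :
    ∃ q : Q, ε q = 1 ∧ Θ q = MulAut.conj (Matrix.SpecialLinearGroup.transvection hij (1 : ZMod 7)) :=
  pr_of_word mkQ Θ ε hΘw hεw W21 1 (by decide) ⟨1, 0, 0, 0, 1, 0, 0, 1, 1⟩ _
    (by ext a b; fin_cases a <;> fin_cases b <;>
      simp [Matrix.SpecialLinearGroup.transvection_coe, M9.toMat])
    (by decide) (by decide)

/-- The presented group of a sub-presentation satisfying the relations of the polarities, of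
order at most `2 * |PSL(3, 7)|`, has a subgroup of index 2 isomorphic to `PSL(3, 7)`: the kernel
of the sign. -/
theorem main (RL : List (List (Gen × Bool))) (hpar : ∀ L ∈ RL, parW L = false)
    (hsc : ∀ L ∈ RL, evalC false L = M9.sc 1 ∨ evalC false L = M9.sc 2 ∨ evalC false L = M9.sc 4)
    [Finite (PresentedGroup (relSet RL))]
    (hcard : Nat.card (PresentedGroup (relSet RL)) ≤ 2 * 1876896) :
    ∃ ε : PresentedGroup (relSet RL) →* Multiplicative (ZMod 2),
      ε.ker.index = 2 ∧ Nonempty (ε.ker ≃* P) := by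
  let mkQ : List (Gen × Bool) → PresentedGroup (relSet RL) :=
    fun L => PresentedGroup.mk (relSet RL) (FreeGroup.mk L)
  let Θ : PresentedGroup (relSet RL) →* MulAut S := PresentedGroup.toGroup (hΘ RL hpar hsc)
  let ε : PresentedGroup (relSet RL) →* Multiplicative (ZMod 2) :=
    PresentedGroup.toGroup (hε RL hpar)
  have hΘw : ∀ L : List (Gen × Bool), Θ (mkQ L) = MulAut.conj (altW false L) * sp (parW L) := by
    intro L
    show FreeGroup.lift Θgen (FreeGroup.mk L) = _
    rw [FreeGroup.lift_mk, prod_eq]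
  have hεw : ∀ L : List (Gen × Bool),
      ε (mkQ L) = cond (parW L) (Multiplicative.ofAdd (1 : ZMod 2)) 1 := by
    intro L
    show FreeGroup.lift εgen (FreeGroup.mk L) = _
    rw [FreeGroup.lift_mk, εprod_eq]
  have hrep : ∀ q : PresentedGroup (relSet RL), ∃ L, q = mkQ L := by
    intro q
    obtain ⟨w, rfl⟩ := QuotientGroup.mk_surjective q
    rcases w with ⟨L⟩
    exact ⟨L, rfl⟩
  have hidx : ε.ker.index = 2 := by
    rw [Subgroup.index_ker]
    have hsurj : Function.Surjective ε := by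
      intro u
      have hu : ∀ u : Multiplicative (ZMod 2), u = 1 ∨ u = Multiplicative.ofAdd (1 : ZMod 2) := by
        decide
      rcases hu u with rfl | rfl
      · exact ⟨1, map_one ε⟩
      · exact ⟨mkQ [(Gen.a, true)], by rw [hεw]; rfl⟩
    rw [MonoidHom.range_eq_top.mpr hsurj, Subgroup.card_top]
    rw [Nat.card_eq_fintype_card]
    rfl
  have hker : ∀ q : ε.ker, (Θ.comp ε.ker.subtype) q ∈ (MulAut.conj : S →* MulAut S).range := by
    rintro ⟨q, hq⟩
    obtain ⟨L, rfl⟩ := hrep q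
    rw [MonoidHom.mem_ker, hεw] at hq
    have hp : parW L = false := by
      cases h : parW L
      · rfl
      · rw [h] at hq
        exact absurd hq (by decide)
    show Θ (mkQ L) ∈ _
    rw [hΘw, hp]
    exact ⟨altW false L, (mul_one _).symm⟩
  let f0 : ε.ker →* (MulAut.conj : S →* MulAut S).range :=
    (Θ.comp ε.ker.subtype).codRestrict _ hker
  have hPr : ∀ M : S, ∃ q : PresentedGroup (relSet RL), ε q = 1 ∧ Θ q = MulAut.conj M := by
    intro M
    refine Cfsg.Agent.Lib.helper2.SLGen.transvection_induction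
      (fun M => ∃ q : PresentedGroup (relSet RL), ε q = 1 ∧ Θ q = MulAut.conj M) ?_ ?_ M
    · intro i j hij a
      have h1 : ∃ q : PresentedGroup (relSet RL), ε q = 1 ∧
          Θ q = MulAut.conj (Matrix.SpecialLinearGroup.transvection hij (1 : ZMod 7)) := by
        fin_cases i <;> fin_cases j
        · exact absurd rfl hij
        · exact pr01 mkQ Θ ε hΘw hεw hij
        · exact pr02 mkQ Θ ε hΘw hεw hij
        · exact pr10 mkQ Θ ε hΘw hεw hij
        · exact absurd rfl hij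
        · exact pr12 mkQ Θ ε hΘw hεw hij
        · exact pr20 mkQ Θ ε hΘw hεw hij
        · exact pr21 mkQ Θ ε hΘw hεw hij
        · exact absurd rfl hij
      obtain ⟨q, hq1, hq2⟩ := h1
      refine ⟨q ^ a.val, by rw [map_pow, hq1, one_pow], ?_⟩
      rw [map_pow, hq2, ← map_pow, ← transvection_natCast, ZMod.natCast_zmod_val]
    · rintro A B ⟨q1, h1, h1'⟩ ⟨q2, h2, h2'⟩
      exact ⟨q1 * q2, by rw [map_mul, h1, h2, one_mul], by rw [map_mul, h1', h2', map_mul]⟩
  have hsurj0 : Function.Surjective f0 := by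
    rintro ⟨y, M, rfl⟩
    obtain ⟨q, hq1, hq2⟩ := hPr M
    exact ⟨⟨q, hq1⟩, Subtype.ext hq2⟩
  let f : ε.ker →* P := innEquiv.symm.toMonoidHom.comp f0
  have hsurj : Function.Surjective f := innEquiv.symm.surjective.comp hsurj0
  have hc1 : Nat.card ε.ker * 2 = Nat.card (PresentedGroup (relSet RL)) := by
    have h := Subgroup.card_mul_index ε.ker
    rw [hidx] at h
    exact h
  have hc2 : Nat.card P ≤ Nat.card ε.ker := Nat.card_le_card_of_surjective f hsurj
  have hc3 : Nat.card ε.ker = Nat.card P := by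
    rw [card_P] at hc2 ⊢
    omega
  exact ⟨ε, hidx, ⟨MulEquiv.ofBijective f
    ((Nat.bijective_iff_surjective_and_card f).mpr ⟨hsurj, hc3⟩)⟩⟩

end Cfsg.Agent.Lib.helper9.L37ON
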