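import Mathlib

namespace Cfsg.Agent.Lib.helper9.S1454X2

open scoped commutatorElement

theorem prod_centralizer {H : Type*} [Group H] [Finite H] (p : ℕ) [Fact p.Prime] (R D : Subgroup H)
    (hR : IsPGroup p R) (hDR : D ≤ R) (hD3 : Nat.card D = p ^ 3)
    (hZ : Nat.card ↥(D ⊓ Subgroup.centralizer (D : Set H)) = p)
    (hDn : R ≤ Subgroup.normalizer (D : Set H))
    (hcomm : ∀ d ∈ D, ∀ r ∈ R, ⁅d, r⁆ ∈ Subgroup.centralizer (D : Set H)) :
    ∀ r ∈ R, ∃ d ∈ D, ∃ c ∈ R ⊓ Subgroup.centralizer (D : Set H), r = d * c := by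
  have hp : p.Prime := Fact.out
  -- D is not abelian
  have hnc : ∃ x ∈ D, ∃ y ∈ D, x * y ≠ y * x := by
    by_contra hcon
    push Not at hcon
    have hle : D ≤ Subgroup.centralizer (D : Set H) := fun d hd =>
      Subgroup.mem_centralizer_iff.mpr (fun h hh => hcon h hh d hd)
    have hZD : D ⊓ Subgroup.centralizer (D : Set H) = D := inf_eq_left.mpr hle
    rw [hZD, hD3] at hZ
    have hlt : p ^ 1 < p ^ 3 := Nat.pow_lt_pow_right hp.one_lt (by norm_num)
    rw [pow_one] at hlt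
    exact hlt.ne' hZ
  obtain ⟨x, hx, y, hy, hxy⟩ := hnc
  -- an element commuting with x and y centralizes D
  have key : ∀ s : H, s * x = x * s → s * y = y * s → s ∈ Subgroup.centralizer (D : Set H) := by
    intro s hsx hsy
    have hxT : x ∈ D ⊓ Subgroup.centralizer ({s} : Set H) :=
      ⟨hx, Subgroup.mem_centralizer_iff.mpr (fun h hh => by
        rw [Set.mem_singleton_iff.mp hh]; exact hsx)⟩
    have hyT : y ∈ D ⊓ Subgroup.centralizer ({s} : Set H) :=
      ⟨hy, Subgroup.mem_centralizer_iff.mpr (fun h hh => by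
        rw [Set.mem_singleton_iff.mp hh]; exact hsy)⟩
    have hTD : D ⊓ Subgroup.centralizer ({s} : Set H) ≤ D := inf_le_left
    have hdvd : Nat.card ↥(D ⊓ Subgroup.centralizer ({s} : Set H)) ∣ p ^ 3 := by
      rw [← hD3]; exact Subgroup.card_dvd_of_le hTD
    obtain ⟨k, hk, hkc⟩ := (Nat.dvd_prime_pow hp).1 hdvd
    have hTD' : D ⊓ Subgroup.centralizer ({s} : Set H) = D := by
      by_contra hne
      have hk2 : k ≤ 2 := by
        by_contra h3
        have hk3 : k = 3 := by omega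
        subst hk3
        exact hne (Subgroup.eq_of_le_of_card_ge hTD (by rw [hkc, hD3]))
      have hcommT : ∀ a b : ↥(D ⊓ Subgroup.centralizer ({s} : Set H)), a * b = b * a := by
        interval_cases k
        · have hss : Subsingleton ↥(D ⊓ Subgroup.centralizer ({s} : Set H)) :=
            (Nat.card_eq_one_iff_unique.mp (by simpa using hkc)).1
          intro a b; rw [Subsingleton.elim a b]
        · have : IsCyclic ↥(D ⊓ Subgroup.centralizer ({s} : Set H)) :=
            isCyclic_of_prime_card (p := p) (by simpa using hkc)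
          intro a b
          obtain ⟨g, hg⟩ := IsCyclic.exists_generator (α := ↥(D ⊓ Subgroup.centralizer ({s} : Set H)))
          obtain ⟨m, rfl⟩ := Subgroup.mem_zpowers_iff.mp (hg a)
          obtain ⟨n, rfl⟩ := Subgroup.mem_zpowers_iff.mp (hg b)
          exact zpow_mul_comm g m n
        · exact IsPGroup.commutative_of_card_eq_prime_sq hkc
      have h := hcommT ⟨x, hxT⟩ ⟨y, hyT⟩
      exact hxy (congrArg Subtype.val h)
    rw [Subgroup.mem_centralizer_iff]
    intro d hd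
    have hdT : d ∈ D ⊓ Subgroup.centralizer ({s} : Set H) := by rw [hTD']; exact hd
    exact (Subgroup.mem_centralizer_iff.mp hdT.2 s (Set.mem_singleton s)).symm
  have hc : ∀ d ∈ D, ∀ e ∈ D, ⁅d, e⁆ ∈ Subgroup.centralizer (D : Set H) :=
    fun d hd e he => hcomm d hd e (hDR he)
  have hDcomm : ∀ d ∈ D, ∀ r ∈ R, ⁅d, r⁆ ∈ D := by
    intro d hd r hr
    have h1 : r * d⁻¹ * r⁻¹ ∈ D :=
      (Subgroup.mem_normalizer_iff.mp (hDn hr) d⁻¹).mp (D.inv_mem hd)
    have h2 : ⁅d, r⁆ = d * (r * d⁻¹ * r⁻¹) := by rw [commutatorElement_def]; group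
    rw [h2]; exact D.mul_mem hd h1
  have hmul : ∀ a ∈ D, ∀ b ∈ D, ∀ u ∈ D, ⁅a * b, u⁆ = ⁅a, u⁆ * ⁅b, u⁆ := by
    intro a ha b hb u hu
    have hw := Subgroup.mem_centralizer_iff.mp (hc b hb u hu)
    have h1 : ⁅a * b, u⁆ = a * ⁅b, u⁆ * a⁻¹ * ⁅a, u⁆ := by
      simp only [commutatorElement_def]; group
    have haD : ⁅a, u⁆ ∈ D := hDcomm a ha u (hDR hu)
    rw [h1, hw a ha, mul_inv_cancel_right]
    exact (hw _ haD).symm
  let F : ↥D →* H × H := MonoidHom.mk' (fun d => (⁅(d : H), x⁆, ⁅(d : H), y⁆))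
    (fun a b => Prod.ext (hmul a a.2 b b.2 x hx) (hmul a a.2 b b.2 y hy))
  have hker : ∀ d : ↥D, F d = 1 → (d : H) ∈ D ⊓ Subgroup.centralizer (D : Set H) := by
    intro d hd
    have h1 : ⁅(d : H), x⁆ = 1 := congrArg Prod.fst hd
    have h2 : ⁅(d : H), y⁆ = 1 := congrArg Prod.snd hd
    rw [commutatorElement_eq_one_iff_commute] at h1 h2
    exact ⟨d.2, key d h1.eq h2.eq⟩
  have hkc : Nat.card F.ker ≤ p := by
    rw [← hZ]
    exact Nat.card_le_card_of_injective
      (fun d : F.ker => (⟨((d : ↥D) : H), hker d.1 (MonoidHom.mem_ker.mp d.2)⟩ :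
        ↥(D ⊓ Subgroup.centralizer (D : Set H))))
      (by
        intro a b hab
        have h : ((a : ↥D) : H) = ((b : ↥D) : H) :=
          congrArg (fun z : ↥(D ⊓ Subgroup.centralizer (D : Set H)) => (z : H)) hab
        exact Subtype.ext (Subtype.ext h))
  have hcard : Nat.card F.ker * Nat.card F.range = p ^ 3 := by
    rw [← Subgroup.index_ker, Subgroup.card_mul_index, hD3]
  have hrange_le : F.range ≤ (D ⊓ Subgroup.centralizer (D : Set H)).prod
      (D ⊓ Subgroup.centralizer (D : Set H)) := by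
    rintro _ ⟨d, rfl⟩
    exact Subgroup.mem_prod.mpr
      ⟨⟨hDcomm d d.2 x (hDR hx), hcomm d d.2 x (hDR hx)⟩,
       ⟨hDcomm d d.2 y (hDR hy), hcomm d d.2 y (hDR hy)⟩⟩
  have hprod : Nat.card ↥((D ⊓ Subgroup.centralizer (D : Set H)).prod
      (D ⊓ Subgroup.centralizer (D : Set H))) = p * p := by
    rw [Nat.card_congr (Subgroup.prodEquiv _ _).toEquiv, Nat.card_prod, hZ]
  have hrange : F.range = (D ⊓ Subgroup.centralizer (D : Set H)).prod
      (D ⊓ Subgroup.centralizer (D : Set H)) := by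
    apply Subgroup.eq_of_le_of_card_ge hrange_le
    rw [hprod]
    have h1 : Nat.card F.ker * Nat.card F.range ≤ p * Nat.card F.range :=
      Nat.mul_le_mul_right _ hkc
    rw [hcard] at h1
    have h2 : p * (p * p) ≤ p * Nat.card F.range := by
      rw [show p * (p * p) = p ^ 3 by ring]; exact h1
    exact Nat.le_of_mul_le_mul_left h2 hp.pos
  intro r hr
  have hrx : ⁅r, x⁆ ∈ D ⊓ Subgroup.centralizer (D : Set H) := by
    rw [← commutatorElement_inv]
    exact Subgroup.inv_mem _ ⟨hDcomm x hx r hr, hcomm x hx r hr⟩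
  have hry : ⁅r, y⁆ ∈ D ⊓ Subgroup.centralizer (D : Set H) := by
    rw [← commutatorElement_inv]
    exact Subgroup.inv_mem _ ⟨hDcomm y hy r hr, hcomm y hy r hr⟩
  have hmem : ((⁅r, x⁆, ⁅r, y⁆) : H × H) ∈ F.range := by
    rw [hrange]; exact Subgroup.mem_prod.mpr ⟨hrx, hry⟩
  obtain ⟨d, hd⟩ := hmem
  have h1 : ⁅(d : H), x⁆ = ⁅r, x⁆ := congrArg Prod.fst hd
  have h2 : ⁅(d : H), y⁆ = ⁅r, y⁆ := congrArg Prod.snd hd
  have hconj : ∀ u : H, ⁅(d : H), u⁆ = ⁅r, u⁆ →
      ((d : H)⁻¹ * r) * u = u * ((d : H)⁻¹ * r) := by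
    intro u h
    rw [commutatorElement_def, commutatorElement_def] at h
    have h' : (d : H) * u * (d : H)⁻¹ = r * u * r⁻¹ := mul_right_cancel h
    calc ((d : H)⁻¹ * r) * u = (d : H)⁻¹ * (r * u * r⁻¹) * r := by group
      _ = (d : H)⁻¹ * ((d : H) * u * (d : H)⁻¹) * r := by rw [h']
      _ = u * ((d : H)⁻¹ * r) := by group
  exact ⟨d, d.2, (d : H)⁻¹ * r,
    ⟨R.mul_mem (R.inv_mem (hDR d.2)) hr, key _ (hconj x h1) (hconj y h2)⟩, by group⟩

end Cfsg.Agent.Lib.helper9.S1454X2
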